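import Cfsg.Agent.H18.GLTwo
import Cfsg.Agent.S5420

/-! The centralizer of an involution in the affine group of an elementary abelian 2-group. -/

set_option autoImplicit false

namespace Cfsg.Agent.H18

open Matrix

/-- The coordinate space. -/
abbrev AVec (n : ℕ) : Type := ZMod 2 × (Fin n → ZMod 2)

/-- The affine data: an injective map of the coordinate space with full conjugation action. -/
structure AffineData (G : Type*) [Group G] (n : ℕ) where
  U : Subgroup G
  M : Subgroup G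
  ι : AVec n → G
  ι_add : ∀ x y, ι (x + y) = ι x * ι y
  ι_inj : Function.Injective ι
  ι_mem : ∀ x, ι x ∈ U
  ι_surj : ∀ u ∈ U, ∃ x, ι x = u
  normal : U.Normal
  split : ∀ g : G, ∃ u ∈ U, ∃ m ∈ M, g = u * m
  faith : ∀ m ∈ M, (∀ x, m * ι x * m⁻¹ = ι x) → m = 1
  full : ∀ f : AVec n ≃+ AVec n, ∃ m ∈ M, ∀ x, m * ι x * m⁻¹ = ι (f x)

namespace AffineData

variable {G : Type*} [Group G] [Finite G] {n : ℕ} (D : AffineData G n)

theorem ι_zero : D.ι 0 = 1 := by
  have h := D.ι_add 0 0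
  rw [add_zero] at h
  exact left_eq_mul.mp h

theorem ι_comm (x y : AVec n) : D.ι x * D.ι y = D.ι y * D.ι x := by
  rw [← D.ι_add, ← D.ι_add, add_comm]

theorem ι_conj (x y : AVec n) : D.ι x * D.ι y * (D.ι x)⁻¹ = D.ι y := by
  rw [D.ι_comm, mul_inv_cancel_right]

/-- The distinguished involution. -/
def e : G := D.ι ((1 : ZMod 2), 0)

/-- Its centralizer. -/
abbrev C : Subgroup G := Subgroup.centralizer ({D.e} : Set G)

theorem exists_act (g : G) (x : AVec n) : ∃ y, D.ι y = g * D.ι x * g⁻¹ :=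
  D.ι_surj _ (D.normal.conj_mem _ (D.ι_mem x) g)

/-- The action on coordinates. -/
noncomputable def act (g : G) (x : AVec n) : AVec n := (D.exists_act g x).choose

theorem ι_act (g : G) (x : AVec n) : D.ι (D.act g x) = g * D.ι x * g⁻¹ :=
  (D.exists_act g x).choose_spec

theorem act_add (g : G) (x y : AVec n) : D.act g (x + y) = D.act g x + D.act g y := by
  apply D.ι_inj
  rw [D.ι_add, D.ι_act, D.ι_act, D.ι_act, D.ι_add]
  group

theorem act_mul (g h : G) (x : AVec n) : D.act (g * h) x = D.act g (D.act h x) := by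
  apply D.ι_inj
  rw [D.ι_act, D.ι_act, D.ι_act]
  group

theorem act_one (x : AVec n) : D.act 1 x = x := by
  apply D.ι_inj
  rw [D.ι_act]
  group

theorem act_e {c : G} (hc : c ∈ D.C) : D.act c ((1 : ZMod 2), 0) = ((1 : ZMod 2), 0) := by
  apply D.ι_inj
  rw [D.ι_act]
  exact mul_inv_eq_iff_eq_mul.mpr (Subgroup.mem_centralizer_singleton_iff.mp hc)

theorem act_fst_eq {c : G} (hc : c ∈ D.C) (a : ZMod 2) :
    D.act c (a, 0) = (a, 0) := by
  fin_cases a
  · apply D.ι_inj
    rw [D.ι_act]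
    show c * D.ι 0 * c⁻¹ = D.ι 0
    rw [D.ι_zero]; group
  · exact D.act_e hc

theorem act_pair {c : G} (hc : c ∈ D.C) (a : ZMod 2) (w : Fin n → ZMod 2) :
    D.act c (a, w) = (a + (D.act c (0, w)).1, (D.act c (0, w)).2) := by
  have : ((a, w) : AVec n) = (a, 0) + (0, w) := by simp
  rw [this, D.act_add, D.act_fst_eq hc]
  ext <;> simp

/-- The induced map on the quotient by `⟨e⟩`. -/
noncomputable def quotAct (c : G) : (Fin n → ZMod 2) →ₗ[ZMod 2] (Fin n → ZMod 2) :=
  AddMonoidHom.toZModLinearMap 2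
    { toFun := fun w => (D.act c (0, w)).2
      map_zero' := by
        have h := D.act_add c 0 0
        rw [add_zero] at h
        have h0 : D.act c 0 = 0 := left_eq_add.mp h
        show (D.act c (0 : AVec n)).2 = 0
        rw [h0]; rfl
      map_add' := fun x y => by
        rw [← Prod.snd_add, ← D.act_add]
        simp }

theorem quotAct_apply (c : G) (w : Fin n → ZMod 2) : D.quotAct c w = (D.act c (0, w)).2 := rfl

/-- The map to the linear group. -/
noncomputable def θ : ↥D.C →* GL (Fin n) (ZMod 2) :=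
  MonoidHom.toHomUnits
    { toFun := fun c => LinearMap.toMatrix' (D.quotAct (c : G))
      map_one' := by
        rw [show D.quotAct ((1 : ↥D.C) : G) = LinearMap.id from LinearMap.ext fun w => by
          rw [D.quotAct_apply, Subgroup.coe_one, D.act_one]; rfl, LinearMap.toMatrix'_id]
      map_mul' := fun c d => by
        rw [← LinearMap.toMatrix'_comp]
        congr 1
        refine LinearMap.ext fun w => ?_
        rw [LinearMap.comp_apply, D.quotAct_apply, Subgroup.coe_mul, D.act_mul, D.quotAct_apply,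
          D.quotAct_apply]
        conv_lhs => rw [show D.act (d : G) (0, w) =
          ((D.act (d : G) (0, w)).1, (D.act (d : G) (0, w)).2) from rfl]
        rw [D.act_pair c.2] }

theorem θ_val (c : ↥D.C) : (D.θ c).1 = LinearMap.toMatrix' (D.quotAct (c : G)) := rfl

/-- An additive automorphism fixing the distinguished vector, from a block matrix. -/
def block (A : GL (Fin n) (ZMod 2)) (r : Fin n → ZMod 2) : AVec n ≃+ AVec n where
  toFun x := (x.1 + r ⬝ᵥ x.2, A.1.mulVec x.2)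
  invFun x := (x.1 + r ⬝ᵥ (A⁻¹ : GL (Fin n) (ZMod 2)).1.mulVec x.2,
    (A⁻¹ : GL (Fin n) (ZMod 2)).1.mulVec x.2)
  left_inv x := by
    simp only [Matrix.mulVec_mulVec, ← Units.val_mul, inv_mul_cancel, Units.val_one,
      Matrix.one_mulVec]
    rw [add_assoc, CharTwo.add_self_eq_zero, add_zero]
  right_inv x := by
    simp only [Matrix.mulVec_mulVec, ← Units.val_mul, mul_inv_cancel, Units.val_one,
      Matrix.one_mulVec]
    rw [add_assoc, CharTwo.add_self_eq_zero, add_zero]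
  map_add' x y := by
    ext <;> simp [dotProduct_add, Matrix.mulVec_add, add_add_add_comm]

/-- The element of `M` inducing a block automorphism. -/
noncomputable def lift (A : GL (Fin n) (ZMod 2)) (r : Fin n → ZMod 2) : G :=
  (D.full (block A r)).choose

theorem lift_mem (A : GL (Fin n) (ZMod 2)) (r : Fin n → ZMod 2) : D.lift A r ∈ D.M :=
  (D.full (block A r)).choose_spec.1

theorem lift_act (A : GL (Fin n) (ZMod 2)) (r : Fin n → ZMod 2) (x : AVec n) :
    D.act (D.lift A r) x = (x.1 + r ⬝ᵥ x.2, A.1.mulVec x.2) := by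
  apply D.ι_inj
  rw [D.ι_act]
  exact (D.full (block A r)).choose_spec.2 x

theorem eq_of_act {m m' : G} (hm : m ∈ D.M) (hm' : m' ∈ D.M) (h : ∀ x, D.act m x = D.act m' x) :
    m = m' := by
  have h1 : m'⁻¹ * m = 1 := D.faith _ (mul_mem (inv_mem hm') hm) fun x => by
    rw [← D.ι_act, D.act_mul, h, ← D.act_mul, inv_mul_cancel, D.act_one]
  exact (inv_mul_eq_one.mp h1).symm

theorem lift_mul (A B : GL (Fin n) (ZMod 2)) (r s : Fin n → ZMod 2) :
    D.lift A r * D.lift B s = D.lift (A * B) (s + r ᵥ* B.1) := by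
  refine D.eq_of_act (mul_mem (D.lift_mem A r) (D.lift_mem B s)) (D.lift_mem _ _) fun x => ?_
  rw [D.act_mul, D.lift_act, D.lift_act, D.lift_act, Units.val_mul]
  simp [add_dotProduct, Matrix.dotProduct_mulVec, Matrix.mulVec_mulVec, add_assoc]

theorem lift_one : D.lift 1 0 = 1 :=
  D.eq_of_act (D.lift_mem _ _) (one_mem _) fun x => by
    rw [D.lift_act, D.act_one]; simp

theorem lift_mem_C (A : GL (Fin n) (ZMod 2)) (r : Fin n → ZMod 2) : D.lift A r ∈ D.C := by
  rw [Subgroup.mem_centralizer_singleton_iff, ← mul_inv_eq_iff_eq_mul]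
  show D.lift A r * D.ι ((1 : ZMod 2), 0) * (D.lift A r)⁻¹ = D.ι ((1 : ZMod 2), 0)
  rw [← D.ι_act, D.lift_act]
  simp

/-- The section. -/
noncomputable def σ : GL (Fin n) (ZMod 2) →* ↥D.C where
  toFun A := ⟨D.lift A 0, D.lift_mem_C A 0⟩
  map_one' := Subtype.ext D.lift_one
  map_mul' A B := Subtype.ext (by
    show D.lift (A * B) 0 = D.lift A 0 * D.lift B 0
    rw [D.lift_mul, Matrix.zero_vecMul, add_zero])

theorem θ_σ (A : GL (Fin n) (ZMod 2)) : D.θ (D.σ A) = A := by
  apply Units.ext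
  rw [D.θ_val]
  apply Matrix.toLin'.injective
  rw [Matrix.toLin'_toMatrix']
  refine LinearMap.ext fun w => ?_
  rw [D.quotAct_apply]
  show (D.act (D.lift A 0) (0, w)).2 = _
  rw [D.lift_act, Matrix.toLin'_apply]

/-- Elements of the kernel. -/
noncomputable def elt (p : AVec n × (Fin n → ZMod 2)) : G := D.ι p.1 * D.lift 1 p.2

theorem ι_mem_C (x : AVec n) : D.ι x ∈ D.C :=
  Subgroup.mem_centralizer_singleton_iff.mpr (D.ι_comm x _)

theorem act_ι (x y : AVec n) : D.act (D.ι x) y = y := by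
  apply D.ι_inj
  rw [D.ι_act, D.ι_conj]

theorem elt_mem (p : AVec n × (Fin n → ZMod 2)) : D.elt p ∈ D.θ.ker.map D.C.subtype := by
  refine ⟨⟨D.elt p, mul_mem (D.ι_mem_C _) (D.lift_mem_C _ _)⟩, ?_, rfl⟩
  rw [SetLike.mem_coe, MonoidHom.mem_ker]
  apply Units.ext
  rw [D.θ_val]
  show LinearMap.toMatrix' (D.quotAct (D.elt p)) = _
  rw [show D.quotAct (D.elt p) = LinearMap.id from LinearMap.ext fun w => by
    rw [D.quotAct_apply, elt, D.act_mul, D.act_ι, D.lift_act]; simp, LinearMap.toMatrix'_id]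
  rfl

theorem exists_elt {c : G} (hc : c ∈ D.θ.ker.map D.C.subtype) : ∃ p, D.elt p = c := by
  obtain ⟨⟨c, hcC⟩, hker, rfl⟩ := hc
  obtain ⟨u, hu, m, hm, hum⟩ := D.split c
  obtain ⟨x, rfl⟩ := D.ι_surj u hu
  rw [SetLike.mem_coe, MonoidHom.mem_ker] at hker
  have h1 : LinearMap.toMatrix' (D.quotAct c) = 1 := congrArg Units.val hker
  have h2 : ∀ w, (D.act c (0, w)).2 = w := fun w => by
    have h3 := congrArg (fun A => Matrix.toLin' A w) h1
    simpa [Matrix.toLin'_toMatrix', D.quotAct_apply] using h3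
  refine ⟨(x, fun i => (D.act c (0, Pi.single i 1)).1), ?_⟩
  show D.ι x * D.lift 1 _ = c
  rw [hum]
  congr 1
  refine D.eq_of_act (D.lift_mem _ _) hm ?_
  rintro ⟨a, w⟩
  have hmc : D.act m (a, w) = D.act c (a, w) := by
    rw [hum, D.act_mul, D.act_ι]
  rw [← hum, D.lift_act, hmc, D.act_pair hcC, h2]
  refine Prod.ext ?_ (by simp)
  show a + _ ⬝ᵥ w = a + _
  congr 1
  let μ : (Fin n → ZMod 2) →ₗ[ZMod 2] ZMod 2 := AddMonoidHom.toZModLinearMap 2
    (AddMonoidHom.mk' (fun w => (D.act c (0, w)).1) fun x y => by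
      rw [← Prod.fst_add, ← D.act_add]; simp)
  show _ = μ w
  rw [LinearMap.pi_apply_eq_sum_univ μ w]
  refine Finset.sum_congr rfl fun i _ => ?_
  rw [smul_eq_mul, mul_comm]
  congr 1
  show (D.act c (0, Pi.single i 1)).1 = (D.act c (0, fun j => if i = j then 1 else 0)).1
  congr 3
  funext j
  simp [Pi.single_apply, eq_comm]

theorem elt_inj : Function.Injective D.elt := by
  rintro ⟨x, r⟩ ⟨y, s⟩ h
  have h' : D.ι x * D.lift 1 r = D.ι y * D.lift 1 s := h
  have hr : r = s := by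
    funext i
    have h1 : ∀ z, D.act (D.ι x * D.lift 1 r) z = D.act (D.ι y * D.lift 1 s) z := fun z => by rw [h']
    have h2 := congrArg Prod.fst (h1 (0, Pi.single i 1))
    simpa [D.act_mul, D.act_ι, D.lift_act] using h2
  subst hr
  rw [D.ι_inj (mul_right_cancel h')]

theorem card_ker : Nat.card ↥(D.θ.ker.map D.C.subtype) = 2 ^ (2 * n + 1) := by
  rw [← Nat.card_eq_of_bijective (fun p => (⟨D.elt p, D.elt_mem p⟩ : ↥(D.θ.ker.map D.C.subtype)))
    ⟨fun a b h => D.elt_inj (congrArg Subtype.val h),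
      fun c => (D.exists_elt c.2).imp fun p hp => Subtype.ext hp⟩]
  simp [Nat.card_prod, Nat.card_fun, ← pow_succ', ← pow_add]
  ring

theorem elt_mul (x y : AVec n) (r s : Fin n → ZMod 2) :
    D.elt (x, r) * D.elt (y, s) = D.elt (x + (y.1 + r ⬝ᵥ y.2, y.2), r + s) := by
  show D.ι x * D.lift 1 r * (D.ι y * D.lift 1 s) = D.ι _ * D.lift 1 (r + s)
  have e1 : D.ι ((y.1 + r ⬝ᵥ y.2, y.2) : AVec n) = D.lift 1 r * D.ι y * (D.lift 1 r)⁻¹ := by
    rw [← D.ι_act, D.lift_act, Units.val_one, Matrix.one_mulVec]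
  have e2 : D.lift 1 (r + s) = D.lift 1 r * D.lift 1 s := by
    rw [D.lift_mul, one_mul, Units.val_one, Matrix.vecMul_one, add_comm]
  rw [D.ι_add, e1, e2]
  group

theorem e_eq : D.e = D.elt (((1 : ZMod 2), 0), 0) := by
  show D.ι _ = D.ι _ * D.lift 1 0
  rw [D.lift_one, mul_one]

theorem elt_zero (x : AVec n) : D.elt (x, 0) = D.ι x := by
  show D.ι x * D.lift 1 0 = _
  rw [D.lift_one, mul_one]

theorem pair_of_fst {a : ZMod 2} {g : G} (h : g = D.elt ((a, 0), 0)) : g = 1 ∨ g = D.e := by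
  fin_cases a
  · left
    rw [h]
    show D.ι 0 * D.lift 1 0 = 1
    rw [D.ι_zero, D.lift_one, one_mul]
  · right; rw [h, D.e_eq]; rfl

theorem e_mem : D.e ∈ D.θ.ker.map D.C.subtype := D.e_eq ▸ D.elt_mem _

theorem sq_pair {c : G} (hc : c ∈ D.θ.ker.map D.C.subtype) : c * c = 1 ∨ c * c = D.e := by
  obtain ⟨⟨⟨a, w⟩, r⟩, rfl⟩ := D.exists_elt hc
  refine D.pair_of_fst (a := r ⬝ᵥ w) ?_
  rw [D.elt_mul, show r + r = 0 from funext fun i => CharTwo.add_self_eq_zero (r i)]
  congr 2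
  refine Prod.ext ?_ ?_
  · show a + (a + r ⬝ᵥ w) = r ⬝ᵥ w
    rw [← add_assoc, CharTwo.add_self_eq_zero, zero_add]
  · show w + w = 0
    funext i; exact CharTwo.add_self_eq_zero _

theorem comm_pair {c d : G} (hc : c ∈ D.θ.ker.map D.C.subtype) (hd : d ∈ D.θ.ker.map D.C.subtype) :
    c * d * c⁻¹ * d⁻¹ = 1 ∨ c * d * c⁻¹ * d⁻¹ = D.e := by
  obtain ⟨⟨⟨a, v⟩, r⟩, rfl⟩ := D.exists_elt hc
  obtain ⟨⟨⟨b, w⟩, s⟩, rfl⟩ := D.exists_elt hd
  refine D.pair_of_fst (a := r ⬝ᵥ w + s ⬝ᵥ v) ?_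
  rw [mul_inv_eq_iff_eq_mul, mul_inv_eq_iff_eq_mul, D.elt_mul, D.elt_mul, D.elt_mul]
  congr 1
  have h2 : ∀ x y z : ZMod 2, x + y + z = (x + y + z) := fun _ _ _ => rfl
  refine Prod.ext (Prod.ext ?_ ?_) ?_
  · simp only [Prod.fst_add, Prod.snd_add, zero_dotProduct, dotProduct_zero, add_zero, zero_add]
    have key : ∀ A B R S : ZMod 2, A + (B + R) = R + S + B + (A + S) := by decide
    exact key _ _ _ _
  · simp [add_comm]
  · simp [add_comm]

theorem ker_conj {a c : G} (ha : a ∈ D.C) (hc : c ∈ D.θ.ker.map D.C.subtype) :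
    a * c * a⁻¹ ∈ D.θ.ker.map D.C.subtype := by
  obtain ⟨x, hx, rfl⟩ := Subgroup.mem_map.mp hc
  refine Subgroup.mem_map.mpr ⟨⟨a, ha⟩ * x * (⟨a, ha⟩ : ↥D.C)⁻¹, ?_, ?_⟩
  · rw [MonoidHom.mem_ker] at hx ⊢
    rw [map_mul, map_mul, hx, map_inv, mul_one, mul_inv_cancel]
  · simp only [Subgroup.subtype_apply, Subgroup.coe_mul, Subgroup.coe_inv]

theorem isExtraspecial (hn : 1 ≤ n) : Cfsg.IsExtraspecial 2 ↥(D.θ.ker.map D.C.subtype) := by
  refine isExtraspecial_of_pair (IsPGroup.of_card D.card_ker) D.e_mem ?_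
    (fun c hc d hd => D.comm_pair hc hd) (fun c hc => D.sq_pair hc) ?_ ?_ ?_
  · rw [← D.ι_zero]
    intro h
    have := congrArg Prod.fst (D.ι_inj h)
    exact one_ne_zero this
  · intro c hc hcent
    obtain ⟨⟨⟨a, v⟩, r⟩, rfl⟩ := D.exists_elt hc
    have hv : v = 0 := by
      funext i
      have h := D.elt_inj (by
        simpa only [D.elt_mul] using hcent _ (D.elt_mem ((0, 0), Pi.single i 1)))
      have h1 := congrArg (fun p => p.1.1) h
      simpa using h1
    have hr : r = 0 := by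
      funext i
      have h := D.elt_inj (by
        simpa only [D.elt_mul] using hcent _ (D.elt_mem ((0, Pi.single i 1), 0)))
      have h1 := congrArg (fun p => p.1.1) h
      simpa using h1
    subst hv hr
    exact D.pair_of_fst rfl
  · intro y hy
    obtain ⟨c, -, rfl⟩ := hy
    exact Subgroup.mem_centralizer_singleton_iff.mp c.2
  · refine ⟨_, D.elt_mem ((0, Pi.single ⟨0, hn⟩ 1), 0), _, D.elt_mem ((0, 0), Pi.single ⟨0, hn⟩ 1),
      fun h => ?_⟩
    rw [D.elt_mul, D.elt_mul] at h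
    have h1 := congrArg (fun p => p.1.1) (D.elt_inj h)
    simp at h1

theorem isLarge (hn : 1 ≤ n) (hE : Cfsg.IsElementaryAbelian 2 D.U) :
    Cfsg.IsLargeExtraspecial (D.θ.ker.map D.C.subtype) := by
  have : Fact (Nat.Prime 2) := ⟨Nat.prime_two⟩
  set Q := D.θ.ker.map D.C.subtype with hQ
  have hext := D.isExtraspecial hn
  have hQe : ∀ q ∈ Q, q * D.e = D.e * q := by
    rintro - ⟨c, -, rfl⟩
    exact Subgroup.mem_centralizer_singleton_iff.mp c.2
  have hcent : ∀ g : G, (∀ q ∈ Q, q * g = g * q) → g ∈ Q := by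
    intro g hg
    obtain ⟨u, hu, m, hm, rfl⟩ := D.split g
    obtain ⟨x, rfl⟩ := D.ι_surj u hu
    have hm1 : m = 1 := by
      refine D.eq_of_act hm (one_mem _) fun y => ?_
      have h := hg (D.ι y) (D.elt_zero y ▸ D.elt_mem (y, 0))
      rw [D.act_one]
      calc D.act m y = D.act (D.ι x * m) y := by rw [D.act_mul, D.act_ι]
        _ = y := D.ι_inj (by rw [D.ι_act, ← h, mul_inv_cancel_right])
    subst hm1
    rw [mul_one, ← D.elt_zero x]
    exact D.elt_mem (x, 0)
  have hC : Subgroup.centralizer (Q : Set G) = (Subgroup.center ↥Q).map Q.subtype := by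
    refine le_antisymm (fun x hx => ?_) ?_
    · exact ⟨⟨x, hcent x hx⟩, Subgroup.mem_center_iff.mpr fun y => Subtype.ext (hx y y.2), rfl⟩
    · rintro - ⟨x, hx, rfl⟩ y hy
      exact congrArg Subtype.val (Subgroup.mem_center_iff.mp hx ⟨y, hy⟩)
  have hez : ∀ w ∈ (Subgroup.center ↥Q).map Q.subtype, w = 1 ∨ w = D.e := by
    rintro - ⟨⟨w, hwQ⟩, hw, rfl⟩
    show w = 1 ∨ w = D.e
    obtain ⟨⟨⟨a, v⟩, r⟩, rfl⟩ := D.exists_elt hwQ
    have hcomm : ∀ p, D.elt p * D.elt ((a, v), r) = D.elt ((a, v), r) * D.elt p := fun p =>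
      congrArg Subtype.val (Subgroup.mem_center_iff.mp hw ⟨_, D.elt_mem p⟩)
    have hv : v = 0 := by
      funext i
      have h := D.elt_inj (by simpa only [D.elt_mul] using hcomm ((0, 0), Pi.single i 1))
      have h1 := congrArg (fun p => p.1.1) h
      simpa using h1
    have hr : r = 0 := by
      funext i
      have h := D.elt_inj (by simpa only [D.elt_mul] using hcomm ((0, Pi.single i 1), 0))
      have h1 := congrArg (fun p => p.1.1) h
      simpa using h1
    subst hv hr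
    exact D.pair_of_fst rfl
  refine S5420.result Q hext hC ?_ ?_
  · intro a ha
    have hae : a ∈ D.C := by
      rw [Subgroup.mem_centralizer_singleton_iff]
      refine (ha D.e ⟨⟨D.e, D.e_mem⟩, Subgroup.mem_center_iff.mpr fun y => Subtype.ext ?_, rfl⟩).symm
      exact hQe y y.2
    exact Subgroup.mem_normalizer_fintype fun c hc => D.ker_conj hae hc
  · intro w hw
    refine H19.le_pCore D.normal ?_ (?_ : w ∈ D.U)
    · intro u
      exact ⟨1, Subtype.ext (by simpa using hE.2 u u.2)⟩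
    · rcases hez w hw with rfl | rfl
      exacts [one_mem _, D.ι_mem _]

end AffineData

/-- Coordinates in an elementary abelian 2-group with a prescribed involution as first vector. -/
theorem exists_coordinates {G : Type*} [Group G] [Finite G] {U : Subgroup G} {n : ℕ}
    (hU : Cfsg.IsElementaryAbelian 2 U) (hcard : Nat.card ↥U = 2 ^ (n + 1)) {e : G} (he : e ∈ U)
    (he1 : e ≠ 1) :
    ∃ ι : AVec n → G, (∀ x y, ι (x + y) = ι x * ι y) ∧ Function.Injective ι ∧ (∀ x, ι x ∈ U) ∧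
      (∀ u ∈ U, ∃ x, ι x = u) ∧ ι ((1 : ZMod 2), 0) = e := by
  have : IsMulCommutative ↥U := hU.1
  letI : CommGroup ↥U := { (inferInstance : Group ↥U) with mul_comm := fun a b => hU.1.is_comm.comm a b }
  letI : Module (ZMod 2) (Additive ↥U) := AddCommGroup.zmodModule (fun u => by
    show Additive.ofMul (Additive.toMul u ^ 2) = 0
    rw [show Additive.toMul u ^ 2 = 1 from Subtype.ext (by simpa using hU.2 _ (Additive.toMul u).2)]
    rfl)
  set e0 : Additive ↥U := Additive.ofMul ⟨e, he⟩ with he0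
  have he00 : e0 ≠ 0 := fun h => he1 (congrArg (fun a => ((Additive.toMul a : ↥U) : G)) h)
  obtain ⟨W, hW⟩ := Submodule.exists_isCompl (ZMod 2 ∙ e0)
  let L : (ZMod 2 × ↥W) ≃ₗ[ZMod 2] Additive ↥U :=
    ((LinearEquiv.toSpanNonzeroSingleton (ZMod 2) (Additive ↥U) e0 he00).prodCongr
      (LinearEquiv.refl (ZMod 2) ↥W)).trans (Submodule.prodEquivOfIsCompl _ _ hW)
  have hfr : Module.finrank (ZMod 2) ↥W = n := by
    have h1 : Nat.card (ZMod 2 × ↥W) = 2 ^ (n + 1) := by
      rw [Nat.card_congr L.toEquiv, Nat.card_congr Additive.toMul, hcard]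
    rw [Nat.card_prod, Nat.card_zmod, Module.natCard_eq_pow_finrank (K := ZMod 2) (V := ↥W),
      Nat.card_zmod, ← pow_succ'] at h1
    exact Nat.succ_injective (Nat.pow_right_injective le_rfl h1)
  let L' : AVec n ≃ₗ[ZMod 2] Additive ↥U :=
    ((LinearEquiv.refl (ZMod 2) (ZMod 2)).prodCongr
      (Module.finBasisOfFinrankEq (ZMod 2) ↥W hfr).equivFun.symm).trans L
  refine ⟨fun x => ((Additive.toMul (L' x) : ↥U) : G), fun x y => ?_, ?_, fun x => (Additive.toMul (L' x)).2,
    fun u hu => ⟨L'.symm (Additive.ofMul ⟨u, hu⟩), by simp⟩, ?_⟩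
  · simp [map_add]
  · exact fun x y h => L'.injective (Additive.toMul.injective (Subtype.ext h))
  · have : L' ((1 : ZMod 2), 0) = e0 := by
      simp [L', L, LinearEquiv.toSpanNonzeroSingleton]
    simp [this, he0]

/-- The involution centralizer in an affine group. -/
theorem affine_large {G : Type*} [Group G] [Finite G] (n : ℕ) (hn : 1 ≤ n) (U M : Subgroup G)
    [U.Normal] (hU : Cfsg.IsElementaryAbelian 2 U) (hUcard : Nat.card ↥U = 2 ^ (n + 1))
    (hUM' : U ⊔ M = ⊤) (hfaith : ∀ m ∈ M, (∀ u ∈ U, m * u * m⁻¹ = u) → m = 1)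
    (hfull : ∀ φ : ↥U ≃* ↥U, ∃ m ∈ M, ∀ u : ↥U, ((φ u : ↥U) : G) = m * u * m⁻¹)
    (Z : Subgroup G) (hZU : Z ≤ U) (hZ : Nat.card ↥Z = 2) (Q : Subgroup G)
    (hQ : Q = (Cfsg.pCore 2 ↥(Subgroup.centralizer (Z : Set G))).map
      (Subgroup.centralizer (Z : Set G)).subtype) :
    Cfsg.IsExtraspecial 2 ↥Q ∧ Nat.card ↥Q = 2 ^ (2 * n + 1) ∧
    (∃ E : Subgroup G, E ≤ Q ∧ Cfsg.IsElementaryAbelian 2 E ∧ Nat.card ↥E = 2 ^ (n + 1)) ∧
    Cfsg.IsLargeExtraspecial Q ∧ ∃ K : Subgroup G, K ≤ Subgroup.centralizer (Z : Set G) ∧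
      Q ⊓ K = ⊥ ∧ Q ⊔ K = Subgroup.centralizer (Z : Set G) ∧
      Nonempty (↥K ≃* GL (Fin n) (ZMod 2)) := by
  obtain ⟨⟨e, heZ⟩, he1, huniq⟩ := (Nat.card_eq_two_iff' (1 : ↥Z)).mp hZ
  have he1' : e ≠ 1 := fun h => he1 (Subtype.ext h)
  obtain ⟨ι, hadd, hinj, hmem, hsurj, hιe⟩ := exists_coordinates hU hUcard (hZU heZ) he1'
  let D : AffineData G n :=
    { U := U
      M := M
      ι := ι
      ι_add := hadd
      ι_inj := hinj
      ι_mem := hmem
      ι_surj := hsurj
      normal := inferInstance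
      split := fun g => by
        have hg : g ∈ (↑(U ⊔ M) : Set G) := hUM' ▸ Set.mem_univ g
        rw [Subgroup.normal_mul] at hg
        obtain ⟨u, hu, m, hm, h⟩ := hg
        exact ⟨u, hu, m, hm, h.symm⟩
      faith := fun m hm h => hfaith m hm fun u hu => by
        obtain ⟨x, rfl⟩ := hsurj u hu
        exact h x
      full := fun f => by
        let ε : AVec n ≃ ↥U := Equiv.ofBijective (fun x => (⟨ι x, hmem x⟩ : ↥U))
          ⟨fun a b h => hinj (congrArg Subtype.val h),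
            fun u => (hsurj u u.2).imp fun x hx => Subtype.ext hx⟩
        let φ : ↥U ≃* ↥U :=
          { toEquiv := ε.symm.trans (f.toEquiv.trans ε)
            map_mul' := fun a b => by
              obtain ⟨x, rfl⟩ := ε.surjective a
              obtain ⟨y, rfl⟩ := ε.surjective b
              have e1 : ε x * ε y = ε (x + y) := Subtype.ext (hadd x y).symm
              apply Subtype.ext
              rw [e1]
              simp only [Equiv.toFun_as_coe, Equiv.trans_apply, Equiv.symm_apply_apply]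
              show ι (f (x + y)) = ι (f x) * ι (f y)
              rw [map_add, hadd] }
        obtain ⟨m, hm, h⟩ := hfull φ
        refine ⟨m, hm, fun x => ?_⟩
        have h' := h (ε x)
        have e1 : φ (ε x) = ε (f x) := by
          show ε (f (ε.symm (ε x))) = ε (f x)
          rw [Equiv.symm_apply_apply]
        rw [e1] at h'
        exact h'.symm }
  have hDe : D.e = e := hιe
  have hCeq : Subgroup.centralizer (Z : Set G) = D.C := by
    ext g
    rw [Subgroup.mem_centralizer_singleton_iff, hDe]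
    refine ⟨fun h => (h e heZ).symm, fun h y hy => ?_⟩
    by_cases hy1 : y = 1
    · simp [hy1]
    · have := huniq ⟨y, hy⟩ fun h' => hy1 (congrArg Subtype.val h')
      rw [show y = e from congrArg Subtype.val this]
      exact h.symm
  rw [hCeq] at hQ ⊢
  have hp : IsPGroup 2 D.θ.ker := by
    refine IsPGroup.of_card (n := 2 * n + 1) ?_
    rw [← D.card_ker]
    exact Nat.card_congr (D.θ.ker.equivMapOfInjective _ D.C.subtype_injective).toEquiv
  obtain ⟨hcore, K, hK1, hK2, hK3, hK4⟩ := split_over_gl D.C D.θ D.σ D.θ_σ hp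
  rw [hcore] at hQ
  subst hQ
  refine ⟨D.isExtraspecial hn, D.card_ker, ⟨U, fun u hu => ?_, hU, hUcard⟩, D.isLarge hn hU,
    K, hK1, hK2, hK3, hK4⟩
  obtain ⟨x, rfl⟩ := hsurj u hu
  have := D.elt_mem (x, 0)
  rw [D.elt_zero] at this
  exact this

end Cfsg.Agent.H18
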