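import Cfsg.Agent.H18.LargeExtraspecial
import Cfsg.Agent.H24.PGroupBasic
import Cfsg.Agent.H20.FixedPoints

/-! Central factors of extraspecial 2-groups cut out by coprime action. -/

set_option autoImplicit false

namespace Cfsg.Agent.H18

open scoped commutatorElement

variable {G : Type*} [Group G] [Finite G]

/-- A non-central factor of a central product decomposition of an extraspecial 2-group is
extraspecial. -/
theorem isExtraspecial_of_central_factor {Q H K : Subgroup G} (hQ : Cfsg.IsExtraspecial 2 ↥Q)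
    (hH : H ≤ Q) (hsup : Q ≤ H ⊔ K) (hcomm : ∀ x ∈ H, ∀ y ∈ K, x * y = y * x)
    (hne : ¬ H ≤ (Subgroup.center ↥Q).map Q.subtype) : Cfsg.IsExtraspecial 2 ↥H := by
  have : Fact (Nat.Prime 2) := ⟨Nat.prime_two⟩
  obtain ⟨z, hz1, -, -, hmem⟩ := centerMap_eq_pair Q hQ
  set Z := (Subgroup.center ↥Q).map Q.subtype with hZ
  have hZle : ∀ x ∈ H, (∀ y ∈ H, y * x = x * y) → x ∈ Z := by
    intro x hx h
    have hle : H ⊔ K ≤ Subgroup.centralizer ({x} : Set G) :=
      sup_le (fun y hy => Subgroup.mem_centralizer_singleton_iff.mpr (h y hy))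
        (fun y hy => Subgroup.mem_centralizer_singleton_iff.mpr (hcomm x hx y hy).symm)
    exact (mem_centerMap_iff Q x).mpr
      ⟨hH hx, fun y hy => Subgroup.mem_centralizer_singleton_iff.mp (hle (hsup hy))⟩
  have hc : ∀ x ∈ H, ∀ y ∈ H, ⁅x, y⁆ ∈ Z := fun x hx y hy =>
    ⟨⁅(⟨x, hH hx⟩ : Q), ⟨y, hH hy⟩⁆, commutator_mem_center hQ _ _, rfl⟩
  obtain ⟨a, ha, b, hb, hab⟩ : ∃ a ∈ H, ∃ b ∈ H, ⁅a, b⁆ ≠ 1 := by
    by_contra! h
    exact hne fun x hx => hZle x hx fun y hy =>
      (commutatorElement_eq_one_iff_mul_comm.mp (h x hx y hy)).symm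
  have hzab : ⁅a, b⁆ = z := ((hmem _).mp (hc a ha b hb)).resolve_left hab
  have hzH : z ∈ H := by
    rw [← hzab, commutatorElement_def]
    exact mul_mem (mul_mem (mul_mem ha hb) (inv_mem ha)) (inv_mem hb)
  have hzc : ∀ x : H, x ∈ Subgroup.center ↥H ↔ (x : G) ∈ Z := by
    refine fun x => ⟨fun hx => hZle x x.2 fun y hy =>
      congrArg Subtype.val (Subgroup.mem_center_iff.mp hx ⟨y, hy⟩), fun hx => ?_⟩
    exact Subgroup.mem_center_iff.mpr fun y =>
      Subtype.ext (((mem_centerMap_iff Q _).mp hx).2 y (hH y.2))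
  have hsq : ∀ x : H, x ^ 2 ∈ Subgroup.center ↥H := by
    intro x
    rw [hzc]
    refine ⟨(⟨x, hH x.2⟩ : Q) ^ 2, ?_, rfl⟩
    exact hQ.1.2.1 ▸ H24.pow_mem_frattini hQ.1.1 _
  have hcomm_eq : commutator ↥H = Subgroup.center ↥H := by
    refine le_antisymm ?_ ?_
    · rw [commutator_def, Subgroup.commutator_le]
      intro x _ y _
      rw [hzc]
      exact hc x x.2 y y.2
    · intro x hx
      rcases (hmem _).mp ((hzc x).mp hx) with e | e
      · rw [show x = 1 from Subtype.ext e]; exact one_mem _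
      · rw [show x = ⁅(⟨a, ha⟩ : H), ⟨b, hb⟩⁆ from Subtype.ext (e.trans hzab.symm), commutator_def]
        exact Subgroup.commutator_mem_commutator trivial trivial
  have hp : IsPGroup 2 ↥H := hQ.1.1.to_le hH
  refine ⟨⟨hp, le_antisymm (H24.frattini_le_of _ hcomm_eq.le hsq) ?_, hcomm_eq⟩, ?_⟩
  · rw [← hcomm_eq]; exact H24.commutator_le_frattini hp
  · refine Nat.card_eq_two_iff.mpr ⟨1, ⟨⟨z, hzH⟩, (hzc _).mpr ((hmem z).mpr (Or.inr rfl))⟩, ?_, ?_⟩
    · exact fun e => hz1 (congrArg (fun w : Subgroup.center ↥H => ((w : H) : G)) e).symm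
    · refine Set.eq_univ_of_forall fun x => ?_
      rcases (hmem _).mp ((hzc x).mp x.2) with e | e
      · exact Or.inl (Subtype.ext (Subtype.ext e))
      · exact Or.inr (Subtype.ext (Subtype.ext e))

end Cfsg.Agent.H18
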