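import Mathlib
import Cfsg.Prelude.Def_MonsterType
import Cfsg.Agent.H19.Cores
import Cfsg.Agent.H24.PGroupBasic

/-! The general linear group over two elements has trivial `O₂`; split extensions by it. -/

set_option autoImplicit false

namespace Cfsg.Agent.H18

open Matrix
open scoped commutatorElement

/-- `O₂(GL(n,2)) = 1`. -/
theorem pCore_gl_two (n : ℕ) : Cfsg.pCore 2 (GL (Fin n) (ZMod 2)) = ⊥ := by
  have : Fact (Nat.Prime 2) := ⟨Nat.prime_two⟩
  set N := Cfsg.pCore 2 (GL (Fin n) (ZMod 2)) with hN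
  rw [eq_bot_iff]
  intro g hg
  rw [Subgroup.mem_bot]
  rcases Nat.eq_zero_or_pos n with rfl | hn
  · exact Subsingleton.elim _ _
  let act : MulAction ↥N (Fin n → ZMod 2) :=
    { smul := fun g v => (g.1.1 : Matrix (Fin n) (Fin n) (ZMod 2)).mulVec v
      one_smul := fun v => Matrix.one_mulVec v
      mul_smul := fun g h v => (Matrix.mulVec_mulVec v g.1.1 h.1.1).symm }
  obtain ⟨v, hv, hv0⟩ := (H19.pCore_isPGroup (G := GL (Fin n) (ZMod 2)) 2).exists_fixed_point_of_prime_dvd_card_of_fixed_point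
    (Fin n → ZMod 2) (by rw [Nat.card_fun, Nat.card_fin, Nat.card_zmod]; exact dvd_pow_self 2 hn.ne') (a := 0)
    (fun g => Matrix.mulVec_zero g.1.1)
  have hfix : ∀ k : GL (Fin n) (ZMod 2), k ∈ N → k.1.mulVec v = v := fun k hk => hv ⟨k, hk⟩
  obtain ⟨i, hi⟩ : ∃ i, v i ≠ 0 := by
    by_contra! h
    exact hv0 (funext fun j => (h j).symm)
  have hi1 : v i = 1 := Fin.eq_one_of_ne_zero _ hi
  have hsing : ∀ j, j ≠ i → ∀ k ∈ N,
      (k : GL (Fin n) (ZMod 2)).1.mulVec (Pi.single j 1) = Pi.single j 1 := by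
    intro j hj k hk
    have hT2 : (transvection j i (1 : ZMod 2)) * transvection j i 1 = 1 := by
      rw [transvection_mul_transvection_same _ _ hj, show (1 : ZMod 2) + 1 = 0 from CharTwo.add_self_eq_zero 1,
        transvection_zero]
    let T : GL (Fin n) (ZMod 2) := ⟨transvection j i 1, transvection j i 1, hT2, hT2⟩
    have hconj := hfix _ ((H19.pCore_normal 2 _).conj_mem k hk T⁻¹)
    rw [inv_inv] at hconj
    have hTv : (transvection j i (1 : ZMod 2)).mulVec v = v + Pi.single j 1 := by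
      rw [transvection, Matrix.add_mulVec, Matrix.one_mulVec, Matrix.single_mulVec]
      simp [hi1]
      rfl
    have h2 : k.1.mulVec (v + Pi.single j 1) = v + Pi.single j 1 := by
      rw [← hTv]
      have h3 := congrArg (fun w => (transvection j i (1 : ZMod 2)).mulVec w) hconj
      simp only [Matrix.mulVec_mulVec] at h3
      rw [show ((T⁻¹ * k * T : GL (Fin n) (ZMod 2)) : Matrix (Fin n) (Fin n) (ZMod 2)) =
        transvection j i 1 * k.1 * transvection j i 1 from rfl, ← Matrix.mul_assoc, ← Matrix.mul_assoc,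
        hT2, Matrix.one_mul] at h3
      rwa [Matrix.mulVec_mulVec]
    rw [Matrix.mulVec_add, hfix k hk] at h2
    exact add_left_cancel h2
  have hall : ∀ j, g.1.mulVec (Pi.single j 1) = Pi.single j 1 := by
    intro j
    by_cases hj : j = i
    · subst hj
      have hdec : v = ∑ k, v k • (Pi.single k 1 : Fin n → ZMod 2) := by
        ext l; simp [Finset.sum_apply, Pi.single_apply]
      have h1 := hfix g hg
      rw [hdec, Matrix.mulVec_sum, ← Finset.add_sum_erase _ _ (Finset.mem_univ j),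
        ← Finset.add_sum_erase Finset.univ (fun k => v k • (Pi.single k 1 : Fin n → ZMod 2))
          (Finset.mem_univ j)] at h1
      have hrest : ∀ k ∈ Finset.univ.erase j,
          g.1.mulVec (v k • (Pi.single k 1 : Fin n → ZMod 2)) = v k • Pi.single k 1 := fun k hk => by
        rw [Matrix.mulVec_smul, hsing k (Finset.ne_of_mem_erase hk) g hg]
      rw [Finset.sum_congr rfl hrest, add_left_inj, hi1, one_smul] at h1
      exact h1
    · exact hsing j hj g hg
  apply Units.ext
  refine Matrix.ext fun a b => ?_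
  have := congrFun (hall b) a
  simpa [Matrix.mulVec_single, Pi.single_apply, Matrix.one_apply] using this

/-- A group with a 2-group as the kernel of a split map onto `GL(n,2)`. -/
theorem split_over_gl {G : Type*} [Group G] [Finite G] {n : ℕ} (C : Subgroup G)
    (θ : ↥C →* GL (Fin n) (ZMod 2)) (σ : GL (Fin n) (ZMod 2) →* ↥C) (hσ : ∀ A, θ (σ A) = A)
    (hker : IsPGroup 2 θ.ker) :
    (Cfsg.pCore 2 ↥C).map C.subtype = θ.ker.map C.subtype ∧
      ∃ K : Subgroup G, K ≤ C ∧ θ.ker.map C.subtype ⊓ K = ⊥ ∧ θ.ker.map C.subtype ⊔ K = C ∧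
        Nonempty (↥K ≃* GL (Fin n) (ZMod 2)) := by
  have : Fact (Nat.Prime 2) := ⟨Nat.prime_two⟩
  have hsurj : Function.Surjective θ := fun A => ⟨σ A, hσ A⟩
  have hle : Cfsg.pCore 2 ↥C ≤ θ.ker := by
    intro x hx
    have h : θ x ∈ (Cfsg.pCore 2 ↥C).map θ := ⟨x, hx, rfl⟩
    have h2 := H19.le_pCore (Subgroup.Normal.map (H19.pCore_normal 2 _) θ hsurj)
      ((H19.pCore_isPGroup 2).map θ) h
    rw [pCore_gl_two, Subgroup.mem_bot] at h2
    exact h2
  refine ⟨?_, σ.range.map C.subtype, Subgroup.map_subtype_le _, ?_, ?_, ?_⟩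
  · rw [le_antisymm hle (H19.le_pCore inferInstance hker)]
  · rw [← Subgroup.map_inf _ _ _ C.subtype_injective, Subgroup.map_eq_bot_iff_of_injective _
      C.subtype_injective, eq_bot_iff]
    rintro - ⟨hx, A, rfl⟩
    have : A = 1 := by rw [← hσ A]; exact hx
    rw [this, map_one]; exact one_mem _
  · rw [← Subgroup.map_sup, show θ.ker ⊔ σ.range = ⊤ from eq_top_iff.mpr fun x _ => ?_,
      ← MonoidHom.range_eq_map, Subgroup.range_subtype]
    have e : x = (x * (σ (θ x))⁻¹) * σ (θ x) := by group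
    rw [e]
    exact Subgroup.mul_mem_sup (by simp [MonoidHom.mem_ker, map_mul, hσ]) ⟨_, rfl⟩
  · have hinj : Function.Injective σ := fun A B e => by rw [← hσ A, e, hσ]
    exact ⟨(σ.range.equivMapOfInjective _ C.subtype_injective).symm.trans
      (MonoidHom.ofInjective hinj).symm⟩

/-- A 2-group whose commutators and squares lie in a group of order two that is its centre. -/
theorem isExtraspecial_of_pair {G : Type*} [Group G] [Finite G] {F : Subgroup G} {z : G}
    (hp : IsPGroup 2 ↥F) (hz : z ∈ F) (hz1 : z ≠ 1)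
    (hcomm : ∀ x ∈ F, ∀ y ∈ F, x * y * x⁻¹ * y⁻¹ = 1 ∨ x * y * x⁻¹ * y⁻¹ = z)
    (hsq : ∀ x ∈ F, x * x = 1 ∨ x * x = z)
    (hcent : ∀ x ∈ F, (∀ y ∈ F, y * x = x * y) → x = 1 ∨ x = z)
    (hzc : ∀ y ∈ F, y * z = z * y)
    (hne : ∃ x ∈ F, ∃ y ∈ F, x * y ≠ y * x) : Cfsg.IsExtraspecial 2 ↥F := by
  have : Fact (Nat.Prime 2) := ⟨Nat.prime_two⟩
  have hzm : ∀ X : ↥F, X ∈ Subgroup.center ↥F ↔ X.1 = 1 ∨ X.1 = z := by
    intro X
    refine ⟨fun hX => hcent X X.2 fun q hq =>
      congrArg Subtype.val (Subgroup.mem_center_iff.mp hX ⟨q, hq⟩), fun hX => ?_⟩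
    refine Subgroup.mem_center_iff.mpr fun q => Subtype.ext ?_
    rcases hX with e | e
    · simp [e]
    · simp only [Subgroup.coe_mul, e]; exact hzc _ q.2
  have hle : commutator ↥F ≤ Subgroup.center ↥F := by
    rw [commutator_def, Subgroup.commutator_le]
    intro x _ y _
    rw [hzm]
    exact hcomm x x.2 y y.2
  obtain ⟨a, ha, b, hb, hab⟩ := hne
  have hce : commutator ↥F = Subgroup.center ↥F := by
    refine le_antisymm hle fun X hX => ?_
    rcases (hzm X).mp hX with e | e
    · rw [show X = 1 from Subtype.ext e]; exact one_mem _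
    · have hX' : X = ⁅(⟨a, ha⟩ : ↥F), (⟨b, hb⟩ : ↥F)⁆ := by
        refine Subtype.ext (e.trans ?_)
        rcases hcomm a ha b hb with e' | e'
        · exact absurd (mul_inv_eq_iff_eq_mul.mp (mul_inv_eq_one.mp e')) hab
        · exact e'.symm
      rw [hX', commutator_def]
      exact Subgroup.commutator_mem_commutator trivial trivial
  refine ⟨⟨hp, le_antisymm (H24.frattini_le_of (p := 2) _ hle fun x => (hzm _).mpr ?_) ?_, hce⟩, ?_⟩
  · rw [SubmonoidClass.coe_pow, pow_two]; exact hsq x x.2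
  · rw [← hce]; exact H24.commutator_le_frattini hp
  · refine Nat.card_eq_two_iff.mpr ⟨1, ⟨⟨z, hz⟩, (hzm _).mpr (Or.inr rfl)⟩, ?_, ?_⟩
    · exact fun e => hz1 (congrArg (fun w : Subgroup.center ↥F => w.1.1) e).symm
    · refine Set.eq_univ_of_forall fun X => ?_
      rcases (hzm _).mp X.2 with e | e
      · exact Or.inl (Subtype.ext (Subtype.ext e))
      · exact Or.inr (Subtype.ext (Subtype.ext e))

end Cfsg.Agent.H18
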