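import Mathlib.Data.Fin.VecNotation

/-! Roots and orbit certificates for three orthogonal groups over two elements. -/

set_option autoImplicit false

namespace Cfsg.Agent.H18.Tree

/-- The roots. -/
def rootsFour : Fin 4 → ℕ := ![3, 5, 8, 4]

/-- The images of the sixteen vectors. -/
def tabFour : Fin 4 → List ℕ :=
  ![[0, 2, 1, 3, 4, 6, 5, 7, 8, 10, 9, 11, 12, 14, 13, 15],
    [0, 1, 7, 6, 4, 5, 3, 2, 13, 12, 10, 11, 9, 8, 14, 15],
    [0, 1, 2, 3, 12, 13, 14, 15, 8, 9, 10, 11, 4, 5, 6, 7],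
    [0, 1, 2, 3, 4, 5, 6, 7, 12, 13, 14, 15, 8, 9, 10, 11]]

/-- The roots. -/
def rootsSix : Fin 6 → ℕ := ![5, 11, 18, 10, 7, 32]

/-- The orbit certificate. -/
def orbitSix : List (ℕ × ℕ × Fin 6) :=
  [(14, 5, 1), (25, 11, 2), (24, 18, 3), (50, 18, 5), (13, 10, 4), (28, 14, 2),
    (19, 25, 3), (57, 25, 5), (31, 24, 4), (56, 24, 5), (22, 28, 3), (60, 28, 5),
    (20, 19, 4), (51, 19, 5), (63, 31, 5), (17, 22, 4), (54, 22, 5), (52, 20, 5),
    (33, 51, 2), (49, 17, 5), (36, 54, 2), (38, 52, 2), (35, 49, 2), (47, 36, 1),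
    (44, 38, 3), (40, 35, 1), (41, 35, 3), (34, 40, 3), (48, 34, 2), (16, 48, 5)]

/-- The roots. -/
def rootsEight : Fin 8 → ℕ := ![17, 35, 21, 68, 23, 34, 27, 162]

/-- The orbit certificate. -/
def orbitEight : List (ℕ × ℕ × Fin 8) :=
  [(50, 17, 1), (54, 35, 2), (81, 21, 3), (83, 68, 4), (53, 23, 5), (181, 23, 7),
    (57, 34, 6), (39, 50, 2), (114, 54, 3), (70, 81, 4), (113, 83, 5), (241, 83, 7),
    (46, 53, 6), (151, 53, 7), (99, 39, 3), (101, 114, 4), (100, 70, 5), (228, 70, 7),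
    (106, 113, 6), (211, 113, 7), (140, 46, 7), (116, 99, 4), (71, 101, 5),
    (199, 101, 7), (127, 100, 6), (198, 100, 7), (200, 106, 7), (196, 211, 4),
    (86, 116, 5), (214, 116, 7), (92, 71, 6), (229, 71, 7), (221, 127, 7), (209, 198, 4),
    (223, 200, 4), (77, 86, 6), (244, 86, 7), (254, 92, 7), (242, 229, 4), (202, 221, 4),
    (149, 209, 3), (253, 223, 5), (239, 77, 7), (227, 244, 4), (233, 254, 4),
    (182, 242, 3), (142, 202, 3), (232, 202, 5), (248, 239, 4), (167, 227, 3),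
    (173, 233, 3), (203, 233, 5), (163, 182, 2), (172, 142, 5), (188, 248, 3),
    (218, 248, 5), (178, 167, 2), (184, 173, 2), (143, 173, 5), (187, 172, 4),
    (169, 188, 2), (158, 188, 5), (145, 178, 1), (154, 184, 5), (152, 143, 4),
    (25, 187, 7), (138, 169, 1), (139, 169, 5), (137, 158, 4), (141, 154, 4),
    (58, 152, 7), (168, 138, 5), (156, 139, 4), (43, 137, 7), (201, 141, 3),
    (47, 141, 7), (191, 168, 4), (216, 156, 3), (62, 156, 7), (107, 201, 7),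
    (251, 191, 3), (29, 191, 7), (122, 216, 7), (124, 107, 4), (238, 251, 2),
    (89, 251, 7), (109, 122, 4), (94, 124, 5), (76, 238, 7), (78, 89, 4), (79, 109, 5),
    (69, 94, 6), (91, 76, 4), (108, 78, 5), (84, 79, 6), (31, 91, 3), (121, 91, 5),
    (119, 108, 6), (61, 31, 5), (98, 121, 6), (42, 61, 4), (38, 61, 6), (49, 42, 6),
    (136, 42, 7), (19, 49, 5), (147, 49, 7), (177, 19, 7), (166, 177, 4), (226, 166, 3),
    (247, 226, 2), (212, 247, 1), (197, 212, 0)]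

end Cfsg.Agent.H18.Tree
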