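import Cfsg.Agent.H18.CocycleTree
import Cfsg.Agent.H18.CocycleTreeData
import Cfsg.Agent.H5.OmegaForms
import Cfsg.Agent.H5.Eichler
import Cfsg.Agent.S0824

/-! Vanishing of first cohomology for three small orthogonal groups over two elements. -/

set_option autoImplicit false

namespace Cfsg.Agent.H18.Tree

open QuadraticMap Matrix

section

variable {ι : Type} [Fintype ι] [DecidableEq ι] {N : ℕ}

/-- The check of an orbit certificate. -/
def orbitOK (f : (ι → ZMod 2) → ZMod 2) (a : Fin N → ι → ZMod 2) (dec : ℕ → ι → ZMod 2) :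
    List ℕ → List (ℕ × ℕ × Fin N) → Bool
  | _, [] => true
  | done, (w, p, g) :: l => done.contains p && (decide (dec w = dec p + a g) &&
      (decide (f (dec w) = 1) && orbitOK f a dec (w :: done) l))

theorem orbitOK_spec (Q : QuadraticForm (ZMod 2) (ι → ZMod 2)) {f : (ι → ZMod 2) → ZMod 2}
    (hf : ⇑Q = f) (a : Fin N → ι → ZMod 2) (dec : ℕ → ι → ZMod 2) (ha : ∀ i, f (a i) = 1)
    (S : Subgroup (Cfsg.isometryGroup (ZMod 2) f)) (hS : ∀ i, rt Q hf (a i) ∈ S)
    (l : List (ℕ × ℕ × Fin N)) : ∀ done : List ℕ, orbitOK f a dec done l = true →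
      (∀ w ∈ done, f (dec w) = 1 ∧ rt Q hf (dec w) ∈ S) →
      ∀ w ∈ done ++ l.map Prod.fst, f (dec w) = 1 ∧ rt Q hf (dec w) ∈ S := by
  induction l with
  | nil => intro done _ h w hw; exact h w (by simpa using hw)
  | cons x l ih =>
    obtain ⟨w, p, g⟩ := x
    intro done hok h u hu
    rw [orbitOK, Bool.and_eq_true, Bool.and_eq_true, Bool.and_eq_true, List.contains_iff_mem,
      decide_eq_true_eq, decide_eq_true_eq] at hok
    obtain ⟨hp, hw, hfw, hrest⟩ := hok
    refine ih (w :: done) hrest ?_ u (by simp at hu ⊢; tauto)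
    intro v hv
    rcases List.mem_cons.1 hv with rfl | hv
    swap
    · exact h v hv
    refine ⟨hfw, ?_⟩
    obtain ⟨hfp, hpS⟩ := h p hp
    have hg1 : Q (a g) = 1 := by rw [hf]; exact ha g
    have hp1 : Q (dec p) = 1 := by rw [hf]; exact hfp
    have hpol : polar Q (a g) (dec p) = 1 := by
      have e : Q (dec v) = 1 := by rw [hf]; exact hfw
      rw [hw, add_comm, QuadraticMap.map_add Q, hg1, hp1] at e
      revert e
      generalize polar Q (a g) (dec p) = b
      revert b
      decide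
    have e : rt Q hf (dec v) = rt Q hf (a g) * rt Q hf (dec p) * rt Q hf (a g) := by
      have h1 := H5.refl_conj (H5.refl Q (a g)) (dec p)
      have h2 : ((H5.refl Q (a g) : H5.orth Q) : (ι → ZMod 2) ≃ₗ[ZMod 2] (ι → ZMod 2)) (dec p) =
          dec v := by
        rw [H5.refl_apply, hg1, hpol, hw]
        funext i
        simp [sub_eq_add_neg, CharTwo.neg_eq]
      rw [h2] at h1
      rw [rt, ← h1, map_mul, map_mul, map_inv]
      congr 1
      all_goals exact inv_eq_of_mul_eq_one_right (rt_sq Q hf (a g))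
    rw [e]
    exact S.mul_mem (S.mul_mem (hS g) hpS) (hS g)

/-- Generation from an orbit certificate. -/
theorem closure_eq_top_of_orbit (Q : QuadraticForm (ZMod 2) (ι → ZMod 2))
    {f : (ι → ZMod 2) → ZMod 2} (hf : ⇑Q = f) (hQ : (polarBilin Q).Nondegenerate)
    (h4 : Fintype.card ι ≠ 4) (r : Fin N → ℕ) (dec : ℕ → ι → ZMod 2) (bound : ℕ)
    (hsurj : ∀ x, ∃ m < bound, dec m = x) (ha : ∀ i, f (dec (r i)) = 1)
    (l : List (ℕ × ℕ × Fin N)) (hok : orbitOK f (fun i => dec (r i)) dec (List.ofFn r) l = true)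
    (hall : ∀ m < bound, f (dec m) = 1 → m ∈ List.ofFn r ++ l.map Prod.fst) :
    Subgroup.closure (Set.range fun i => rt Q hf (dec (r i))) = ⊤ := by
  set S := Subgroup.closure (Set.range fun i => rt Q hf (dec (r i)))
  have hS : ∀ i, rt Q hf (dec (r i)) ∈ S := fun i => Subgroup.subset_closure ⟨i, rfl⟩
  have hmem := orbitOK_spec Q hf _ dec ha S hS l _ hok (fun w hw => by
    obtain ⟨i, rfl⟩ := List.mem_ofFn.1 hw
    exact ⟨ha i, hS i⟩)
  have h1 := H5.reflGroup_eq_top hQ (Or.inr (by rwa [Module.finrank_fintype_fun_eq_card]))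
  refine top_le_iff.1 fun g _ => ?_
  have hg : H5.isoEquiv Q hf g ∈ H5.reflGroup Q := by rw [h1]; trivial
  have hle : H5.reflGroup Q ≤ S.map (H5.isoEquiv Q hf).toMonoidHom := by
    refine (Subgroup.closure_le _).2 ?_
    rintro _ ⟨v, hv, rfl⟩
    obtain ⟨m, hm, rfl⟩ := hsurj v
    have key : ∀ b : ZMod 2, b ≠ 0 → b = 1 := by decide
    exact ⟨_, (hmem m (hall m hm (key _ (by rwa [← hf])))).2, MulEquiv.apply_symm_apply _ _⟩
  exact (Subgroup.mem_map_iff_mem (H5.isoEquiv Q hf).injective).1 (hle hg)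

/-- Tree hypotheses from data on codes. -/
theorem rootTree_of (Q : QuadraticForm (ZMod 2) (ι → ZMod 2)) {f : (ι → ZMod 2) → ZMod 2}
    (hf : ⇑Q = f) (hQ : (polarBilin Q).Nondegenerate) (a : Fin N → ι → ZMod 2) (par : Fin N → Fin N)
    (hcard : N = Fintype.card ι) (ha : ∀ i, f (a i) = 1)
    (hsh : ∀ j : Fin N, (j : ℕ) ≠ 0 → ((par j : ℕ) < j ∧ f (a (par j) + a j) = 1 ∧
      ((par j : ℕ) = 0 → (j : ℕ) = 1) ∧
      ((par j : ℕ) ≠ 0 → f (a (par (par j)) + a j) = 0)))
    (hind : ∀ i : ι, ∃ c : Fin N → ZMod 2, ∑ j, c j • a j = Pi.single i 1) :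
    IsRootTree Q a par := by
  have hn : ∀ i, Q (a i) = 1 := fun i => by rw [hf]; exact ha i
  have key : ∀ i j, f (a i + a j) = polar Q (a i) (a j) := fun i j => by
    rw [← hf, QuadraticMap.map_add Q, hn, hn, CharTwo.add_self_eq_zero, zero_add]
  refine ⟨hn, hQ, ?_, hcard, fun j hj => (hsh j hj).1, fun j hj => key _ _ ▸ (hsh j hj).2.1,
    fun j hj => (hsh j hj).2.2.1, fun j hj hp => key _ _ ▸ (hsh j hj).2.2.2 hp⟩
  refine linearIndependent_of_top_le_span_of_card_eq_finrank ?_
    (by rw [Module.finrank_fintype_fun_eq_card, Fintype.card_fin]; exact hcard)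
  intro x _
  rw [pi_eq_sum_univ' x]
  refine Submodule.sum_mem _ fun i _ => Submodule.smul_mem _ _ ?_
  obtain ⟨c, hc⟩ := hind i
  rw [← hc]
  exact Submodule.sum_mem _ fun j _ => Submodule.smul_mem _ _ (Submodule.subset_span ⟨j, rfl⟩)

end

/-- A bit. -/
def bit (m k : ℕ) : ZMod 2 := if (m / 2 ^ k) % 2 = 1 then 1 else 0

/-- Coordinates for the four-dimensional space. -/
def decFour (m : ℕ) : (Fin 1 ⊕ Fin 1) ⊕ Fin 2 → ZMod 2 :=
  Sum.elim (Sum.elim (fun i => bit m i) (fun i => bit m (1 + i))) fun i => bit m (2 + i)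

/-- Coordinates for the six-dimensional space. -/
def decSix (m : ℕ) : (Fin 2 ⊕ Fin 2) ⊕ Fin 2 → ZMod 2 :=
  Sum.elim (Sum.elim (fun i => bit m i) (fun i => bit m (2 + i))) fun i => bit m (4 + i)

/-- Coordinates for the eight-dimensional space. -/
def decEight (m : ℕ) : Fin 4 ⊕ Fin 4 → ZMod 2 :=
  Sum.elim (fun i => bit m i) fun i => bit m (4 + i)

theorem anisotropic_one : ∀ z₁ z₂ : ZMod 2,
    z₁ ^ 2 + 1 * z₁ * z₂ + 1 * z₂ ^ 2 = 0 → z₁ = 0 ∧ z₂ = 0 := by
  decide

theorem eight_top : Subgroup.closure (Set.range fun i =>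
    rt (H5.qPlus 4 (ZMod 2)) (H5.coe_qPlus 4) (decEight (rootsEight i))) = ⊤ :=
  closure_eq_top_of_orbit _ _ (H5.qPlus_nondegenerate 4) (by simp) rootsEight decEight 256
    (by decide +kernel) (by decide +kernel) orbitEight (by decide +kernel) (by decide +kernel)

theorem six_top : Subgroup.closure (Set.range fun i =>
    rt (H5.qMinus 2 (ZMod 2) 1 1) (H5.coe_qMinus 2 1 1) (decSix (rootsSix i))) = ⊤ :=
  closure_eq_top_of_orbit _ _ (H5.qMinus_nondegenerate 2 anisotropic_one) (by simp) rootsSix decSix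
    64 (by decide +kernel) (by decide +kernel) orbitSix (by decide +kernel) (by decide +kernel)

theorem eight_tree : IsRootTree (H5.qPlus 4 (ZMod 2)) (fun i => decEight (rootsEight i))
    ![0, 0, 1, 2, 3, 4, 5, 4] :=
  rootTree_of _ (H5.coe_qPlus 4) (H5.qPlus_nondegenerate 4) _ _ (by simp) (by decide +kernel)
    (by decide +kernel) (by decide +kernel)

theorem six_tree : IsRootTree (H5.qMinus 2 (ZMod 2) 1 1) (fun i => decSix (rootsSix i))
    ![0, 0, 1, 2, 3, 2] :=
  rootTree_of _ (H5.coe_qMinus 2 1 1) (H5.qMinus_nondegenerate 2 anisotropic_one) _ _ (by simp)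
    (by decide +kernel) (by decide +kernel) (by decide +kernel)

theorem four_tree : IsRootTree (H5.qMinus 1 (ZMod 2) 1 1) (fun i => decFour (rootsFour i))
    ![0, 0, 1, 2] :=
  rootTree_of _ (H5.coe_qMinus 1 1 1) (H5.qMinus_nondegenerate 1 anisotropic_one) _ _ (by simp)
    (by decide +kernel) (by decide +kernel) (by decide +kernel)

/-- The normal-form words of the symmetric group of degree five. -/
def words : List (List (Fin 4)) :=
  [[], [0]].flatMap fun u => [[], [1], [1, 0]].flatMap fun v =>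
    [[], [2], [2, 1], [2, 1, 0]].flatMap fun w =>
      [[], [3], [3, 2], [3, 2, 1], [3, 2, 1, 0]].map fun x => u ++ v ++ w ++ x

/-- A word applied to a code. -/
def runWord : List (Fin 4) → ℕ → ℕ
  | [], m => m
  | g :: l, m => (tabFour g).getD (runWord l m) 0

theorem four_tables : ∀ g : Fin 4, ∀ m < 16, (tabFour g).getD m 0 < 16 ∧
    decFour ((tabFour g).getD m 0) =
      decFour m + (Cfsg.quadFormMinus 1 (ZMod 2) 1 1 (decFour (rootsFour g) + decFour m) +
        Cfsg.quadFormMinus 1 (ZMod 2) 1 1 (decFour (rootsFour g)) +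
        Cfsg.quadFormMinus 1 (ZMod 2) 1 1 (decFour m)) • decFour (rootsFour g) := by
  decide +kernel

theorem four_codes : (words.map fun l => [1, 2, 4, 8].map (runWord l)).Nodup := by decide +kernel

theorem decFour_inj : ∀ m < 16, ∀ k < 16, decFour m = decFour k → m = k := by decide +kernel

theorem four_top : Subgroup.closure (Set.range fun i =>
    rt (H5.qMinus 1 (ZMod 2) 1 1) (H5.coe_qMinus 1 1 1) (decFour (rootsFour i))) = ⊤ := by
  classical
  set S := Subgroup.closure (Set.range fun i =>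
    rt (H5.qMinus 1 (ZMod 2) 1 1) (H5.coe_qMinus 1 1 1) (decFour (rootsFour i)))
  let ev : List (Fin 4) → Cfsg.isometryGroup (ZMod 2) (Cfsg.quadFormMinus 1 (ZMod 2) 1 1) := fun l =>
    (l.map fun i => rt (H5.qMinus 1 (ZMod 2) 1 1) (H5.coe_qMinus 1 1 1) (decFour (rootsFour i))).prod
  have hev : ∀ l, ∀ m < 16, runWord l m < 16 ∧ act (ev l) (decFour m) = decFour (runWord l m) := by
    intro l
    induction l with
    | nil => exact fun m hm => ⟨hm, Matrix.one_mulVec _⟩
    | cons g l ih =>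
      intro m hm
      obtain ⟨hlt, he⟩ := ih m hm
      obtain ⟨h1, h2⟩ := four_tables g _ hlt
      refine ⟨h1, ?_⟩
      show act (_ * ev l) _ = decFour ((tabFour g).getD (runWord l m) 0)
      rw [act_mul, he, h2, rt_apply _ _ (four_tree.norm g)]
      congr 2
      simp only [QuadraticMap.polar, H5.coe_qMinus, sub_eq_add_neg, CharTwo.neg_eq]
  have hmemS : ∀ l, ev l ∈ S := fun l => list_prod_mem fun x hx => by
    obtain ⟨i, -, rfl⟩ := List.mem_map.1 hx
    exact Subgroup.subset_closure ⟨i, rfl⟩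
  have hnd : (words.map fun l => (⟨ev l, hmemS l⟩ : S)).Nodup := by
    refine List.Nodup.map_on ?_ (List.Nodup.of_map _ four_codes)
    intro u hu w hw h
    refine List.inj_on_of_nodup_map four_codes hu hw (List.map_congr_left fun m hm => ?_)
    have hm16 : m < 16 := by fin_cases hm <;> norm_num
    refine decFour_inj _ (hev u m hm16).1 _ (hev w m hm16).1 ?_
    rw [← (hev u m hm16).2, ← (hev w m hm16).2, show ev u = ev w from congrArg Subtype.val h]
  have hlen : words.length = 120 := by decide +kernel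
  have h1 : 120 ≤ Nat.card S := by
    have := hnd.length_le_card
    rwa [List.length_map, hlen, ← Nat.card_eq_fintype_card] at this
  have hcard : Nat.card (Cfsg.isometryGroup (ZMod 2) (Cfsg.quadFormMinus 1 (ZMod 2) 1 1)) = 120 := by
    obtain ⟨e⟩ := S0824.result (F := ZMod 2) (ZMod.card 2)
    rw [Nat.card_congr e.toEquiv, Nat.card_perm, Nat.card_fin]
    rfl
  refine Subgroup.eq_top_of_card_eq _ ?_
  have := Subgroup.card_le_card_group S
  omega

end Cfsg.Agent.H18.Tree
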