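import Cfsg.Agent.H5.OrthBasic
import Cfsg.Agent.H5.Reflection
import Mathlib.LinearAlgebra.Matrix.Bilinear

/-! Crossed homomorphisms on the commutator subgroup of an orthogonal group over two elements
generated by the transvections of a tree of roots. -/

set_option autoImplicit false

namespace Cfsg.Agent.H18.Tree

open QuadraticMap Matrix
open scoped commutatorElement

variable {ι : Type} [Fintype ι] [DecidableEq ι] (Q : QuadraticForm (ZMod 2) (ι → ZMod 2))
  {f : (ι → ZMod 2) → ZMod 2} (hf : ⇑Q = f)

/-- The transvection of a root, as an element of the isometry group. -/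
noncomputable def rt (v : ι → ZMod 2) : Cfsg.isometryGroup (ZMod 2) f :=
  (H5.isoEquiv Q hf).symm (H5.refl Q v)

/-- Action of an isometry on a vector. -/
abbrev act (g : Cfsg.isometryGroup (ZMod 2) f) (x : ι → ZMod 2) : ι → ZMod 2 :=
  ((g : GL ι (ZMod 2)) : Matrix ι ι (ZMod 2)) *ᵥ x

theorem act_mul (g h : Cfsg.isometryGroup (ZMod 2) f) (x : ι → ZMod 2) :
    act (g * h) x = act g (act h x) := by
  simp only [act, Subgroup.coe_mul, Units.val_mul, Matrix.mulVec_mulVec]

theorem act_ext {g h : Cfsg.isometryGroup (ZMod 2) f} (e : ∀ x, act g x = act h x) : g = h :=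
  Subtype.ext (Units.ext (Matrix.ext_of_mulVec_single fun _ => e _))

theorem rt_apply {v : ι → ZMod 2} (hv : Q v = 1) (x : ι → ZMod 2) :
    act (rt Q hf v) x = x + polar Q v x • v := by
  show _ *ᵥ x = _
  rw [rt, H5.isoEquiv_symm_apply, H5.refl_apply, hv, inv_one, one_mul]
  funext i
  simp [sub_eq_add_neg, CharTwo.neg_eq]

theorem rt_sq (v : ι → ZMod 2) : rt Q hf v * rt Q hf v = 1 := by
  rw [rt, ← map_mul, H5.refl_mul_self, map_one]

theorem polar_self_zero (v : ι → ZMod 2) : polar Q v v = 0 := by
  rw [QuadraticMap.polar_self, two_smul]; exact CharTwo.add_self_eq_zero _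

/-- Product of two adjacent transvections. -/
theorem pair_apply {a b : ι → ZMod 2} (ha : Q a = 1) (hb : Q b = 1) (hab : polar Q a b = 1)
    (x : ι → ZMod 2) :
    act (rt Q hf a * rt Q hf b) x = x + polar Q b x • b + (polar Q a x + polar Q b x) • a := by
  rw [act_mul, rt_apply Q hf hb, rt_apply Q hf ha, polar_add_right, polar_smul_right, hab,
    smul_eq_mul, mul_one]

theorem braid {a b : ι → ZMod 2} (ha : Q a = 1) (hb : Q b = 1) (hab : polar Q a b = 1) :
    (rt Q hf a * rt Q hf b) * (rt Q hf a * rt Q hf b) * (rt Q hf a * rt Q hf b) = 1 := by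
  refine act_ext fun x => ?_
  simp only [act_mul (g := _ * _ * (rt Q hf a * rt Q hf b)) (h := 1), act_mul, rt_apply Q hf hb,
    rt_apply Q hf ha, polar_add_right, polar_smul_right, polar_self_zero, hab,
    polar_comm (⇑Q) b a, smul_eq_mul, mul_one, mul_zero, add_zero]
  funext i
  simp only [act, OneMemClass.coe_one, Units.val_one, Matrix.one_mulVec, Pi.add_apply, Pi.smul_apply,
    smul_eq_mul]
  generalize polar Q a x = p
  generalize polar Q b x = q
  generalize a i = A
  generalize b i = B
  generalize x i = X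
  revert p q A B X
  decide

variable {N : ℕ} (a : Fin N → ι → ZMod 2) (par : Fin N → Fin N)

/-- The hypotheses on a tree of roots. -/
structure IsRootTree : Prop where
  norm : ∀ i, Q (a i) = 1
  nondeg : (polarBilin Q).Nondegenerate
  indep : LinearIndependent (ZMod 2) a
  card : N = Fintype.card ι
  lt : ∀ j : Fin N, (j : ℕ) ≠ 0 → (par j : ℕ) < j
  edge : ∀ j : Fin N, (j : ℕ) ≠ 0 → polar Q (a (par j)) (a j) = 1
  leaf : ∀ j : Fin N, (j : ℕ) ≠ 0 → (par j : ℕ) = 0 → (j : ℕ) = 1
  grand : ∀ j : Fin N, (j : ℕ) ≠ 0 → (par j : ℕ) ≠ 0 → polar Q (a (par (par j))) (a j) = 0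

variable {Q hf a par}

theorem IsRootTree.exists_dual (H : IsRootTree Q a par) (β : Fin N → ZMod 2) :
    ∃ v, ∀ i, polar Q v (a i) = β i := by
  classical
  let φ : (ι → ZMod 2) →ₗ[ZMod 2] Fin N → ZMod 2 :=
    LinearMap.pi fun i => (polarBilin Q).flip (a i)
  have hspan : Submodule.span (ZMod 2) (Set.range a) = ⊤ :=
    H.indep.span_eq_top_of_card_eq_finrank' (by
      rw [Module.finrank_fintype_fun_eq_card, Fintype.card_fin]; exact H.card)
  have hinj : Function.Injective φ := by
    rw [injective_iff_map_eq_zero]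
    intro v hv
    refine H.nondeg.1 v fun y => ?_
    have hy : y ∈ Submodule.span (ZMod 2) (Set.range a) := hspan ▸ Submodule.mem_top
    refine (Submodule.span_le (p := LinearMap.ker (polarBilin Q v))).2 ?_ hy
    rintro _ ⟨i, rfl⟩
    exact congrFun hv i
  have hb : Function.Bijective φ := (Fintype.bijective_iff_injective_and_card φ).2
    ⟨hinj, by simp [H.card]⟩
  obtain ⟨v, hv⟩ := hb.2 β
  exact ⟨v, fun i => congrFun hv i⟩

theorem IsRootTree.commutator_le (H : IsRootTree Q a par)
    (htop : Subgroup.closure (Set.range fun i => rt Q hf (a i)) = ⊤)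
    (S : Subgroup (Cfsg.isometryGroup (ZMod 2) f))
    (hS : ∀ j : Fin N, (j : ℕ) ≠ 0 → rt Q hf (a (par j)) * rt Q hf (a j) ∈ S) :
    commutator (Cfsg.isometryGroup (ZMod 2) f) ≤ S := by
  set s : Fin N → Cfsg.isometryGroup (ZMod 2) f := fun i => rt Q hf (a i)
  have hinv : ∀ i, (s i)⁻¹ = s i := fun i => inv_eq_of_mul_eq_one_right (rt_sq Q hf (a i))
  by_cases hN : N = 0
  · subst hN
    rw [commutator_def, Subgroup.commutator_le]
    intro g _ h _
    have hg : ∀ g : Cfsg.isometryGroup (ZMod 2) f, g = 1 := fun g => by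
      have : g ∈ Subgroup.closure (Set.range s) := htop ▸ Subgroup.mem_top g
      have he : Set.range s = ∅ := Set.range_eq_empty s
      rw [he, Subgroup.closure_empty] at this
      exact Subgroup.mem_bot.1 this
    rw [hg g, hg h]; simp
  let o : Fin N := ⟨0, by omega⟩
  have h0 : ∀ j : Fin N, s o * s j ∈ S := by
    intro j
    induction' hk : (j : ℕ) using Nat.strong_induction_on with k ih generalizing j
    by_cases hj : (j : ℕ) = 0
    · rw [show j = o from Fin.ext hj, rt_sq]; exact S.one_mem
    · have h1 := ih (par j) (hk ▸ H.lt j hj) (par j) rfl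
      have h2 := S.mul_mem h1 (hS j hj)
      rwa [mul_assoc, ← mul_assoc (s (par j)), rt_sq, one_mul] at h2
  have hall : ∀ i j, s i * s j ∈ S := fun i j => by
    have h := S.mul_mem (S.inv_mem (h0 i)) (h0 j)
    rwa [_root_.mul_inv_rev, hinv, hinv, mul_assoc, ← mul_assoc (s o), rt_sq, one_mul] at h
  let E : Subgroup (Cfsg.isometryGroup (ZMod 2) f) :=
    Subgroup.closure {x | ∃ i j, x = s i * s j}
  have hES : E ≤ S := (Subgroup.closure_le _).2 (by rintro x ⟨i, j, rfl⟩; exact hall i j)
  have hgen : ∀ i j, s i * s j ∈ E := fun i j => Subgroup.subset_closure ⟨i, j, rfl⟩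
  have hn : E.Normal := by
    rw [← Subgroup.normalizer_eq_top_iff, eq_top_iff, ← htop, Subgroup.closure_le]
    rintro _ ⟨k, rfl⟩
    refine Subgroup.mem_normalizer_fintype fun x hx => ?_
    show s k * x * (s k)⁻¹ ∈ E
    induction hx using Subgroup.closure_induction with
    | mem x hx =>
      obtain ⟨i, j, rfl⟩ := hx
      rw [hinv, show s k * (s i * s j) * s k = s k * s i * (s j * s k) by group]
      exact E.mul_mem (hgen _ _) (hgen _ _)
    | one => simp
    | mul x y _ _ hx hy =>
      rw [show s k * (x * y) * (s k)⁻¹ = s k * x * (s k)⁻¹ * (s k * y * (s k)⁻¹) by group]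
      exact E.mul_mem hx hy
    | inv x _ hx =>
      rw [show s k * x⁻¹ * (s k)⁻¹ = (s k * x * (s k)⁻¹)⁻¹ by group]
      exact E.inv_mem hx
  have hcos : ∀ g, g ∈ E ∨ g * s o ∈ E := by
    intro g
    have hg : g ∈ Subgroup.closure (Set.range s) := htop ▸ Subgroup.mem_top g
    induction hg using Subgroup.closure_induction with
    | mem x hx => obtain ⟨i, rfl⟩ := hx; exact Or.inr (hgen _ _)
    | one => exact Or.inl E.one_mem
    | mul x y _ _ hx hy =>
      rcases hx with hx | hx <;> rcases hy with hy | hy
      · exact Or.inl (E.mul_mem hx hy)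
      · exact Or.inr (by rw [mul_assoc]; exact E.mul_mem hx hy)
      · refine Or.inr ?_
        have h := E.mul_mem hx (hn.conj_mem y hy (s o))
        rwa [show x * s o * (s o * y * (s o)⁻¹) = x * (s o * s o) * y * (s o)⁻¹ by group,
          rt_sq, mul_one, hinv] at h
      · refine Or.inl ?_
        have h := E.mul_mem hx (hn.conj_mem _ hy (s o))
        rwa [show x * s o * (s o * (y * s o) * (s o)⁻¹) = x * (s o * s o) * y by group,
          rt_sq, mul_one] at h
    | inv x _ hx =>
      rcases hx with hx | hx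
      · exact Or.inl (E.inv_mem hx)
      · refine Or.inr ?_
        have h := hn.conj_mem _ (E.inv_mem hx) (s o)
        rwa [show s o * (x * s o)⁻¹ * (s o)⁻¹ = s o * (s o)⁻¹ * x⁻¹ * (s o)⁻¹ by group,
          mul_inv_cancel, one_mul, hinv] at h
  refine le_trans ?_ hES
  rw [commutator_def, Subgroup.commutator_le]
  intro g _ h _
  have key : ∀ e, e ∈ E → ∀ u, e * u * e⁻¹ * u⁻¹ ∈ E := fun e he u => by
    rw [mul_assoc, mul_assoc e]
    exact E.mul_mem he (by simpa [mul_assoc] using hn.conj_mem _ (E.inv_mem he) u)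
  rw [commutatorElement_def]
  rcases hcos g with hg | hg
  · exact key g hg h
  rcases hcos h with hh | hh
  · have := E.inv_mem (key h hh g)
    rwa [show (h * g * h⁻¹ * g⁻¹)⁻¹ = g * h * g⁻¹ * h⁻¹ by group] at this
  · have h1 : g * h ∈ E := by
      have := E.mul_mem hg (hn.conj_mem _ hh (s o))
      rwa [show g * s o * (s o * (h * s o) * (s o)⁻¹) = g * (s o * s o) * h by group,
        rt_sq, mul_one] at this
    have h2 : h * g ∈ E := by
      have := E.mul_mem hh (hn.conj_mem _ hg (s o))
      rwa [show h * s o * (s o * (g * s o) * (s o)⁻¹) = h * (s o * s o) * g by group,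
        rt_sq, mul_one] at this
    have := E.mul_mem h1 (E.inv_mem h2)
    rwa [show g * h * (h * g)⁻¹ = g * h * g⁻¹ * h⁻¹ by group] at this

theorem pair_mem_omega {u v : ι → ZMod 2} (hu : Q u = 1) (hv : Q v = 1) (huv : polar Q u v = 1) :
    rt Q hf u * rt Q hf v ∈ Cfsg.Omega (ZMod 2) f := by
  have h3 := braid Q hf hu hv huv
  set x := rt Q hf u * rt Q hf v with hx
  have hc : x * x ∈ Cfsg.Omega (ZMod 2) f := by
    have : x * x = ⁅rt Q hf u, rt Q hf v⁆ := by
      rw [commutatorElement_def, inv_eq_of_mul_eq_one_right (rt_sq Q hf u),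
        inv_eq_of_mul_eq_one_right (rt_sq Q hf v), hx]
      group
    rw [this, Cfsg.Omega, commutator_def]
    exact Subgroup.commutator_mem_commutator trivial trivial
  have e : x = (x * x) * (x * x) := by
    rw [show x * x * (x * x) = x * x * x * x by group, h3, one_mul]
  rw [e]
  exact mul_mem hc hc

/-- Every crossed homomorphism is principal. -/
theorem IsRootTree.principal (H : IsRootTree Q a par) (hN : 1 < N)
    (htop : Subgroup.closure (Set.range fun i => rt Q hf (a i)) = ⊤)
    (F : ↥(Cfsg.Omega (ZMod 2) f) → (ι → ZMod 2))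
    (hF : ∀ g h, F (g * h) = F g + act g.1 (F h)) :
    ∃ v, ∀ g : ↥(Cfsg.Omega (ZMod 2) f), F g = act g.1 v - v := by
  classical
  let W : Cfsg.isometryGroup (ZMod 2) f → (ι → ZMod 2) :=
    fun g => if hg : g ∈ Cfsg.Omega (ZMod 2) f then F ⟨g, hg⟩ else 0
  have hW : ∀ g h, g ∈ Cfsg.Omega (ZMod 2) f → h ∈ Cfsg.Omega (ZMod 2) f →
      W (g * h) = W g + act g (W h) := by
    intro g h hg hh
    simp only [W, dif_pos hg, dif_pos hh, dif_pos (mul_mem hg hh)]
    exact hF ⟨g, hg⟩ ⟨h, hh⟩
  have hW1 : W 1 = 0 := by
    have := hW 1 1 (one_mem _) (one_mem _)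
    rw [one_mul] at this
    have h2 : act (1 : Cfsg.isometryGroup (ZMod 2) f) (W 1) = W 1 := Matrix.one_mulVec _
    rw [h2] at this
    exact this.trans (funext fun i => CharTwo.add_self_eq_zero _)
  -- the value on an adjacent pair
  have hval : ∀ u v, Q u = 1 → Q v = 1 → polar Q u v = 1 →
      W (rt Q hf u * rt Q hf v) =
        polar Q (W (rt Q hf u * rt Q hf v)) v • u + polar Q (W (rt Q hf u * rt Q hf v)) u • v := by
    intro u v hu hv huv
    have hx := pair_mem_omega (hf := hf) hu hv huv
    have h3 := braid Q hf hu hv huv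
    have hsum := hW _ _ (mul_mem hx hx) hx
    rw [h3, hW1, hW _ _ hx hx] at hsum
    simp only [act_mul, rt_apply Q hf hu, rt_apply Q hf hv, polar_add_right, polar_smul_right, polar_self_zero, huv,
      polar_comm (⇑Q) v u, smul_eq_mul, mul_one, mul_zero, add_zero] at hsum
    set h := W (rt Q hf u * rt Q hf v)
    rw [polar_comm (⇑Q) h v, polar_comm (⇑Q) h u]
    funext i
    have hs := congrFun hsum i
    simp only [Pi.add_apply, Pi.smul_apply, Pi.zero_apply, smul_eq_mul] at hs ⊢
    revert hs
    generalize polar Q u h = p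
    generalize polar Q v h = q
    generalize u i = A
    generalize v i = B
    generalize h i = X
    revert p q A B X
    decide
  -- consistency at the middle of a path
  have hpath : ∀ u w t, Q u = 1 → Q w = 1 → Q t = 1 → polar Q u w = 1 → polar Q w t = 1 →
      polar Q u t = 0 → u ≠ t →
      polar Q (W (rt Q hf u * rt Q hf w)) u =
        polar Q (W (rt Q hf w * rt Q hf t)) t + polar Q (W (rt Q hf w * rt Q hf t)) w := by
    intro u w t hu hw ht huw hwt hut hne
    have hx := pair_mem_omega (hf := hf) hu hw huw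
    have hy := pair_mem_omega (hf := hf) hw ht hwt
    have hxy : rt Q hf u * rt Q hf w * (rt Q hf w * rt Q hf t) = rt Q hf u * rt Q hf t := by
      rw [mul_assoc, ← mul_assoc (rt Q hf w), rt_sq, one_mul]
    have hk : rt Q hf u * rt Q hf t ∈ Cfsg.Omega (ZMod 2) f := hxy ▸ mul_mem hx hy
    have hinv : (rt Q hf u * rt Q hf t) * (rt Q hf u * rt Q hf t) = 1 := by
      refine act_ext fun x => ?_
      simp only [act_mul, rt_apply Q hf hu, rt_apply Q hf ht, polar_add_right, polar_smul_right,
        polar_self_zero, hut, polar_comm (⇑Q) t u, smul_eq_mul, mul_zero, add_zero]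
      funext i
      simp only [act, OneMemClass.coe_one, Units.val_one, Matrix.one_mulVec, Pi.add_apply,
        Pi.smul_apply, smul_eq_mul]
      generalize polar Q u x = p
      generalize polar Q t x = q
      generalize u i = A
      generalize t i = B
      generalize x i = X
      revert p q A B X
      decide
    have hfix := hW _ _ hk hk
    rw [hinv, hW1, act_mul, rt_apply Q hf ht, rt_apply Q hf hu, polar_add_right, polar_smul_right,
      hut, smul_eq_mul, mul_zero, add_zero] at hfix
    have h0 : polar Q u (W (rt Q hf u * rt Q hf t)) = 0 := by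
      set h := W (rt Q hf u * rt Q hf t)
      have hpq : polar Q u h • u + polar Q t h • t = 0 := by
        refine funext fun i => ?_
        have hs := congrFun hfix i
        simp only [Pi.add_apply, Pi.smul_apply, Pi.zero_apply, smul_eq_mul] at hs ⊢
        revert hs
        generalize polar Q u h = p
        generalize polar Q t h = q
        generalize u i = A
        generalize t i = B
        generalize h i = X
        revert p q A B X
        decide
      rcases (by decide : ∀ x : ZMod 2, x = 0 ∨ x = 1) (polar Q u h) with hp | hp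
      · exact hp
      · exfalso
        rw [hp, one_smul] at hpq
        rcases (by decide : ∀ x : ZMod 2, x = 0 ∨ x = 1) (polar Q t h) with hq | hq
        · rw [hq, zero_smul, add_zero] at hpq
          rw [hpq, QuadraticMap.map_zero] at hu
          exact zero_ne_one hu
        · rw [hq, one_smul] at hpq
          refine hne (funext fun i => ?_)
          have hi := congrFun hpq i
          simp only [Pi.add_apply, Pi.zero_apply] at hi
          exact CharTwo.add_eq_zero.1 hi
    have hval1 := hval u w hu hw huw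
    have hval2 := hval w t hw ht hwt
    have hcomb := hW _ _ hx hy
    rw [hxy, hval2, act_mul, rt_apply Q hf hw, rt_apply Q hf hu] at hcomb
    rw [hval1] at hcomb
    rw [hcomb] at h0
    simp only [polar_add_right, polar_smul_right, polar_self_zero, smul_eq_mul,
      polar_comm (⇑Q) w u, polar_comm (⇑Q) t u, polar_comm (⇑Q) t w, huw, hwt, hut,
      mul_one, mul_zero, add_zero, zero_add, one_mul] at h0
    revert h0
    generalize polar Q (W (rt Q hf u * rt Q hf w)) u = A
    generalize polar Q (W (rt Q hf u * rt Q hf w)) w = B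
    generalize polar Q (W (rt Q hf w * rt Q hf t)) t = C
    generalize polar Q (W (rt Q hf w * rt Q hf t)) w = D
    revert A B C D
    decide
  let e : Fin N → (ι → ZMod 2) := fun j => W (rt Q hf (a (par j)) * rt Q hf (a j))
  let j1 : Fin N := ⟨1, hN⟩
  obtain ⟨v, hv⟩ := H.exists_dual fun j => if (j : ℕ) = 0
    then polar Q (e j1) (a j1) + polar Q (e j1) (a (par j1)) else polar Q (e j) (a (par j))
  refine ⟨v, fun g => ?_⟩
  let Z : Subgroup (Cfsg.isometryGroup (ZMod 2) f) :=
    { carrier := {g | g ∈ Cfsg.Omega (ZMod 2) f ∧ W g = act g v - v}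
      one_mem' := ⟨one_mem _, by rw [hW1]; simp [act]⟩
      mul_mem' := fun {g h} hg hh => ⟨mul_mem hg.1 hh.1, by
        rw [hW g h hg.1 hh.1, hg.2, hh.2, act_mul]
        simp only [act, Matrix.mulVec_sub]
        abel⟩
      inv_mem' := fun {g} hg => ⟨inv_mem hg.1, by
        have h1 := hW _ _ (inv_mem hg.1) hg.1
        rw [inv_mul_cancel, hW1, hg.2] at h1
        have h2 : act g⁻¹ (act g v) = v := by rw [← act_mul, inv_mul_cancel]; simp [act]
        simp only [act, Matrix.mulVec_sub] at h1 h2 ⊢
        rw [h2] at h1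
        rw [eq_sub_iff_add_eq]
        linear_combination (norm := abel) -h1⟩ }
  have hZ : ∀ j : Fin N, (j : ℕ) ≠ 0 → rt Q hf (a (par j)) * rt Q hf (a j) ∈ Z := by
    intro j hj
    have hu := H.norm (par j)
    have hw := H.norm j
    have he := H.edge j hj
    refine ⟨pair_mem_omega hu hw he, ?_⟩
    have hvj : polar Q v (a j) = polar Q (e j) (a (par j)) := by rw [hv j, if_neg hj]
    have hvp : polar Q v (a (par j)) = polar Q (e j) (a j) + polar Q (e j) (a (par j)) := by
      rw [hv (par j)]
      by_cases hp : (par j : ℕ) = 0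
      · rw [if_pos hp, show j = j1 from Fin.ext (H.leaf j hj hp)]
      · rw [if_neg hp]
        exact hpath _ _ _ (H.norm _) hu hw (H.edge _ hp) he (H.grand j hj hp) fun e => by
          have h1 := congrArg Fin.val (H.indep.injective e)
          have := H.lt j hj
          have := H.lt _ hp
          omega
    rw [pair_apply Q hf hu hw he, polar_comm (⇑Q) (a j) v, polar_comm (⇑Q) (a (par j)) v, hvj, hvp]
    refine (hval _ _ hu hw he).trans ?_
    funext i
    simp only [Pi.add_apply, Pi.sub_apply, Pi.smul_apply, smul_eq_mul]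
    generalize polar Q (e j) (a (par j)) = p
    generalize polar Q (e j) (a j) = q
    generalize a (par j) i = A
    generalize a j i = B
    generalize v i = X
    revert p q A B X
    decide
  have := (H.commutator_le htop Z hZ g.2).2
  simpa [W, dif_pos g.2] using this

end Cfsg.Agent.H18.Tree
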