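import Cfsg.Agent.H18.ExtraspecialOut
import Cfsg.Agent.H24.PGroupBasic

/-! The quadratic space of an extraspecial 2-group. -/

set_option autoImplicit false

namespace Cfsg.Agent.H18

open QuadraticMap
open scoped commutatorElement

/-- The quadratic space attached to an extraspecial 2-group, with its coordinate map. -/
theorem exists_quadSpace {E : Type*} [Group E] [Finite E] (hE : Cfsg.IsExtraspecial 2 E) {n : ℕ}
    (hcard : Nat.card E = 2 ^ (2 * n + 1)) :
    ∃ (_ : Module (ZMod 2) (Additive (Abelianization E)))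
      (Q : QuadraticForm (ZMod 2) (Additive (Abelianization E))),
      (polarBilin Q).Nondegenerate ∧
      Module.finrank (ZMod 2) (Additive (Abelianization E)) = 2 * n ∧
      ∀ x : E, Q (Additive.ofMul (Abelianization.of x)) = sqForm x := by
  classical
  obtain ⟨z, hz1, hzz, hmem⟩ := center_eq_pair hE
  have hzc : z ∈ Subgroup.center E := (hmem z).mpr (Or.inr rfl)
  have hker : ∀ x : E, Abelianization.of x = 1 ↔ x = 1 ∨ x = z := fun x => by
    rw [← hmem x, ← hE.1.2.2, ← MonoidHom.mem_ker, Abelianization.ker_of]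
  have hsqc : ∀ x : E, x * x = 1 ∨ x * x = z := by
    intro x
    rw [← hmem, ← hE.1.2.1]
    obtain ⟨hp, -, -⟩ := hE.1
    have : Fact (Nat.Prime 2) := ⟨Nat.prime_two⟩
    simpa [pow_two] using H24.pow_mem_frattini hp x
  have hcomm : ∀ x y : E, ⁅x, y⁆ = 1 ∨ ⁅x, y⁆ = z := fun x y =>
    (hmem _).mp (commutator_mem_center hE x y)
  have htwo : ∀ v : Additive (Abelianization E), (2 : ℕ) • v = 0 := by
    intro v
    obtain ⟨x, hx⟩ := QuotientGroup.mk_surjective (Additive.toMul v)
    rw [show v = Additive.ofMul (Abelianization.of x) from hx.symm, ← ofMul_pow,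
      ← map_pow, pow_two, (hker _).mpr (hsqc x)]
    rfl
  let inst : Module (ZMod 2) (Additive (Abelianization E)) := AddCommGroup.zmodModule htwo
  refine ⟨inst, ?_⟩
  let χ : E → ZMod 2 := fun w => if w = 1 then 0 else 1
  have hzne : z * z = 1 := hzz
  have hχ : ∀ a b : E, (a = 1 ∨ a = z) → (b = 1 ∨ b = z) → χ (a * b) = χ a + χ b := by
    rintro a b (rfl | rfl) (rfl | rfl) <;> simp [χ, hz1, hzz, CharTwo.add_self_eq_zero]
  have hsf : ∀ x : E, sqForm x = χ (x * x) := fun x => by
    have key : ∀ a b : ZMod 2, (a = 0 ↔ b = 0) → a = b := by decide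
    refine key _ _ ?_
    rw [sqForm_eq_zero_iff]
    by_cases h : x * x = 1 <;> simp [χ, h]
  have hwd : ∀ x c : E, (c = 1 ∨ c = z) → sqForm (x * c) = sqForm x := by
    intro x c hc
    rw [hsf, hsf]
    congr 1
    rcases hc with rfl | rfl
    · simp
    · calc x * c * (x * c) = x * (c * x) * c := by group
        _ = x * (x * c) * c := by rw [← Subgroup.mem_center_iff.mp hzc x]
        _ = x * x * (c * c) := by group
        _ = x * x := by rw [hzz, mul_one]
  let q : Additive (Abelianization E) → ZMod 2 := fun v =>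
    sqForm (Function.surjInv (QuotientGroup.mk_surjective (s := commutator E)) (Additive.toMul v))
  have hq : ∀ x : E, q (Additive.ofMul (Abelianization.of x)) = sqForm x := by
    intro x
    show sqForm (Function.surjInv _ (Abelianization.of x)) = sqForm x
    set y := Function.surjInv (QuotientGroup.mk_surjective (s := commutator E)) (Abelianization.of x)
    have hy : Abelianization.of y = Abelianization.of x := Function.surjInv_eq _ _
    have h1 : Abelianization.of (x⁻¹ * y) = 1 := by rw [map_mul, map_inv, hy, inv_mul_cancel]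
    have h2 := hwd x (x⁻¹ * y) ((hker _).mp h1)
    rwa [mul_inv_cancel_left] at h2
  let c : E → E → ZMod 2 := fun x y => χ ⁅x, y⁆
  have hqmul : ∀ x y : E, sqForm (x * y) = sqForm x + sqForm y + c y⁻¹ x⁻¹ := by
    intro x y
    rw [hsf, hsf, hsf]
    have hc := Subgroup.mem_center_iff.mp (commutator_mem_center hE y⁻¹ x⁻¹)
    have e : x * y * (x * y) = x * x * (y * y) * ⁅y⁻¹, x⁻¹⁆ := by
      calc x * y * (x * y) = x * x * ((x⁻¹ * y * x * y⁻¹) * (y * y)) := by group
        _ = x * x * (⁅x⁻¹, y⁆ * (y * y)) := by rw [commutatorElement_def, inv_inv]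
        _ = x * x * (y * y) * ⁅x⁻¹, y⁆ := by
          rw [← Subgroup.mem_center_iff.mp (commutator_mem_center hE x⁻¹ y) (y * y)]
          simp only [mul_assoc]
        _ = _ := by
          congr 1
          calc ⁅x⁻¹, y⁆ = x⁻¹ * y * x * y⁻¹ := by rw [commutatorElement_def, inv_inv]
            _ = y * ⁅y⁻¹, x⁻¹⁆ * y⁻¹ := by rw [commutatorElement_def, inv_inv, inv_inv]; group
            _ = _ := by rw [hc y, mul_inv_cancel_right]
    have h1 := hsqc x
    have h2 := hsqc y
    rw [e, hχ _ _ ?_ (hcomm _ _), hχ _ _ h1 h2]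
    rcases h1 with h | h <;> rcases h2 with h' | h' <;> simp [h, h', hzz]
  have hclin : ∀ x x' y : E, c (x * x') y = c x y + c x' y := by
    intro x x' y
    show χ ⁅x * x', y⁆ = _
    have e : ⁅x * x', y⁆ = x * ⁅x', y⁆ * x⁻¹ * ⁅x, y⁆ := by
      simp only [commutatorElement_def]; group
    rw [e, Subgroup.mem_center_iff.mp (commutator_mem_center hE x' y) x, mul_inv_cancel_right,
      hχ _ _ (hcomm _ _) (hcomm _ _), add_comm]
  have hsur : ∀ v : Additive (Abelianization E), ∃ x : E, Additive.ofMul (Abelianization.of x) = v :=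
    fun v => QuotientGroup.mk_surjective (Additive.toMul v)
  have hcsymm : ∀ x y : E, c x y = c y x := by
    intro x y
    show χ ⁅x, y⁆ = χ ⁅y, x⁆
    rw [← commutatorElement_inv x y]
    rcases hcomm x y with h | h <;> rw [h]
    · rw [inv_one]
    · rw [inv_eq_of_mul_eq_one_right hzz]
  have hpolar : ∀ x y : E, polar q (Additive.ofMul (Abelianization.of x))
      (Additive.ofMul (Abelianization.of y)) = c y⁻¹ x⁻¹ := by
    intro x y
    rw [polar, ← ofMul_mul, ← map_mul, hq, hq, hq, hqmul]
    ring
  have hleft : ∀ u v w, polar q (u + v) w = polar q u w + polar q v w := by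
    intro u v w
    obtain ⟨a, rfl⟩ := hsur u
    obtain ⟨b, rfl⟩ := hsur v
    obtain ⟨d, rfl⟩ := hsur w
    rw [← ofMul_mul, ← map_mul, hpolar, hpolar, hpolar, mul_inv_rev, hcsymm, hclin,
      hcsymm d⁻¹ a⁻¹, hcsymm d⁻¹ b⁻¹, add_comm]
  have hzero : q 0 = 0 := by
    rw [show (0 : Additive (Abelianization E)) = Additive.ofMul (Abelianization.of 1) by simp, hq,
      sqForm_eq_zero_iff, mul_one]
  have h01 : ∀ a : ZMod 2, a = 0 ∨ a = 1 := by decide
  let Q : QuadraticForm (ZMod 2) (Additive (Abelianization E)) :=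
    QuadraticMap.ofPolar q
      (fun a v => by
        rcases h01 a with rfl | rfl
        · simp [hzero]
        · simp)
      hleft
      (fun a u v => by
        rcases h01 a with rfl | rfl
        · rw [zero_smul, zero_smul]
          have := hleft 0 0 v
          rw [add_zero] at this
          simpa using this
        · rw [one_smul, one_smul])
  have hQq : ⇑Q = q := rfl
  refine ⟨Q, ?_, ?_, fun x => by rw [hQq]; exact hq x⟩
  · have hsep : ∀ u, (∀ v, polar q u v = 0) → u = 0 := by
      intro u hu
      obtain ⟨x, rfl⟩ := hsur u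
      have hx : x⁻¹ ∈ Subgroup.center E := by
        rw [Subgroup.mem_center_iff]
        intro y
        have h := hu (Additive.ofMul (Abelianization.of y⁻¹))
        rw [hpolar, inv_inv] at h
        refine commutatorElement_eq_one_iff_mul_comm.mp ?_
        rcases hcomm y x⁻¹ with e | e
        · exact e
        · simp [c, χ, e, hz1] at h
      rw [show Abelianization.of x = 1 from (hker x).mpr ((hmem x).mp (inv_mem_iff.mp hx))]
      rfl
    exact ⟨fun u hu => hsep u hu, fun u hu => hsep u fun v => (polar_comm _ _ _).trans (hu v)⟩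
  · have h1 : Nat.card (Additive (Abelianization E)) = 2 ^ (2 * n) := by
      have h := Subgroup.card_eq_card_quotient_mul_card_subgroup (commutator E)
      rw [hE.1.2.2, hE.2, hcard, ← hE.1.2.2, pow_succ] at h
      exact (Nat.eq_of_mul_eq_mul_right two_pos h).symm
    have h2 := Module.natCard_eq_pow_finrank (K := ZMod 2) (V := Additive (Abelianization E))
    rw [h1, Nat.card_zmod] at h2
    exact (Nat.pow_right_injective le_rfl h2).symm

end Cfsg.Agent.H18
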