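import Cfsg.Prelude.Def_Classical
import Cfsg.Prelude.Def_KGroupFacts
import Cfsg.Agent.S5395
import Cfsg.Agent.H4.DiscClass

/-! Outer automorphisms of extraspecial 2-groups as isometry groups. -/

set_option autoImplicit false

namespace Cfsg.Agent.H18

open Matrix

/-- A subgroup maximal among those containing `c` and avoiding `u` has index two. -/
theorem exists_half {X : Type*} [Group X] [Finite X] (S : Subgroup X) (c u : X) (hcS : c ∈ S)
    (hu : u ∉ Subgroup.zpowers c) (hsq : ∀ p ∈ S, p * p ∈ Subgroup.zpowers c)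
    (hcc : ∀ p ∈ S, p * c = c * p) :
    ∃ H : Subgroup X, H ≤ S ∧ c ∈ H ∧ u ∉ H ∧ ∀ p ∈ S, p ∈ H ∨ p * u ∈ H := by
  obtain ⟨H, hH⟩ := (Set.toFinite {H : Subgroup X | H ≤ S ∧ c ∈ H ∧ u ∉ H}).exists_maximal
    ⟨Subgroup.zpowers c, Subgroup.zpowers_le.mpr hcS, Subgroup.mem_zpowers c, hu⟩
  obtain ⟨hHS, hcH, huH⟩ := hH.1
  have hz : Subgroup.zpowers c ≤ H := Subgroup.zpowers_le.mpr hcH
  have hn : ∀ p ∈ S, ∀ h ∈ H, p * h * p⁻¹ ∈ H := by
    intro p hp h hh
    have hpc : ∀ w ∈ Subgroup.zpowers c, p * w = w * p := by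
      intro w hw
      obtain ⟨k, rfl⟩ := Subgroup.mem_zpowers_iff.mp hw
      exact ((Commute.zpow_right (show Commute p c from hcc p hp)) k).eq
    have h1 := hsq _ (S.mul_mem hp (hHS hh))
    have h2 := hsq p hp
    have h3 : p * h * p⁻¹ = (p * h * (p * h)) * h⁻¹ * (p * p)⁻¹ := by
      calc p * h * p⁻¹ = (p * h * (p * h)) * h⁻¹ * (p⁻¹ * p⁻¹) := by group
        _ = _ := by rw [_root_.mul_inv_rev p p]
    rw [h3]
    exact H.mul_mem (H.mul_mem (hz h1) (H.inv_mem hh)) (H.inv_mem (hz h2))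
  refine ⟨H, hHS, hcH, huH, fun p hp => ?_⟩
  by_cases hpH : p ∈ H
  · exact Or.inl hpH
  right
  have hpp : p * p ∈ H := hz (hsq p hp)
  let H' : Subgroup X :=
    { carrier := {g | g ∈ H ∨ g * p ∈ H}
      one_mem' := Or.inl H.one_mem
      mul_mem' := by
        rintro a b (ha | ha) (hb | hb)
        · exact Or.inl (H.mul_mem ha hb)
        · exact Or.inr (by rw [mul_assoc]; exact H.mul_mem ha hb)
        · refine Or.inr ?_
          have hb' : p⁻¹ * b * p⁻¹⁻¹ ∈ H := hn _ (S.inv_mem hp) b hb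
          have e : a * b * p = (a * p) * (p⁻¹ * b * p⁻¹⁻¹) := by group
          rw [e]
          exact H.mul_mem ha hb'
        · refine Or.inl ?_
          have hb' : p⁻¹ * (b * p) * p⁻¹⁻¹ ∈ H := hn _ (S.inv_mem hp) _ hb
          have e : a * b = (a * p) * (p⁻¹ * (b * p) * p⁻¹⁻¹) * (p * p)⁻¹ := by group
          rw [e]
          exact H.mul_mem (H.mul_mem ha hb') (H.inv_mem hpp)
      inv_mem' := by
        rintro a (ha | ha)
        · exact Or.inl (H.inv_mem ha)
        · refine Or.inr ?_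
          have hb' : p * (a * p)⁻¹ * p⁻¹ ∈ H := hn _ hp _ (H.inv_mem ha)
          have e : a⁻¹ * p = (p * (a * p)⁻¹ * p⁻¹) * (p * p) := by group
          rw [e]
          exact H.mul_mem hb' hpp }
  have hH'S : H' ≤ S := by
    rintro g (hg | hg)
    · exact hHS hg
    · have := S.mul_mem (hHS hg) (S.inv_mem hp)
      rwa [mul_inv_cancel_right] at this
  have hle : H ≤ H' := fun g hg => Or.inl hg
  have hpH' : p ∈ H' := Or.inr hpp
  by_contra hpu
  have huH' : u ∉ H' := by
    rintro (h | h)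
    · exact huH h
    · apply hpu
      have hu' : u ∈ S := hH'S (Or.inr h)
      have e : p * u = (p * (u * p) * p⁻¹) := by group
      rw [e]
      exact hn p hp _ h
  exact hpH (hH.2 ⟨hH'S, hle hcH, huH'⟩ hle hpH')

section

variable {E : Type*} [Group E] {ι : Type} [Fintype ι] [DecidableEq ι]

/-- The squaring form on a group. -/
noncomputable def sqForm (x : E) : ZMod 2 := by
  classical exact if x * x = 1 then 0 else 1

theorem sqForm_eq_zero_iff {x : E} : sqForm x = 0 ↔ x * x = 1 := by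
  classical
  by_cases h : x * x = 1
  · exact iff_of_true (if_pos h) h
  · exact iff_of_false (fun e => one_ne_zero ((if_neg h).symm.trans e)) h

theorem sqForm_equiv (φ : E ≃* E) (x : E) : sqForm (φ x) = sqForm x := by
  have key : ∀ a b : ZMod 2, (a = 0 ↔ b = 0) → a = b := by decide
  refine key _ _ ?_
  rw [sqForm_eq_zero_iff, sqForm_eq_zero_iff, ← map_mul, φ.map_eq_one_iff]

/-- Coordinates for the central quotient in which the form is `Qs`. -/
structure Coords (E : Type*) [Group E] {ι : Type} [Fintype ι] [DecidableEq ι]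
    (Qs : (ι → ZMod 2) → ZMod 2) where
  π : E →* Multiplicative (ι → ZMod 2)
  surj : Function.Surjective π
  ker : π.ker = Subgroup.center E
  form : ∀ x, Qs (π x).toAdd = sqForm x

variable [Finite E] {Qs : (ι → ZMod 2) → ZMod 2}

theorem Coords.out_equiv (hE : Cfsg.IsExtraspecial 2 E) (C : Coords E Qs) :
    Nonempty (Cfsg.Out E ≃* Cfsg.isometryGroup (ZMod 2) Qs) := by
  classical
  obtain ⟨z, hz1, hzz, hmem⟩ := center_eq_pair hE
  have hzc : z ∈ Subgroup.center E := (hmem z).mpr (Or.inr rfl)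
  have hπz : C.π z = 1 := by rw [← MonoidHom.mem_ker, C.ker]; exact hzc
  have hπcen : ∀ (φ : E ≃* E) (x : E), C.π x = 1 → C.π (φ x) = 1 := by
    intro φ x hx
    rw [← MonoidHom.mem_ker, C.ker] at hx ⊢
    refine Subgroup.mem_center_iff.mpr fun w => ?_
    obtain ⟨w', rfl⟩ := φ.surjective w
    rw [← map_mul, ← map_mul, Subgroup.mem_center_iff.mp hx w']
  have huniq : ∀ g g' : GL ι (ZMod 2), (∀ x, g.1 *ᵥ (C.π x).toAdd = g'.1 *ᵥ (C.π x).toAdd) →
      g = g' := by
    intro g g' h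
    apply Units.ext
    apply Matrix.ext_of_mulVec_single
    intro i
    obtain ⟨x, hx⟩ := C.surj (Multiplicative.ofAdd (Pi.single i 1))
    have h1 := h x
    rwa [hx, toAdd_ofAdd] at h1
  have hlin : ∀ φ : E ≃* E, ∃ M : Matrix ι ι (ZMod 2),
      ∀ x, M *ᵥ (C.π x).toAdd = (C.π (φ x)).toAdd := by
    intro φ
    let f : Multiplicative (ι → ZMod 2) →* Multiplicative (ι → ZMod 2) :=
      C.π.liftOfSurjective C.surj ⟨C.π.comp φ.toMonoidHom, fun x hx => hπcen φ x hx⟩
    have hf : ∀ x, f (C.π x) = C.π (φ x) := fun x =>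
      MonoidHom.liftOfRightInverse_comp_apply _ _ _
        ⟨C.π.comp φ.toMonoidHom, fun x hx => hπcen φ x hx⟩ x
    let f' : (ι → ZMod 2) →+ (ι → ZMod 2) := AddMonoidHom.mk' (fun v => (f (.ofAdd v)).toAdd)
      fun v w => by simp only [ofAdd_add, map_mul, toAdd_mul]
    refine ⟨LinearMap.toMatrix' (f'.toZModLinearMap 2), fun x => ?_⟩
    rw [LinearMap.toMatrix'_mulVec]
    exact congrArg Multiplicative.toAdd (hf x)
  choose M hM using hlin
  have hMinv : ∀ φ : E ≃* E, M φ * M φ.symm = 1 := by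
    intro φ
    apply Matrix.ext_of_mulVec_single
    intro i
    obtain ⟨x, hx⟩ := C.surj (Multiplicative.ofAdd (Pi.single i 1))
    have h1 : (C.π x).toAdd = Pi.single i 1 := by rw [hx, toAdd_ofAdd]
    rw [← h1, ← Matrix.mulVec_mulVec, hM, hM, φ.apply_symm_apply, Matrix.one_mulVec]
  let toGL : MulAut E → GL ι (ZMod 2) := fun φ =>
    ⟨M φ, M φ.symm, hMinv φ, by simpa using hMinv φ.symm⟩
  have hiso : ∀ φ, toGL φ ∈ Cfsg.isometryGroup (ZMod 2) Qs := by
    intro φ u v
    obtain ⟨x, hx⟩ := C.surj (Multiplicative.ofAdd u)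
    have hu : (C.π x).toAdd = u := by rw [hx, toAdd_ofAdd]
    show Qs (M φ *ᵥ u) = Qs u
    rw [← hu, hM, C.form, C.form, sqForm_equiv]
  let Θ : MulAut E →* Cfsg.isometryGroup (ZMod 2) Qs :=
    MonoidHom.mk' (fun φ => ⟨toGL φ, hiso φ⟩) fun φ ψ => Subtype.ext (huniq _ _ fun x => by
      show M (φ * ψ) *ᵥ _ = (M φ * M ψ) *ᵥ _
      rw [← Matrix.mulVec_mulVec, hM, hM, hM, MulAut.mul_apply])
  have hker : Θ.ker = Cfsg.Inn E := by
    apply le_antisymm
    · intro φ hφ
      obtain ⟨g, hg⟩ := S5395.result hE φ fun x => by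
        rw [← C.ker, MonoidHom.mem_ker, map_mul, map_inv, mul_inv_eq_one]
        have h1 : (Θ φ).1.1 *ᵥ (C.π x).toAdd = (C.π (φ x)).toAdd := hM φ x
        rw [MonoidHom.mem_ker.mp hφ] at h1
        exact (Multiplicative.toAdd.injective (by simpa using h1)).symm
      exact ⟨g, MulEquiv.ext fun x => by rw [MulAut.conj_apply, hg x]⟩
    · rintro - ⟨g, rfl⟩
      refine MonoidHom.mem_ker.mpr (Subtype.ext (huniq _ _ fun x => ?_))
      show M (MulAut.conj g) *ᵥ _ = (1 : Matrix ι ι (ZMod 2)) *ᵥ _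
      rw [hM, Matrix.one_mulVec, MulAut.conj_apply]
      simp only [map_mul, map_inv]
      rw [mul_comm (C.π g), mul_inv_cancel_right]
  have hsurj : Function.Surjective Θ := by
    intro g
    have hg : ∀ v, Qs (g.1.1 *ᵥ v) = Qs v := fun v => g.2 v v
    let S : Subgroup (E × E) :=
      { carrier := {p | g.1.1 *ᵥ (C.π p.1).toAdd = (C.π p.2).toAdd}
        one_mem' := by simp
        mul_mem' := fun {a b} (ha : _ = _) (hb : _ = _) => by
          show g.1.1 *ᵥ (C.π (a.1 * b.1)).toAdd = (C.π (a.2 * b.2)).toAdd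
          simp only [map_mul, toAdd_mul, Matrix.mulVec_add]
          rw [ha, hb]
        inv_mem' := fun {a} (ha : _ = _) => by
          show g.1.1 *ᵥ (C.π a.1⁻¹).toAdd = (C.π a.2⁻¹).toAdd
          simp only [map_inv, toAdd_inv, Matrix.mulVec_neg]
          rw [ha] }
    have hsq2 : ∀ x : E, x * x = 1 ∨ x * x = z := fun x => (hmem _).mp (by
      rw [← C.ker, MonoidHom.mem_ker, map_mul]
      refine Multiplicative.toAdd.injective ?_
      funext i
      exact CharTwo.add_self_eq_zero _)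
    have hsq : ∀ p ∈ S, p * p ∈ Subgroup.zpowers ((z, z) : E × E) := by
      rintro ⟨a, b⟩ (hp : g.1.1 *ᵥ (C.π a).toAdd = (C.π b).toAdd)
      have hab : a * a = 1 ↔ b * b = 1 := by
        rw [← sqForm_eq_zero_iff, ← sqForm_eq_zero_iff, ← C.form a, ← C.form b, ← hp, hg]
      rcases hsq2 a with ha | ha
      · have hb := hab.mp ha
        rw [Prod.mk_mul_mk, ha, hb]
        exact one_mem _
      · have hb : b * b = z := (hsq2 b).resolve_left fun h => hz1 (ha ▸ hab.mpr h)
        rw [Prod.mk_mul_mk, ha, hb]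
        exact Subgroup.mem_zpowers _
    have hz2 : ((z, z) : E × E) * (z, z) = 1 := Prod.ext hzz hzz
    have hu : ((1, z) : E × E) ∉ Subgroup.zpowers ((z, z) : E × E) := by
      intro h
      obtain ⟨k, hk⟩ := Subgroup.mem_zpowers_iff.mp h
      have h1 := congrArg Prod.fst hk
      have h2 := congrArg Prod.snd hk
      simp only [Prod.pow_fst, Prod.pow_snd] at h1 h2
      exact hz1 (h2.symm.trans h1)
    have hcS : ((z, z) : E × E) ∈ S := by
      show g.1.1 *ᵥ (C.π z).toAdd = (C.π z).toAdd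
      rw [hπz]; simp
    obtain ⟨H, hHS, hcH, huH, hH⟩ := exists_half S (z, z) (1, z) hcS hu hsq
      (fun p _ => Prod.ext (Subgroup.mem_center_iff.mp hzc p.1) (Subgroup.mem_center_iff.mp hzc p.2))
    have hpair : ∀ w, C.π w = 1 → w = 1 ∨ w = z := fun w hw => (hmem w).mp (C.ker ▸ hw)
    have hone : ∀ b, ((1 : E), b) ∈ H → b = 1 := by
      intro b hb
      have h1 : C.π b = 1 := by
        have h2 : g.1.1 *ᵥ (C.π 1).toAdd = (C.π b).toAdd := hHS hb
        refine Multiplicative.toAdd.injective ?_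
        rw [← h2]; simp
      exact (hpair b h1).resolve_right fun e => huH (e ▸ hb)
    have hex : ∀ a, ∃ b, (a, b) ∈ H := by
      intro a
      obtain ⟨b, hb⟩ := C.surj (Multiplicative.ofAdd (g.1.1 *ᵥ (C.π a).toAdd))
      have hab : (a, b) ∈ S := by
        show g.1.1 *ᵥ (C.π a).toAdd = (C.π b).toAdd
        rw [hb, toAdd_ofAdd]
      rcases hH _ hab with h | h
      · exact ⟨b, h⟩
      · exact ⟨b * z, by simpa using h⟩
    choose φ hφ using hex
    have hφu : ∀ a b, (a, b) ∈ H → b = φ a := by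
      intro a b hab
      have := H.mul_mem (H.inv_mem (hφ a)) hab
      rw [Prod.inv_mk, Prod.mk_mul_mk, inv_mul_cancel] at this
      exact (inv_mul_eq_one.mp (hone _ this)).symm
    let Φ : E →* E := MonoidHom.mk' φ fun a b =>
      (hφu _ _ (H.mul_mem (hφ a) (hφ b))).symm
    have hinj : Function.Injective Φ := by
      refine (injective_iff_map_eq_one Φ).mpr fun a (ha : φ a = 1) => ?_
      have h1 := hφ a
      rw [ha] at h1
      have h2 : g.1.1 *ᵥ (C.π a).toAdd = (C.π 1).toAdd := hHS h1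
      rw [map_one, toAdd_one] at h2
      have h3 : C.π a = 1 := by
        refine Multiplicative.toAdd.injective ?_
        have h4 := congrArg (fun v => (g.1⁻¹ : GL ι (ZMod 2)).1 *ᵥ v) h2
        simpa [Matrix.mulVec_mulVec, ← Units.val_mul] using h4
      refine (hpair a h3).resolve_right fun e => huH ?_
      have h5 := H.mul_mem hcH h1
      rw [Prod.mk_mul_mk, e, hzz, mul_one] at h5
      exact h5
    refine ⟨MulEquiv.ofBijective Φ (Finite.injective_iff_bijective.mp hinj),
      Subtype.ext (huniq _ _ fun x => ?_)⟩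
    show M _ *ᵥ _ = _
    rw [hM]
    exact (hHS (hφ x)).symm
  exact ⟨(QuotientGroup.quotientMulEquivOfEq hker.symm).trans
    (QuotientGroup.quotientKerEquivOfSurjective Θ hsurj)⟩

end

end Cfsg.Agent.H18
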