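import Mathlib

/-! Elements fixing cosets, and dihedral products of two involutions. -/

set_option autoImplicit false

namespace Cfsg.Agent.H18

variable {G : Type*} [Group G]

/-- `x` fixes the coset `gH` iff `g⁻¹ x g ∈ H`. -/
lemma smul_coset_eq_iff (H : Subgroup G) (x g : G) :
    x • (g : G ⧸ H) = (g : G ⧸ H) ↔ g⁻¹ * x * g ∈ H := by
  rw [← inv_mem_iff (x := g⁻¹ * x * g)]
  show ((x * g : G) : G ⧸ H) = (g : G ⧸ H) ↔ _
  rw [QuotientGroup.eq]
  simp [mul_assoc]

/-- `x ∈ gHg⁻¹` iff `g⁻¹ x g ∈ H`. -/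
lemma mem_map_conj_iff (H : Subgroup G) (x g : G) :
    x ∈ H.map (MulAut.conj g).toMonoidHom ↔ g⁻¹ * x * g ∈ H := by
  constructor
  · rintro ⟨y, hy, rfl⟩
    simpa [mul_assoc] using hy
  · intro h
    exact ⟨g⁻¹ * x * g, h, by simp [mul_assoc]⟩

lemma isConj_self_mul_conj (g x : G) : IsConj x (g * x * g⁻¹) :=
  isConj_iff.mpr ⟨g, rfl⟩

lemma orderOf_two_mul_self {x : G} (hx : orderOf x = 2) : x * x = 1 := by
  have h := pow_orderOf_eq_one x
  rw [hx, pow_two] at h; exact h

lemma orderOf_two_inv {x : G} (hx : orderOf x = 2) : x⁻¹ = x :=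
  inv_eq_of_mul_eq_one_right (orderOf_two_mul_self hx)

/-- In a dihedral group, `a r^k` is conjugate to `a` for even `k` and to `a r` for odd `k`. -/
lemma isConj_reflection {a r : G} (ha : a * r * a⁻¹ = r⁻¹) (k : ℕ) :
    IsConj a (a * r ^ (2 * k)) ∧ IsConj (a * r) (a * r ^ (2 * k + 1)) := by
  have key : ∀ j : ℕ, r ^ j * a = a * (r ^ j)⁻¹ := by
    intro j
    have h1 : a * r ^ j * a⁻¹ = (r ^ j)⁻¹ := by rw [← conj_pow, ha, inv_pow]
    have h2 : a * (r ^ j)⁻¹ * a⁻¹ = r ^ j := by rw [← conj_inv, h1, inv_inv]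
    conv_lhs => rw [← h2]
    simp [mul_assoc]
  have key2 : ∀ j m : ℕ, (r ^ j)⁻¹ * (a * r ^ m) * r ^ j = a * r ^ (2 * j + m) := by
    intro j m
    have h3 : (r ^ j)⁻¹ * a = a * r ^ j := by
      rw [inv_mul_eq_iff_eq_mul, ← mul_assoc, key j]; simp [mul_assoc]
    calc (r ^ j)⁻¹ * (a * r ^ m) * r ^ j = ((r ^ j)⁻¹ * a) * (r ^ m * r ^ j) := by
          simp only [mul_assoc]
      _ = a * (r ^ j * (r ^ m * r ^ j)) := by rw [h3]; simp only [mul_assoc]
      _ = a * r ^ (2 * j + m) := by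
          congr 1; rw [← pow_add, ← pow_add]; congr 1; ring
  constructor
  · refine isConj_iff.mpr ⟨(r ^ k)⁻¹, ?_⟩
    have := key2 k 0
    simpa using this
  · refine isConj_iff.mpr ⟨(r ^ k)⁻¹, ?_⟩
    have := key2 k 1
    simpa using this

/-- Two non-conjugate involutions `a`, `b` commute with an element `t` with `a t` an involution conjugate to
`a` or `b` and different from `a`. -/
lemma exists_dihedral_central [Finite G] {a b : G} (ha : orderOf a = 2) (hb : orderOf b = 2)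
    (hnc : ¬ IsConj a b) :
    ∃ t : G, Commute a t ∧ Commute b t ∧ t ≠ 1 ∧ t * t = 1 ∧ (IsConj a (a * t) ∨ IsConj b (a * t)) := by
  set r := a * b with hr
  have haa := orderOf_two_mul_self ha
  have hbb := orderOf_two_mul_self hb
  have hinv : r⁻¹ = b * a := by rw [hr, mul_inv_rev, orderOf_two_inv ha, orderOf_two_inv hb]
  have har : a * r * a⁻¹ = r⁻¹ := by
    rw [hinv, hr, ← mul_assoc, haa, one_mul, orderOf_two_inv ha]
  have hbr : a * r = b := by rw [hr, ← mul_assoc, haa, one_mul]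
  have hn : 0 < orderOf r := orderOf_pos r
  rcases Nat.even_or_odd (orderOf r) with ⟨m, hm⟩ | ⟨m, hm⟩
  · refine ⟨r ^ m, ?_, ?_, ?_, ?_, ?_⟩
    · have h1 : a * r ^ m * a⁻¹ = (r ^ m)⁻¹ := by rw [← conj_pow, har, inv_pow]
      have h2 : (r ^ m)⁻¹ = r ^ m := by
        apply inv_eq_of_mul_eq_one_right
        rw [← pow_add, ← hm, pow_orderOf_eq_one]
      rw [h2] at h1
      exact mul_inv_eq_iff_eq_mul.mp h1
    · have h2 : (r ^ m)⁻¹ = r ^ m := by
        apply inv_eq_of_mul_eq_one_right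
        rw [← pow_add, ← hm, pow_orderOf_eq_one]
      have h1 : a * r ^ m * a⁻¹ = (r ^ m)⁻¹ := by rw [← conj_pow, har, inv_pow]
      rw [h2] at h1
      have h3 : Commute a (r ^ m) := mul_inv_eq_iff_eq_mul.mp h1
      rw [← hbr]
      exact h3.mul_left (Commute.pow_right (Commute.refl r) m)
    · exact pow_ne_one_of_lt_orderOf (by omega) (by omega)
    · rw [← pow_add, ← hm, pow_orderOf_eq_one]
    · rcases Nat.even_or_odd m with ⟨k, hk⟩ | ⟨k, hk⟩
      · left
        have := (isConj_reflection har k).1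
        rwa [hk, ← two_mul]
      · right
        have := (isConj_reflection har k).2
        rw [hbr] at this
        rwa [hk]
  · exfalso; apply hnc
    have h1 := (isConj_reflection har (m + 1)).1
    have h2 : r ^ (2 * (m + 1)) = r := by
      have he : 2 * (m + 1) = orderOf r + 1 := by omega
      rw [he, pow_succ, pow_orderOf_eq_one, one_mul]
    rwa [h2, hbr] at h1

end Cfsg.Agent.H18
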