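import Mathlib

/-!
Poisson summation for Gaussians attached to positive quadratic forms in several variables.

A positive form is given as `Rᵀ * R` with a two-sided inverse `S` of `R`.
-/

set_option autoImplicit false

noncomputable section

open Complex MeasureTheory Matrix
open scoped Real

namespace Cfsg.Agent.H18.Gauss

variable {n : ℕ}

/-- The quadratic function of a real matrix. -/
def qf (P : Matrix (Fin n) (Fin n) ℝ) (v : Fin n → ℝ) : ℝ := v ⬝ᵥ (P *ᵥ v)

/-- An integer vector as a real vector. -/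
def rv (x : Fin n → ℤ) : Fin n → ℝ := fun i => (x i : ℝ)

theorem qf_transpose_mul (R : Matrix (Fin n) (Fin n) ℝ) (v : Fin n → ℝ) :
    qf (Rᵀ * R) v = ∑ i, ((R *ᵥ v) i) ^ 2 := by
  rw [qf, ← mulVec_mulVec, dotProduct_mulVec, vecMul_transpose]
  simp [dotProduct, sq]

theorem exists_lower_bound (R S : Matrix (Fin n) (Fin n) ℝ) (hSR : S * R = 1) :
    ∃ c : ℝ, 0 < c ∧ ∀ v : Fin n → ℝ, c * ∑ i, v i ^ 2 ≤ qf (Rᵀ * R) v := by
  refine ⟨1 / (∑ i, ∑ j, S i j ^ 2 + 1), by positivity, fun v => ?_⟩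
  have hC : 0 < ∑ i, ∑ j, S i j ^ 2 + 1 := by positivity
  rw [qf_transpose_mul, div_mul_eq_mul_div, one_mul, div_le_iff₀ hC]
  have hv : S *ᵥ (R *ᵥ v) = v := by rw [mulVec_mulVec, hSR, one_mulVec]
  have h1 : ∀ i, v i ^ 2 ≤ (∑ j, S i j ^ 2) * ∑ j, (R *ᵥ v) j ^ 2 := fun i => by
    conv_lhs => rw [← hv]
    exact Finset.sum_mul_sq_le_sq_mul_sq Finset.univ (fun j => S i j) (fun j => (R *ᵥ v) j)
  calc ∑ i, v i ^ 2 ≤ ∑ i, (∑ j, S i j ^ 2) * ∑ j, (R *ᵥ v) j ^ 2 :=
        Finset.sum_le_sum fun i _ => h1 i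
    _ = (∑ i, ∑ j, S i j ^ 2) * ∑ j, (R *ᵥ v) j ^ 2 := by rw [Finset.sum_mul]
    _ ≤ _ := by
        rw [mul_comm]
        exact mul_le_mul_of_nonneg_left (by linarith) (Finset.sum_nonneg fun j _ => sq_nonneg _)

theorem summable_exp_sum_sq :
    ∀ (n : ℕ) {a : ℝ}, 0 < a → Summable fun x : Fin n → ℤ => Real.exp (-a * ∑ i, (x i : ℝ) ^ 2)
  | 0, a, _ => .of_finite
  | n + 1, a, ha => by
    have h1 : Summable fun m : ℤ => Real.exp (-a * (m : ℝ) ^ 2) := by
      have him : 0 < (((a / π : ℝ) : ℂ) * I).im := by simp; positivity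
      have := ((summable_jacobiTheta₂_term_iff 0 (((a / π : ℝ) : ℂ) * I)).2 him).norm
      refine this.congr fun m => ?_
      rw [norm_jacobiTheta₂_term]
      simp
      field_simp
    have := h1.mul_of_nonneg (summable_exp_sum_sq n ha) (fun _ => (Real.exp_pos _).le)
      (fun _ => (Real.exp_pos _).le)
    refine ((Fin.consEquiv fun _ : Fin (n + 1) => ℤ).summable_iff).1 (this.congr fun p => ?_)
    simp [Fin.sum_univ_succ, mul_add, Real.exp_add, Fin.consEquiv]

/-- The Gaussian of a form. -/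
def gauss (P : Matrix (Fin n) (Fin n) ℝ) (t : ℂ) (y : Fin n → ℝ) : ℂ :=
  cexp (-(π * t) * (qf P y : ℂ))

theorem continuous_qf (P : Matrix (Fin n) (Fin n) ℝ) : Continuous (qf P) := by
  unfold qf
  fun_prop

theorem continuous_gauss (P : Matrix (Fin n) (Fin n) ℝ) (t : ℂ) : Continuous (gauss P t) := by
  unfold gauss
  exact continuous_exp.comp (continuous_const.mul (continuous_ofReal.comp (continuous_qf P)))

theorem norm_gauss (P : Matrix (Fin n) (Fin n) ℝ) (t : ℂ) (y : Fin n → ℝ) :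
    ‖gauss P t y‖ = Real.exp (-(π * t.re) * qf P y) := by
  rw [gauss, Complex.norm_exp]
  simp

theorem gauss_shift_bound {R S : Matrix (Fin n) (Fin n) ℝ} (hSR : S * R = 1) {t : ℂ}
    (ht : 0 < t.re) : ∃ a : ℝ, 0 < a ∧ ∀ (y : Fin n → ℝ) (x : Fin n → ℤ),
      ‖gauss (Rᵀ * R) t (y + rv x)‖ ≤
        Real.exp (2 * a * ∑ i, y i ^ 2) * Real.exp (-a * ∑ i, (x i : ℝ) ^ 2) := by
  obtain ⟨c, hc, hb⟩ := exists_lower_bound R S hSR
  refine ⟨π * t.re * c / 2, by positivity, fun y x => ?_⟩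
  rw [norm_gauss, ← Real.exp_add]
  apply Real.exp_le_exp.2
  have hpt : 0 < π * t.re := by positivity
  have h1 : (∑ i, (x i : ℝ) ^ 2) / 2 - ∑ i, y i ^ 2 ≤ ∑ i, (y + rv x) i ^ 2 := by
    rw [Finset.sum_div, ← Finset.sum_sub_distrib]
    refine Finset.sum_le_sum fun i _ => ?_
    simp only [Pi.add_apply, rv]
    nlinarith [sq_nonneg ((x i : ℝ) + 2 * y i)]
  have h2 := mul_le_mul_of_nonneg_left ((mul_le_mul_of_nonneg_left h1 hc.le).trans (hb (y + rv x)))
    hpt.le
  linarith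

theorem summable_gauss {R S : Matrix (Fin n) (Fin n) ℝ} (hSR : S * R = 1) {t : ℂ} (ht : 0 < t.re)
    (y : Fin n → ℝ) : Summable fun x : Fin n → ℤ => gauss (Rᵀ * R) t (y + rv x) := by
  obtain ⟨a, ha, hb⟩ := gauss_shift_bound hSR ht
  exact .of_norm_bounded ((summable_exp_sum_sq n ha).mul_left _) (hb y)

/-- The character of the torus pulled back to real vectors. -/
def chr (m : Fin n → ℤ) (y : Fin n → ℝ) : ℂ := cexp (∑ i, (-(2 * π * I * m i)) * (y i : ℂ))

theorem norm_chr (m : Fin n → ℤ) (y : Fin n → ℝ) : ‖chr m y‖ = 1 := by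
  simp [chr, Complex.norm_exp, Complex.re_sum]

theorem continuous_chr (m : Fin n → ℤ) : Continuous (chr m) := by
  unfold chr
  fun_prop

theorem chr_add_int (m : Fin n → ℤ) (y : Fin n → ℝ) (x : Fin n → ℤ) :
    chr m (y + rv x) = chr m y := by
  unfold chr
  have h : ∀ i, -(2 * π * I * (m i : ℂ)) * (((y + rv x) i : ℝ) : ℂ) =
      -(2 * π * I * (m i : ℂ)) * (y i : ℂ) + (((-(m i * x i) : ℤ)) : ℂ) * (2 * π * I) := by
    intro i
    simp only [Pi.add_apply, rv]
    push_cast
    ring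
  rw [Finset.sum_congr rfl fun i _ => h i, Finset.sum_add_distrib, ← Finset.sum_mul,
    ← Int.cast_sum, Complex.exp_add, Complex.exp_int_mul_two_pi_mul_I, mul_one]

theorem mFourier_neg_coe (m : Fin n → ℤ) (y : Fin n → ℝ) :
    UnitAddTorus.mFourier (-m) (fun i => (y i : UnitAddCircle)) = chr m y := by
  simp only [UnitAddTorus.mFourier, ContinuousMap.coe_mk, Pi.neg_apply, fourier_coe_apply, chr,
    Complex.exp_sum]
  refine Finset.prod_congr rfl fun i _ => ?_
  congr 1
  push_cast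
  ring

theorem integrable_chr_gauss {R S : Matrix (Fin n) (Fin n) ℝ} (hSR : S * R = 1) {t : ℂ}
    (ht : 0 < t.re) (m : Fin n → ℤ) :
    Integrable fun y => chr m y * gauss (Rᵀ * R) t y := by
  obtain ⟨c, hc, hb⟩ := exists_lower_bound R S hSR
  have hpt : 0 < π * t.re := by positivity
  have hI : Integrable fun v : Fin n → ℝ =>
      cexp (-((π * t.re * c : ℝ) : ℂ) * ∑ i, (v i : ℂ) ^ 2 + ∑ i, (0 : ℂ) * v i) :=
    GaussianFourier.integrable_cexp_neg_mul_sum_add (by simp; positivity) _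
  refine hI.norm.mono' ((continuous_chr m).mul (continuous_gauss _ t)).aestronglyMeasurable
    (Filter.Eventually.of_forall fun v => ?_)
  rw [norm_mul, norm_chr, one_mul, norm_gauss, Complex.norm_exp]
  apply Real.exp_le_exp.2
  have h := mul_le_mul_of_nonneg_left (hb v) hpt.le
  simp [← Complex.ofReal_pow, ← Complex.ofReal_sum]
  linarith

theorem integral_chr_gauss {R S : Matrix (Fin n) (Fin n) ℝ} (hRS : R * S = 1) {t : ℂ}
    (ht : 0 < t.re) (m : Fin n → ℤ) :
    ∫ y, chr m y * gauss (Rᵀ * R) t y =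
      (|S.det| : ℝ) * ((1 / t) ^ (n / 2 : ℂ) * gauss (S * Sᵀ) (1 / t) (rv m)) := by
  have hdet : S.det ≠ 0 := by
    intro h
    have := congrArg Matrix.det hRS
    simp [h] at this
  have hmap := Real.map_matrix_volume_pi_eq_smul_volume_pi hdet
  have hcont : Continuous fun y => chr m y * gauss (Rᵀ * R) t y :=
    (continuous_chr m).mul (continuous_gauss _ t)
  have h := integral_map (μ := (volume : Measure (Fin n → ℝ))) (φ := ⇑(Matrix.toLin' S))
    (LinearMap.continuous_of_finiteDimensional _).aemeasurable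
    (f := fun y => chr m y * gauss (Rᵀ * R) t y) hcont.aestronglyMeasurable
  rw [hmap, integral_smul_measure, ENNReal.toReal_ofReal (abs_nonneg _)] at h
  have key : ∀ w : Fin n → ℝ, chr m (Matrix.toLin' S w) * gauss (Rᵀ * R) t (Matrix.toLin' S w) =
      cexp (-(π * t) * ∑ i, (w i : ℂ) ^ 2 +
        ∑ j, (-(2 * π * I) * (((Sᵀ *ᵥ rv m) j : ℝ) : ℂ)) * (w j : ℂ)) := by
    intro w
    rw [chr, gauss, qf_transpose_mul, Matrix.toLin'_apply, mulVec_mulVec, hRS, one_mulVec,
      ← Complex.exp_add, add_comm]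
    congr 1
    push_cast
    congr 1
    simp only [mulVec, dotProduct, rv, Matrix.transpose_apply, Finset.sum_mul, Finset.mul_sum,
      Complex.ofReal_sum, Complex.ofReal_mul, Complex.ofReal_intCast]
    rw [Finset.sum_comm]
    exact Finset.sum_congr rfl fun i _ => Finset.sum_congr rfl fun j _ => by ring
  simp only [key] at h
  rw [GaussianFourier.integral_cexp_neg_mul_sum_add (by simp; positivity)] at h
  have hI : ∫ y, chr m y * gauss (Rᵀ * R) t y =
      (|S.det| : ℝ) • ((π / (π * t)) ^ (Fintype.card (Fin n) / 2 : ℂ) *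
        cexp ((∑ j, (-(2 * π * I) * (((Sᵀ *ᵥ rv m) j : ℝ) : ℂ)) ^ 2) / (4 * (π * t)))) := by
    rw [← h, smul_smul, abs_inv, mul_inv_cancel₀ (abs_ne_zero.2 hdet), one_smul]
  rw [hI, Complex.real_smul, Fintype.card_fin]
  have hπ : (π : ℂ) ≠ 0 := by simp [Real.pi_ne_zero]
  have ht0 : t ≠ 0 := fun h => by simp [h] at ht
  have hq : qf (S * Sᵀ) (rv m) = ∑ j, (Sᵀ *ᵥ rv m) j ^ 2 := by
    have := qf_transpose_mul Sᵀ (rv m)
    rwa [Matrix.transpose_transpose] at this
  rw [gauss, hq, show (π : ℂ) / (π * t) = 1 / t by field_simp]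
  congr 3
  push_cast
  rw [Finset.mul_sum, Finset.sum_div]
  refine Finset.sum_congr rfl fun j _ => ?_
  rw [mul_pow, neg_sq, mul_pow, I_sq]
  field_simp
  ring

/-- The periodization of a Gaussian. -/
def periodize (P : Matrix (Fin n) (Fin n) ℝ) (t : ℂ) (y : Fin n → ℝ) : ℂ :=
  ∑' x : Fin n → ℤ, gauss P t (y + rv x)

theorem periodize_add_int (P : Matrix (Fin n) (Fin n) ℝ) (t : ℂ) (y : Fin n → ℝ)
    (z : Fin n → ℤ) : periodize P t (y + rv z) = periodize P t y := by
  unfold periodize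
  refine Equiv.tsum_eq (Equiv.addLeft z) (fun x => gauss P t (y + rv x)) |>.symm.trans ?_ |>.symm
  refine tsum_congr fun x => ?_
  congr 1
  funext i
  simp [rv]
  ring

theorem continuous_periodize {R S : Matrix (Fin n) (Fin n) ℝ} (hSR : S * R = 1) {t : ℂ}
    (ht : 0 < t.re) : Continuous (periodize (Rᵀ * R) t) := by
  obtain ⟨a, ha, hb⟩ := gauss_shift_bound hSR ht
  rw [continuous_iff_continuousAt]
  intro y0
  have hU : IsOpen {y : Fin n → ℝ | ∑ i, y i ^ 2 < ∑ i, y0 i ^ 2 + 1} :=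
    isOpen_lt (by fun_prop) continuous_const
  refine ContinuousOn.continuousAt ?_ (hU.mem_nhds (by simp))
  refine continuousOn_tsum (fun x => ((continuous_gauss _ t).comp (by fun_prop)).continuousOn)
    ((summable_exp_sum_sq n ha).mul_left (Real.exp (2 * a * (∑ i, y0 i ^ 2 + 1)))) fun x y hy => ?_
  refine (hb y x).trans (mul_le_mul_of_nonneg_right (Real.exp_le_exp.2 ?_) (Real.exp_pos _).le)
  have : ∑ i, y i ^ 2 ≤ ∑ i, y0 i ^ 2 + 1 := le_of_lt hy
  nlinarith

/-- The periodization on the torus. -/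
def torusFun (P : Matrix (Fin n) (Fin n) ℝ) (t : ℂ) (z : UnitAddTorus (Fin n)) : ℂ :=
  periodize P t fun i => (AddCircle.equivIoc 1 0 (z i)).1

theorem torusFun_coe (P : Matrix (Fin n) (Fin n) ℝ) (t : ℂ) (y : Fin n → ℝ) :
    torusFun P t (fun i => (y i : UnitAddCircle)) = periodize P t y := by
  unfold torusFun
  have h : ∀ i, ∃ k : ℤ,
      (AddCircle.equivIoc (1 : ℝ) 0 (y i : UnitAddCircle)).1 = y i + (k : ℝ) := by
    intro i
    have h0 : (((AddCircle.equivIoc (1 : ℝ) 0 (y i : UnitAddCircle)).1 : ℝ) : UnitAddCircle) =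
        (y i : UnitAddCircle) :=
      (AddCircle.equivIoc (1 : ℝ) 0).symm_apply_apply (y i : UnitAddCircle)
    obtain ⟨k, hk⟩ := AddSubgroup.mem_zmultiples_iff.1 (QuotientAddGroup.eq_iff_sub_mem.1 h0)
    exact ⟨k, by simp at hk; linarith⟩
  choose k hk using h
  rw [show (fun i => (AddCircle.equivIoc (1 : ℝ) 0 (y i : UnitAddCircle)).1) = y + rv k from
    funext fun i => by simp [rv, hk i]]
  exact periodize_add_int P t y k

theorem continuous_torusFun {R S : Matrix (Fin n) (Fin n) ℝ} (hSR : S * R = 1) {t : ℂ}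
    (ht : 0 < t.re) : Continuous (torusFun (Rᵀ * R) t) := by
  have hq : IsOpenQuotientMap (Pi.map fun (_ : Fin n) (r : ℝ) => (r : UnitAddCircle)) :=
    IsOpenQuotientMap.piMap fun _ => QuotientAddGroup.isOpenQuotientMap_mk
  rw [← hq.isQuotientMap.continuous_iff.symm]
  have : torusFun (Rᵀ * R) t ∘ Pi.map (fun (_ : Fin n) (r : ℝ) => (r : UnitAddCircle)) =
      periodize (Rᵀ * R) t := funext fun y => torusFun_coe _ t y
  rw [this]
  exact continuous_periodize hSR ht

/-- The half-open unit cube at an integer point. -/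
def cube (x : Fin n → ℤ) : Set (Fin n → ℝ) := {y | ∀ i, y i ∈ Set.Ioc (x i : ℝ) (x i + 1)}

theorem measurableSet_cube (x : Fin n → ℤ) : MeasurableSet (cube x) :=
  MeasurableSet.univ_pi' fun _ => measurableSet_Ioc

theorem pairwise_disjoint_cube : Pairwise (Function.onFun Disjoint (cube (n := n))) := by
  intro x x' hne
  rw [Function.onFun, Set.disjoint_left]
  intro y hy hy'
  apply hne
  funext i
  have h1 : (x i : ℝ) < x' i + 1 := (hy i).1.trans_le (hy' i).2
  have h2 : (x' i : ℝ) < x i + 1 := (hy' i).1.trans_le (hy i).2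
  have h1' : x i < x' i + 1 := by exact_mod_cast h1
  have h2' : x' i < x i + 1 := by exact_mod_cast h2
  omega

theorem iUnion_cube : ⋃ x, cube (n := n) x = Set.univ := by
  refine Set.eq_univ_of_forall fun y => Set.mem_iUnion.2 ⟨fun i => ⌈y i⌉ - 1, fun i => ?_⟩
  push_cast
  exact ⟨by linarith [Int.ceil_lt_add_one (y i)], by linarith [Int.le_ceil (y i)]⟩

theorem setIntegral_cube {E : Type*} [NormedAddCommGroup E] [NormedSpace ℝ E]
    (h : (Fin n → ℝ) → E) (x : Fin n → ℤ) :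
    ∫ y in cube 0, h (y + rv x) = ∫ y in cube x, h y := by
  have hp : (fun y => y + rv x) ⁻¹' cube x = cube (n := n) 0 := by
    ext y
    simp only [cube, rv, Set.mem_preimage, Set.mem_setOf_eq, Set.mem_Ioc, Pi.add_apply, Pi.zero_apply,
      Int.cast_zero]
    exact forall_congr' fun i => ⟨fun h => ⟨by linarith [h.1], by linarith [h.2]⟩,
      fun h => ⟨by linarith [h.1], by linarith [h.2]⟩⟩
  rw [← hp]
  exact (measurePreserving_add_right volume (rv x)).setIntegral_preimage_emb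
    (measurableEmbedding_addRight (rv x)) h (cube x)

theorem mFourierCoeff_torusFun {R S : Matrix (Fin n) (Fin n) ℝ} (hRS : R * S = 1)
    (hSR : S * R = 1) {t : ℂ} (ht : 0 < t.re) (m : Fin n → ℤ) :
    UnitAddTorus.mFourierCoeff (torusFun (Rᵀ * R) t) m =
      (|S.det| : ℝ) * ((1 / t) ^ (n / 2 : ℂ) * gauss (S * Sᵀ) (1 / t) (rv m)) := by
  rw [UnitAddTorus.mFourierCoeff_eq_integral _ _ 0, ← integral_chr_gauss hRS ht m]
  have hc : {y : Fin n → ℝ | ∀ i, y i ∈ Set.Ioc ((0 : Fin n → ℝ) i) ((0 : Fin n → ℝ) i + 1)} =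
      cube 0 := by
    ext y
    simp [cube]
  rw [hc]
  set h := fun y => chr m y * gauss (Rᵀ * R) t y with hh
  have hI : Integrable h := integrable_chr_gauss hSR ht m
  have e : ∀ y : Fin n → ℝ, UnitAddTorus.mFourier (-m) (fun i => (y i : UnitAddCircle)) •
      torusFun (Rᵀ * R) t (fun i => (y i : UnitAddCircle)) = ∑' x, h (y + rv x) := by
    intro y
    rw [mFourier_neg_coe, torusFun_coe, periodize, smul_eq_mul, ← tsum_mul_left]
    exact tsum_congr fun x => by simp only [hh, chr_add_int]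
  rw [setIntegral_congr_fun (measurableSet_cube 0) fun y _ => e y]
  have h1 := hasSum_integral_iUnion (f := h) (fun x => measurableSet_cube x)
    pairwise_disjoint_cube (by rw [iUnion_cube]; exact hI.integrableOn)
  have h2 := hasSum_integral_iUnion (f := fun y => ‖h y‖) (fun x => measurableSet_cube x)
    pairwise_disjoint_cube (by rw [iUnion_cube]; exact hI.norm.integrableOn)
  rw [iUnion_cube, setIntegral_univ] at h1
  rw [← h1.tsum_eq, ← integral_tsum_of_summable_integral_norm]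
  · exact tsum_congr fun x => setIntegral_cube h x
  · intro x
    exact (hI.comp_add_right (rv x)).integrableOn
  · exact h2.summable.congr fun x => (setIntegral_cube (fun y => ‖h y‖) x).symm

/-- Poisson summation for a Gaussian. -/
theorem tsum_gauss_eq {R S : Matrix (Fin n) (Fin n) ℝ} (hRS : R * S = 1) (hSR : S * R = 1)
    {t : ℂ} (ht : 0 < t.re) :
    ∑' x : Fin n → ℤ, gauss (Rᵀ * R) t (rv x) =
      (|S.det| : ℝ) * ((1 / t) ^ (n / 2 : ℂ) *
        ∑' m : Fin n → ℤ, gauss (S * Sᵀ) (1 / t) (rv m)) := by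
  let G : C(UnitAddTorus (Fin n), ℂ) := ⟨torusFun (Rᵀ * R) t, continuous_torusFun hSR ht⟩
  have hrt : 0 < (1 / t).re := by
    rw [one_div, Complex.inv_re]
    exact div_pos ht (Complex.normSq_pos.2 fun h => by simp [h] at ht)
  have hT : Rᵀ * Sᵀ = 1 := by rw [← Matrix.transpose_mul, hSR, Matrix.transpose_one]
  have hs : Summable fun m : Fin n → ℤ => gauss (S * Sᵀ) (1 / t) (rv m) := by
    have := summable_gauss (R := Sᵀ) (S := Rᵀ) hT hrt 0
    simpa [Matrix.transpose_transpose] using this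
  have hco : UnitAddTorus.mFourierCoeff (⇑G) = fun m =>
      (|S.det| : ℝ) * ((1 / t) ^ (n / 2 : ℂ) * gauss (S * Sᵀ) (1 / t) (rv m)) :=
    funext fun m => mFourierCoeff_torusFun hRS hSR ht m
  have hsum : Summable (UnitAddTorus.mFourierCoeff (⇑G)) := by
    rw [hco]
    exact (hs.mul_left _).mul_left _
  have h := UnitAddTorus.hasSum_mFourier_series_apply_of_summable hsum
    (fun i => ((0 : ℝ) : UnitAddCircle))
  have h0 : ∀ m : Fin n → ℤ,
      UnitAddTorus.mFourier m (fun _ => ((0 : ℝ) : UnitAddCircle)) = 1 := fun m => by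
    simp [UnitAddTorus.mFourier]
  have hG : G (fun i => ((0 : ℝ) : UnitAddCircle)) =
      ∑' x : Fin n → ℤ, gauss (Rᵀ * R) t (rv x) := by
    show torusFun (Rᵀ * R) t (fun i => (((0 : Fin n → ℝ) i : ℝ) : UnitAddCircle)) = _
    rw [torusFun_coe]
    simp [periodize]
  simp only [h0, smul_eq_mul, mul_one] at h
  rw [hco, hG] at h
  rw [← h.tsum_eq, tsum_mul_left, tsum_mul_left]

end Cfsg.Agent.H18.Gauss
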