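import Cfsg.Agent.H6.PSL34
import Cfsg.Agent.H13.PlaneFour
import Cfsg.Prelude.Def_CaseTheorems

/-! Perfect central extensions of `PSL₃(4)` by elementary abelian `2`-groups have kernel of order
at most four. -/

set_option autoImplicit false

namespace Cfsg.Agent.H18.L34Cover

open scoped MatrixGroups Matrix commutatorElement
open Matrix (det_fin_three)

variable {F : Type*} [Field F]

/-- Unitriangular matrices. -/
def uni (a b c : F) : SL(3, F) := ⟨!![1, a, b; 0, 1, c; 0, 0, 1], by simp [det_fin_three]⟩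

theorem uni_mul (a b c a' b' c' : F) :
    uni a b c * uni a' b' c' = uni (a + a') (b + b' + a * c') (c + c') := by
  apply Matrix.SpecialLinearGroup.ext
  intro i j
  rw [Matrix.SpecialLinearGroup.coe_mul]
  fin_cases i <;> fin_cases j <;>
    simp [uni, Matrix.mul_apply, Fin.sum_univ_three] <;> ring

theorem uni_zero : uni (0 : F) 0 0 = 1 := by
  apply Matrix.SpecialLinearGroup.ext
  intro i j
  fin_cases i <;> fin_cases j <;> simp [uni]

/-- Image of a unitriangular matrix in the simple group. -/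
def u (a b c : F) : PSL(3, F) := (uni a b c : SL(3, F))

theorem u_mul (a b c a' b' c' : F) :
    u a b c * u a' b' c' = u (a + a') (b + b' + a * c') (c + c') := by
  simp only [u, ← uni_mul, QuotientGroup.mk_mul]

theorem u_zero : u (0 : F) 0 0 = 1 := by simp only [u, uni_zero, QuotientGroup.mk_one]

theorem u_mul_row (a b a' b' : F) : u a b 0 * u a' b' 0 = u (a + a') (b + b') 0 := by
  rw [u_mul, mul_zero, add_zero, add_zero]

theorem u_mul_col (b c b' c' : F) : u 0 b c * u 0 b' c' = u 0 (b + b') (c + c') := by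
  rw [u_mul, zero_mul, add_zero, add_zero]

theorem u_inj {a b c a' b' c' : F} (h : u a b c = u a' b' c') : a = a' ∧ b = b' ∧ c = c' := by
  have h1 : (uni a b c)⁻¹ * uni a' b' c' ∈ Subgroup.center SL(3, F) := QuotientGroup.eq.1 h
  obtain ⟨r, -, e⟩ := Matrix.SpecialLinearGroup.mem_center_iff.1 h1
  have h2 : (uni a' b' c' : Matrix (Fin 3) (Fin 3) F) =
      (uni a b c : Matrix (Fin 3) (Fin 3) F) * Matrix.scalar (Fin 3) r := by
    rw [e, ← Matrix.SpecialLinearGroup.coe_mul, mul_inv_cancel_left]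
  have e00 := congrFun (congrFun h2 0) 0
  have e01 := congrFun (congrFun h2 0) 1
  have e02 := congrFun (congrFun h2 0) 2
  have e12 := congrFun (congrFun h2 1) 2
  simp [uni, Matrix.mul_apply, Fin.sum_univ_three] at e00 e01 e02 e12
  subst e00
  exact ⟨by simpa using e01.symm, by simpa using e02.symm, by simpa using e12.symm⟩

/-- The image of the unitriangular group. -/
def uniGroup : Subgroup PSL(3, F) where
  carrier := {g | ∃ a b c, u a b c = g}
  one_mem' := ⟨0, 0, 0, u_zero⟩
  mul_mem' := by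
    rintro _ _ ⟨a, b, c, rfl⟩ ⟨a', b', c', rfl⟩
    exact ⟨_, _, _, (u_mul ..).symm⟩
  inv_mem' := by
    rintro _ ⟨a, b, c, rfl⟩
    refine ⟨-a, a * c - b, -c, eq_inv_of_mul_eq_one_left ?_⟩
    rw [u_mul]
    convert u_zero using 2 <;> ring

theorem index_uniGroup [Fintype F] (hF : Fintype.card F = 4) :
    (uniGroup (F := F)).index = 315 := by
  have h : Nat.card (uniGroup (F := F)) = 64 := by
    rw [← Nat.card_congr (Equiv.ofBijective
      (fun t : F × F × F => (⟨u t.1 t.2.1 t.2.2, _, _, _, rfl⟩ : uniGroup (F := F))) ⟨?_, ?_⟩)]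
    · simp [hF]
    · rintro ⟨a, b, c⟩ ⟨a', b', c'⟩ h
      obtain ⟨rfl, rfl, rfl⟩ := u_inj (congrArg Subtype.val h)
      rfl
    · rintro ⟨_, a, b, c, rfl⟩
      exact ⟨(a, b, c), rfl⟩
  have h1 := (uniGroup (F := F)).card_mul_index
  rw [h, H13.card_psl_three_four hF] at h1
  omega

section Ext

variable [Fintype F] {D : Type*} [Group D] (π : D →* PSL(3, F))

/-- Lifts of elements of order two have order two. -/
theorem sq_eq_one_of_lift (hF : Fintype.card F = 4) (hπ : Function.Surjective π)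
    (hc : π.ker ≤ Subgroup.center D) (he : ∀ z ∈ π.ker, z * z = 1) {x : D}
    (hx : π x * π x = 1) : x * x = 1 := by
  classical
  have h2 : (2 : F) = 0 := H6.PSL34.two_eq_zero hF
  obtain ⟨w, hw0, hw1⟩ : ∃ w : F, w ≠ 0 ∧ w ≠ 1 := by
    obtain ⟨w, -, hw⟩ := Finset.exists_mem_notMem_of_card_lt_card
      (s := ({0, 1} : Finset F)) (t := Finset.univ)
      (lt_of_le_of_lt Finset.card_le_two (by simp [hF]))
    simp at hw
    exact ⟨w, hw.1, hw.2⟩
  have hsq : ∀ a b : F, u a b 0 * u a b 0 = 1 := fun a b => by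
    have dbl : ∀ e : F, e + e = 0 := fun e => by linear_combination e * h2
    rw [u_mul_row, dbl, dbl, u_zero]
  have hne : ∀ a b : F, ¬ (a = 0 ∧ b = 0) → u a b (0 : F) ≠ 1 := fun a b h h' =>
    h (by obtain ⟨h1, h2, -⟩ := u_inj (h'.trans u_zero.symm); exact ⟨h1, h2⟩)
  choose l hl using fun s => hπ s
  set c := l (u 1 0 0) * l (u 1 0 0) with hcdef
  have cen : ∀ {d : D}, π d = 1 → ∀ y, d * y = y * d := fun {d} hd y =>
    (Subgroup.mem_center_iff.1 (hc hd) y).symm
  -- squares of lifts of involutions are all equal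
  have hconst : ∀ y : D, π y * π y = 1 → π y ≠ 1 → y * y = c := by
    intro y hy hy1
    have ho : ∀ s : PSL(3, F), s * s = 1 → s ≠ 1 → orderOf s = 2 := fun s hs hs1 =>
      orderOf_eq_prime (by rw [pow_two, hs]) hs1
    obtain ⟨g, hg⟩ := isConj_iff.1 (H6.PSL34.isConj_of_orderOf_two hF _ _
      (ho (u 1 0 0) (hsq 1 0) (hne 1 0 (by simp))) (ho _ hy hy1))
    obtain ⟨g, rfl⟩ := hπ g
    set y' := g * l (u 1 0 0) * g⁻¹ with hy'
    have hk : π (y'⁻¹ * y) = 1 := by
      rw [map_mul, map_inv, hy', map_mul, map_mul, map_inv, hl, hg, inv_mul_cancel]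
    have hc1 : π c = 1 := by rw [hcdef, map_mul, hl, hsq]
    calc y * y = (y' * (y'⁻¹ * y)) * (y' * (y'⁻¹ * y)) := by group
      _ = y' * y' * ((y'⁻¹ * y) * (y'⁻¹ * y)) := by
          rw [mul_assoc y', ← mul_assoc (y'⁻¹ * y) y', cen hk y']; group
      _ = c := by
          rw [he _ hk, mul_one, hy', ← mul_inv_eq_iff_eq_mul.2 (cen hc1 g).symm]
          rw [hcdef]; group
  have hc1 : π c = 1 := by rw [hcdef, map_mul, hl, hsq]
  have hcc : c * c = 1 := he _ hc1
  -- commutators of lifts of independent elements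
  have hcomm : ∀ y t : D, π y * π y = 1 → π t * π t = 1 → π y * π t = π t * π y →
      π y ≠ 1 → π t ≠ 1 → π y ≠ π t → t * y = c * (y * t) := by
    intro y t hy ht hyt hy1 ht1 hne'
    have hk : π ((t * y) * (y * t)⁻¹) = 1 := by
      rw [map_mul, map_inv, map_mul, map_mul, hyt, mul_inv_cancel]
    set k := (t * y) * (y * t)⁻¹ with hkdef
    have hty : t * y = k * (y * t) := by rw [hkdef]; group
    have hprod : (y * t) * (y * t) = c := by
      refine hconst _ ?_ ?_
      · rw [map_mul, mul_assoc, ← mul_assoc (π t), ← hyt, mul_assoc (π y), ht, mul_one, hy]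
      · rw [map_mul]
        intro h
        exact hne' (by rw [eq_inv_of_mul_eq_one_left h]; exact inv_eq_of_mul_eq_one_right ht)
    have hkc : k = c := by
      have e : (y * t) * (y * t) = k * ((y * y) * (t * t)) := by
        rw [mul_assoc y t, ← mul_assoc t y t, hty, ← mul_assoc, ← mul_assoc, ← cen hk y]
        group
      rw [hprod, hconst y hy hy1, hconst t ht ht1, hcc, mul_one] at e
      exact e.symm
    rw [hty, hkc]
  -- three independent commuting involutions
  have hcw : c = 1 := by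
    have key : ∀ a b a' b' : F, ¬ (a = 0 ∧ b = 0) → ¬ (a' = 0 ∧ b' = 0) →
        ¬ (a = a' ∧ b = b') → ∀ y t : D, π y = u a b 0 → π t = u a' b' 0 →
        t * y = c * (y * t) := by
      intro a b a' b' h1 h2' h3 y t hy ht
      refine hcomm y t (by rw [hy, hsq]) (by rw [ht, hsq]) ?_ (by rw [hy]; exact hne _ _ h1)
        (by rw [ht]; exact hne _ _ h2') ?_
      · rw [hy, ht, u_mul, u_mul]; congr 1 <;> ring
      · rw [hy, ht]
        exact fun h => h3 ⟨(u_inj h).1, (u_inj h).2.1⟩
    let y := l (u 1 0 0); let t := l (u 0 1 0); let s := l (u 0 w 0)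
    have e1 := key 1 0 0 1 (by simp) (by simp) (by simp) y t (hl _) (hl _)
    have e2 := key 1 0 0 w (by simp) (by simp [hw0]) (by simp) y s (hl _) (hl _)
    have h1w : ¬ (1 + w = 0) := fun h => hw1 (by linear_combination h - h2)
    have e3 := key 1 0 0 (1 + w) (by simp) (by simp [h1w]) (by simp) y (t * s) (hl _)
      (by rw [map_mul, hl, hl, u_mul]; congr 1 <;> ring)
    have e4 : t * s * y = y * (t * s) := by
      rw [mul_assoc, e2, ← mul_assoc, ← cen hc1, mul_assoc, ← mul_assoc t y, e1,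
        mul_assoc c, ← mul_assoc, hcc, one_mul, mul_assoc]
    rw [e4] at e3
    exact (right_eq_mul.1 e3)
  by_cases h : π x = 1
  · exact he _ h
  · rw [hconst x hx h, hcw]

/-- The kernel has order at most four. -/
theorem card_ker_le [Finite D] (hF : Fintype.card F = 4) (hπ : Function.Surjective π)
    (hD : commutator D = ⊤) (hc : π.ker ≤ Subgroup.center D) (he : ∀ z ∈ π.ker, z * z = 1) :
    Nat.card π.ker ≤ 4 := by
  classical
  have h2 : (2 : F) = 0 := H6.PSL34.two_eq_zero hF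
  have lift2 : ∀ {x : D}, π x * π x = 1 → x * x = 1 := sq_eq_one_of_lift π hF hπ hc he
  have comm2 : ∀ {x y : D}, π x * π x = 1 → π y * π y = 1 → π x * π y = π y * π x →
      Commute x y := by
    intro x y hx hy hxy
    have h := lift2 (x := x * y) (by
      rw [map_mul, mul_assoc, ← mul_assoc (π y), ← hxy, mul_assoc (π x), hy, mul_one, hx])
    calc x * y = (x * y)⁻¹ := (inv_eq_of_mul_eq_one_right h).symm
      _ = y * x := by rw [mul_inv_rev, inv_eq_of_mul_eq_one_right (lift2 hx),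
        inv_eq_of_mul_eq_one_right (lift2 hy)]
  choose l hl using fun s => hπ s
  have dbl : ∀ e : F, e + e = 0 := fun e => by linear_combination e * h2
  -- preimages of the three root groups
  let A : Set D := {x | ∃ a b, π x = u a b 0}
  let B : Set D := {x | ∃ b c, π x = u 0 b c}
  have hA : ∀ x ∈ A, ∀ y ∈ A, Commute x y := by
    rintro x ⟨a, b, hx⟩ y ⟨a', b', hy⟩
    refine comm2 ?_ ?_ ?_ <;> simp only [hx, hy, u_mul_row, dbl, u_zero]
    rw [add_comm a, add_comm b]
  have hB : ∀ x ∈ B, ∀ y ∈ B, Commute x y := by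
    rintro x ⟨b, c, hx⟩ y ⟨b', c', hy⟩
    refine comm2 ?_ ?_ ?_ <;> simp only [hx, hy, u_mul_col, dbl, u_zero]
    rw [add_comm c, add_comm b]
  let T : Subgroup D := (uniGroup (F := F)).comap π
  have hTidx : T.index = 315 := by
    rw [Subgroup.index_comap_of_surjective _ hπ, index_uniGroup hF]
  have mA : ∀ {x : D} {a b : F}, π x = u a b 0 → x ∈ A := fun h => ⟨_, _, h⟩
  have mB : ∀ {x : D} {b c : F}, π x = u 0 b c → x ∈ B := fun h => ⟨_, _, h⟩
  let x : F → D := fun a => l (u a 0 0)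
  let y : F → D := fun c => l (u 0 0 c)
  have hx : ∀ a, π (x a) = u a 0 0 := fun a => hl _
  have hy : ∀ c, π (y c) = u 0 0 c := fun c => hl _
  -- decomposition
  have hdec : ∀ t ∈ T, ∃ a c r, (∃ b, π r = u 0 b 0) ∧ t = x a * y c * r := by
    intro t ht
    obtain ⟨a, b, c, h⟩ := ht
    refine ⟨a, c, (x a * y c)⁻¹ * t, ⟨b - a * c, ?_⟩, by group⟩
    rw [map_mul, map_inv, map_mul, hx, hy, inv_mul_eq_iff_eq_mul, ← h, u_mul, u_mul]
    congr 1 <;> ring
  let k : F → F → D := fun a c => ⁅x a, y c⁆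
  have hk : ∀ a c, π (k a c) = u 0 (a * c) 0 := by
    intro a c
    have e : u a 0 0 * u 0 0 c = u 0 (a * c) 0 * (u 0 0 c * u a 0 0) := by
      simp only [u_mul]; congr 1 <;> ring
    show π ⁅x a, y c⁆ = _
    rw [map_commutatorElement, hx, hy, commutatorElement_def, e]
    group
  -- central in the Sylow subgroup
  have hRc : ∀ r, (∃ b, π r = u 0 b 0) → (∀ a, Commute r (x a)) ∧ (∀ c, Commute r (y c)) := by
    rintro r ⟨b, hr⟩
    exact ⟨fun a => hA r (mA hr) _ (mA (hx a)), fun c => hB r (mB hr) _ (mB (hy c))⟩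
  have hRR : ∀ r s, (∃ b, π r = u 0 b 0) → (∃ b, π s = u 0 b 0) → Commute r s :=
    fun r s ⟨_, hr⟩ ⟨_, hs⟩ => hA r (mA hr) s (mA hs)
  let R : Subgroup D :=
    { carrier := {r | ∃ b, π r = u 0 b 0}
      one_mem' := ⟨0, by rw [map_one, u_zero]⟩
      mul_mem' := fun {r s} ⟨b, hr⟩ ⟨b', hs⟩ => ⟨b + b', by
        rw [map_mul, hr, hs, u_mul]; congr 1 <;> ring⟩
      inv_mem' := fun {r} ⟨b, hr⟩ => ⟨-b, by
        rw [map_inv, hr, inv_eq_iff_mul_eq_one, u_mul, ← u_zero]; congr 1 <;> ring⟩ }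
  letI : CommGroup R :=
    { (inferInstance : Group R) with mul_comm := fun r s => Subtype.ext (hRR r s r.2 s.2) }
  have kR : ∀ a c, k a c ∈ R := fun a c => ⟨_, hk a c⟩
  -- bilinearity
  have kadd₁ : ∀ a a' c, k (a + a') c = k a c * k a' c := by
    intro a a' c
    obtain ⟨r, hr, hr'⟩ : ∃ r, π r = 1 ∧ x (a + a') = x a * x a' * r := by
      refine ⟨(x a * x a')⁻¹ * x (a + a'), ?_, by group⟩
      rw [map_mul, map_inv, map_mul, hx, hx, hx, inv_mul_eq_one, u_mul]
      congr 1 <;> ring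
    have cr : Commute r (y c) := (Subgroup.mem_center_iff.1 (hc hr) _).symm
    have ck : Commute (x a) (k a' c) := ((hRc _ (kR a' c)).1 a).symm
    have ckk : Commute (k a' c) (k a c) := hRR _ _ (kR _ _) (kR _ _)
    calc k (a + a') c = ⁅x a * x a', y c⁆ := by
          show ⁅x (a + a'), y c⁆ = _
          rw [hr', commutatorElement_def, commutatorElement_def, mul_inv_rev, mul_assoc _ r,
            cr.eq]
          group
      _ = x a * k a' c * (x a)⁻¹ * k a c := by
          simp only [k, commutatorElement_def]; group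
      _ = k a c * k a' c := by rw [ck.eq, mul_inv_cancel_right, ckk.eq]
  have kadd₂ : ∀ a c c', k a (c + c') = k a c * k a c' := by
    intro a c c'
    obtain ⟨r, hr, hr'⟩ : ∃ r, π r = 1 ∧ y (c + c') = y c * y c' * r := by
      refine ⟨(y c * y c')⁻¹ * y (c + c'), ?_, by group⟩
      rw [map_mul, map_inv, map_mul, hy, hy, hy, inv_mul_eq_one, u_mul]
      congr 1 <;> ring
    have cr : Commute r (x a)⁻¹ := (Subgroup.mem_center_iff.1 (hc hr) _).symm
    have ck : Commute (y c) (k a c') := ((hRc _ (kR a c')).2 c).symm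
    calc k a (c + c') = ⁅x a, y c * y c'⁆ := by
          show ⁅x a, y (c + c')⁆ = _
          rw [hr', commutatorElement_def, commutatorElement_def, mul_inv_rev (y c * y c'),
            mul_assoc (x a), mul_assoc (y c * y c'), cr.eq]
          group
      _ = k a c * (y c * k a c' * (y c)⁻¹) := by
          simp only [k, commutatorElement_def]; group
      _ = k a c * k a c' := by rw [ck.eq, mul_inv_cancel_right]
  obtain ⟨w, hw0, hw1⟩ : ∃ w : F, w ≠ 0 ∧ w ≠ 1 := by
    obtain ⟨w, -, hw⟩ := Finset.exists_mem_notMem_of_card_lt_card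
      (s := ({0, 1} : Finset F)) (t := Finset.univ)
      (lt_of_le_of_lt Finset.card_le_two (by simp [hF]))
    simp at hw
    exact ⟨w, hw.1, hw.2⟩
  have h1w : (1 : F) + w ≠ 0 := fun h => hw1 (by linear_combination h - h2)
  have huniv : ∀ a : F, a = 0 ∨ a = 1 ∨ a = w ∨ a = 1 + w := by
    have hs : ({0, 1, w, 1 + w} : Finset F) = Finset.univ := by
      refine Finset.eq_univ_of_card _ ?_
      rw [hF, Finset.card_insert_of_notMem (by simp [Ne.symm hw0, Ne.symm h1w]),
        Finset.card_insert_of_notMem (by simp [Ne.symm hw1, hw0]),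
        Finset.card_pair (by simp)]
    intro a
    have := hs ▸ Finset.mem_univ a
    simpa using this
  let kk : F → F → R := fun a c => ⟨k a c, kR a c⟩
  let ψ : Subgroup.zpowers (kk 1 1) × Subgroup.zpowers (kk 1 w) ×
      Subgroup.zpowers (kk w 1) × Subgroup.zpowers (kk w w) →* R :=
    (Subgroup.subtype _).coprod ((Subgroup.subtype _).coprod
      ((Subgroup.subtype _).coprod (Subgroup.subtype _)))
  let W : Subgroup D := ψ.range.map R.subtype
  have hW16 : Nat.card W ≤ 16 := by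
    rw [Subgroup.card_map_of_injective R.subtype_injective]
    have h2' : ∀ r : R, Nat.card (Subgroup.zpowers r) ≤ 2 := fun r => by
      rw [Nat.card_zpowers]
      refine orderOf_le_of_pow_eq_one two_pos (Subtype.ext ?_)
      obtain ⟨b, hb⟩ := r.2
      rw [pow_two]
      refine lift2 ?_
      rw [hb, u_mul_row, dbl, dbl, u_zero]
    calc Nat.card ψ.range ≤ Nat.card (Subgroup.zpowers (kk 1 1) × Subgroup.zpowers (kk 1 w) ×
          Subgroup.zpowers (kk w 1) × Subgroup.zpowers (kk w w)) :=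
          Nat.card_le_card_of_surjective _ ψ.rangeRestrict_surjective
      _ ≤ 16 := by
          simp only [Nat.card_prod]
          exact (Nat.mul_le_mul (h2' _) (Nat.mul_le_mul (h2' _) (Nat.mul_le_mul (h2' _) (h2' _))))
  have hkW : ∀ a c, k a c ∈ W := by
    have base : ∀ a c, a = 1 ∨ a = w → c = 1 ∨ c = w → k a c ∈ W := by
      intro a c ha hc'
      refine ⟨kk a c, ?_, rfl⟩
      rcases ha with rfl | rfl <;> rcases hc' with rfl | rfl
      · exact ⟨(⟨_, Subgroup.mem_zpowers _⟩, 1, 1, 1), by simp [ψ]⟩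
      · exact ⟨(1, ⟨_, Subgroup.mem_zpowers _⟩, 1, 1), by simp [ψ]⟩
      · exact ⟨(1, 1, ⟨_, Subgroup.mem_zpowers _⟩, 1), by simp [ψ]⟩
      · exact ⟨(1, 1, 1, ⟨_, Subgroup.mem_zpowers _⟩), by simp [ψ]⟩
    have z1 : ∀ c, k 0 c = 1 := fun c => by
      have := kadd₁ 0 0 c
      rw [add_zero] at this
      exact left_eq_mul.1 this
    have z2 : ∀ a, k a 0 = 1 := fun a => by
      have := kadd₂ a 0 0
      rw [add_zero] at this
      exact left_eq_mul.1 this
    have step : ∀ a, a = 1 ∨ a = w → ∀ c, k a c ∈ W := by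
      intro a ha c
      rcases huniv c with rfl | rfl | rfl | rfl
      · rw [z2]; exact W.one_mem
      · exact base _ _ ha (Or.inl rfl)
      · exact base _ _ ha (Or.inr rfl)
      · rw [kadd₂]; exact W.mul_mem (base _ _ ha (Or.inl rfl)) (base _ _ ha (Or.inr rfl))
    intro a c
    rcases huniv a with rfl | rfl | rfl | rfl
    · rw [z1]; exact W.one_mem
    · exact step _ (Or.inl rfl) c
    · exact step _ (Or.inr rfl) c
    · rw [kadd₁]; exact W.mul_mem (step _ (Or.inl rfl) c) (step _ (Or.inr rfl) c)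
  have hWR : ∀ v ∈ W, ∃ b, π v = u 0 b 0 := by
    rintro _ ⟨v, -, rfl⟩
    exact v.2
  let V : Subgroup T := W.subgroupOf T
  haveI : V.Normal := ⟨fun v hv t => by
    have hcom : Commute (t : D) (v : D) := by
      obtain ⟨a, c, r, hr, e⟩ := hdec _ t.2
      rw [e]
      exact ((((hRc _ (hWR _ hv)).1 a).symm.mul_left ((hRc _ (hWR _ hv)).2 c).symm).mul_left
        (hRR _ _ hr (hWR _ hv)))
    show ((t * v * t⁻¹ : T) : D) ∈ W
    rw [Subgroup.coe_mul, Subgroup.coe_mul, Subgroup.coe_inv, hcom.eq, mul_inv_cancel_right]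
    exact hv⟩
  let q := QuotientGroup.mk' V
  have qeq : ∀ s t : T, (t : D)⁻¹ * s * (s : D) ⁻¹ * t = 1 := fun s t => by group
  have qcomm : ∀ s t : T, ⁅(s : D), (t : D)⁆ ∈ W → Commute (q s) (q t) := by
    intro s t h
    rw [commute_iff_eq, ← map_mul, ← map_mul]
    have : ⁅s, t⁆ ∈ V := by
      show ((⁅s, t⁆ : T) : D) ∈ W
      simpa [commutatorElement_def] using h
    have h' : q ⁅s, t⁆ = 1 := (QuotientGroup.eq_one_iff _).2 this
    rw [map_commutatorElement, commutatorElement_eq_one_iff_mul_comm] at h'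
    simpa using h'
  have xT : ∀ a, x a ∈ T := fun a => ⟨a, 0, 0, (hx a).symm⟩
  have yT : ∀ c, y c ∈ T := fun c => ⟨0, 0, c, (hy c).symm⟩
  have hab : ∀ s t : T, q s * q t = q t * q s := by
    have one' : ∀ {g h : D}, Commute g h → ⁅g, h⁆ ∈ W := fun h => by
      rw [commutatorElement_eq_one_iff_commute.2 h]; exact W.one_mem
    have cX : ∀ a (t : T), Commute (q ⟨x a, xT a⟩) (q t) := by
      intro a t
      obtain ⟨a', c', r, hr, e⟩ := hdec _ t.2
      obtain ⟨b, hb⟩ := hr
      have rT : r ∈ T := ⟨0, b, 0, hb.symm⟩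
      have et : t = ⟨x a', xT a'⟩ * ⟨y c', yT c'⟩ * ⟨r, rT⟩ := Subtype.ext e
      rw [et, map_mul, map_mul]
      exact (((qcomm _ _ (one' (hA _ (mA (hx a)) _ (mA (hx a'))))).mul_right
        (qcomm _ _ (hkW a c'))).mul_right (qcomm _ _ (one' ((hRc r ⟨b, hb⟩).1 a).symm)))
    have cY : ∀ c (t : T), Commute (q ⟨y c, yT c⟩) (q t) := by
      intro c t
      obtain ⟨a', c', r, hr, e⟩ := hdec _ t.2
      obtain ⟨b, hb⟩ := hr
      have rT : r ∈ T := ⟨0, b, 0, hb.symm⟩
      have et : t = ⟨x a', xT a'⟩ * ⟨y c', yT c'⟩ * ⟨r, rT⟩ := Subtype.ext e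
      rw [et, map_mul, map_mul]
      exact (((cX a' ⟨y c, yT c⟩).symm.mul_right
        (qcomm _ _ (one' (hB _ (mB (hy c)) _ (mB (hy c')))))).mul_right
        (qcomm _ _ (one' ((hRc r ⟨b, hb⟩).2 c).symm)))
    intro s t
    obtain ⟨a, c, r, hr, e⟩ := hdec _ s.2
    obtain ⟨b, hb⟩ := hr
    have rT : r ∈ T := ⟨0, b, 0, hb.symm⟩
    have es : s = ⟨x a, xT a⟩ * ⟨y c, yT c⟩ * ⟨r, rT⟩ := Subtype.ext e
    obtain ⟨a', c', r', hr', e'⟩ := hdec _ t.2
    obtain ⟨b', hb'⟩ := hr'
    have rT' : r' ∈ T := ⟨0, b', 0, hb'.symm⟩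
    have et : t = ⟨x a', xT a'⟩ * ⟨y c', yT c'⟩ * ⟨r', rT'⟩ := Subtype.ext e'
    rw [es, map_mul, map_mul]
    refine ((cX a t).mul_left (cY c t)).mul_left ?_
    rw [et, map_mul, map_mul]
    exact ((cX a' _).symm.mul_right (cY c' _).symm).mul_right
      (qcomm _ _ (one' (hRR r r' ⟨b, hb⟩ ⟨b', hb'⟩)))
  letI : CommGroup (T ⧸ V) :=
    { (inferInstance : Group (T ⧸ V)) with
      mul_comm := fun s t => QuotientGroup.induction_on s fun s =>
        QuotientGroup.induction_on t fun t => hab s t }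
  haveI : T.FiniteIndex := ⟨by rw [hTidx]; norm_num⟩
  have hkerW : ∀ z ∈ π.ker, z ∈ W := by
    intro z hz
    have htriv : MonoidHom.transfer q z = 1 := by
      have : commutator D ≤ (MonoidHom.transfer q).ker := Abelianization.commutator_subset_ker _
      exact this (hD ▸ Subgroup.mem_top z)
    rw [MonoidHom.transfer_eq_pow q z (fun i g _ => by
      rw [mul_assoc, ← Subgroup.mem_center_iff.1 (Subgroup.pow_mem _ (hc hz) i) g,
        inv_mul_cancel_left])] at htriv
    have h := (QuotientGroup.eq_one_iff _).1 htriv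
    have h' : z ^ 315 ∈ W := by
      have h'' : z ^ T.index ∈ W := h
      rwa [hTidx] at h''
    rwa [show z ^ 315 = z by
      rw [show 315 = 2 * 157 + 1 by norm_num, pow_succ, pow_mul, pow_two, he z hz, one_pow,
        one_mul]] at h'
  let f : W →* PSL(3, F) := π.comp W.subtype
  have hker : Nat.card f.ker = Nat.card π.ker :=
    Nat.card_congr
      { toFun := fun v => ⟨v.1.1, v.2⟩
        invFun := fun z => ⟨⟨z.1, hkerW _ z.2⟩, z.2⟩
        left_inv := fun _ => rfl
        right_inv := fun _ => rfl }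
  have h4 : 4 ≤ Nat.card f.range := by
    have hinj : Function.Injective fun b : F => (⟨u 0 b 0, ⟨k 1 b, hkW 1 b⟩, by
        show π (k 1 b) = _; rw [hk, one_mul]⟩ : f.range) := fun b b' h =>
      (u_inj (congrArg Subtype.val h)).2.1
    have := Nat.card_le_card_of_injective _ hinj
    rwa [Nat.card_eq_fintype_card, hF] at this
  have htot : Nat.card f.ker * Nat.card f.range = Nat.card W := by
    rw [← Subgroup.index_ker, Subgroup.card_mul_index]
  rw [hker] at htot
  have hle : Nat.card π.ker * 4 ≤ 16 := (Nat.mul_le_mul_left _ h4).trans (htot ▸ hW16)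
  omega

end Ext

theorem surjective_restrict_commutator {P L : Type*} [Group P] [Group L] (g : P →* L)
    (hg : Function.Surjective g) (hL : commutator L = ⊤) :
    Function.Surjective (g.comp (commutator P).subtype) := by
  intro v
  have h : v ∈ (commutator P).map g := by
    rw [commutator_def, Subgroup.map_commutator, Subgroup.map_top_of_surjective g hg,
      ← commutator_def, hL]
    trivial
  obtain ⟨d, hd, rfl⟩ := h
  exact ⟨⟨d, hd⟩, rfl⟩

/-- A surjection of covers whose kernels have the same finite order is injective. -/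
theorem injective_of_cover {D L S : Type*} [Group D] [Finite D] [Group L] [Group S]
    (π : D →* S) (p : L →* S) (g : D →* L) (hg : Function.Surjective g)
    (hpg : ∀ d, p (g d) = π d) (hle : Nat.card π.ker ≤ Nat.card p.ker) :
    Function.Injective g := by
  rw [← MonoidHom.ker_eq_bot_iff, eq_bot_iff]
  intro d hd
  let r : π.ker → p.ker := fun z => ⟨g z.1, by rw [MonoidHom.mem_ker, hpg]; exact z.2⟩
  have hr : Function.Surjective r := fun v => by
    obtain ⟨d, hd⟩ := hg v.1
    exact ⟨⟨d, by rw [MonoidHom.mem_ker, ← hpg, hd]; exact v.2⟩, Subtype.ext hd⟩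
  have hbij : Function.Bijective r := (Nat.bijective_iff_surjective_and_card r).2
    ⟨hr, le_antisymm hle (Nat.card_le_card_of_surjective r hr)⟩
  have hdk : d ∈ π.ker := by rw [MonoidHom.mem_ker, ← hpg, hd, map_one]
  have : (⟨d, hdk⟩ : π.ker) = 1 := hbij.1 (Subtype.ext (hd.trans (map_one g).symm))
  exact congrArg Subtype.val this

/-- Two covers of `PSL₃(4)` with centre a four-group are isomorphic. -/
theorem iso_of_covers [Fintype F] (hF : Fintype.card F = 4) {L₁ L₂ : Type*} [Group L₁] [Finite L₁]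
    [Group L₂] [Finite L₂] (p₁ : L₁ →* PSL(3, F)) (p₂ : L₂ →* PSL(3, F))
    (hs₁ : Function.Surjective p₁) (hs₂ : Function.Surjective p₂)
    (hc₁ : p₁.ker ≤ Subgroup.center L₁) (hc₂ : p₂.ker ≤ Subgroup.center L₂)
    (he₁ : ∀ z ∈ p₁.ker, z * z = 1) (he₂ : ∀ z ∈ p₂.ker, z * z = 1)
    (hp₁ : commutator L₁ = ⊤) (hp₂ : commutator L₂ = ⊤)
    (hk₁ : Nat.card p₁.ker = 4) (hk₂ : Nat.card p₂.ker = 4) : Nonempty (L₁ ≃* L₂) := by
  let P : Subgroup (L₁ × L₂) :=
    MonoidHom.eqLocus (p₁.comp (MonoidHom.fst L₁ L₂)) (p₂.comp (MonoidHom.snd L₁ L₂))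
  let π' : P →* PSL(3, F) := (p₁.comp (MonoidHom.fst L₁ L₂)).comp P.subtype
  let D : Subgroup P := commutator P
  let π : D →* PSL(3, F) := π'.comp D.subtype
  let f₁ : D →* L₁ := ((MonoidHom.fst L₁ L₂).comp P.subtype).comp D.subtype
  let f₂ : D →* L₂ := ((MonoidHom.snd L₁ L₂).comp P.subtype).comp D.subtype
  have mem : ∀ x : P, p₁ x.1.1 = p₂ x.1.2 := fun x => x.2
  have hf₁P : Function.Surjective ((MonoidHom.fst L₁ L₂).comp P.subtype) := fun a => by
    obtain ⟨b, hb⟩ := hs₂ (p₁ a); exact ⟨⟨(a, b), hb.symm⟩, rfl⟩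
  have hf₂P : Function.Surjective ((MonoidHom.snd L₁ L₂).comp P.subtype) := fun b => by
    obtain ⟨a, ha⟩ := hs₁ (p₂ b); exact ⟨⟨(a, b), ha⟩, rfl⟩
  have hf₁ : Function.Surjective f₁ := surjective_restrict_commutator _ hf₁P hp₁
  have hf₂ : Function.Surjective f₂ := surjective_restrict_commutator _ hf₂P hp₂
  have hπ : Function.Surjective π := hs₁.comp hf₁
  have hcP : ∀ k : P, π' k = 1 → k ∈ Subgroup.center P := fun k hk => by
    rw [Subgroup.mem_center_iff]
    intro g
    exact Subtype.ext (Prod.ext (Subgroup.mem_center_iff.1 (hc₁ hk) g.1.1)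
      (Subgroup.mem_center_iff.1 (hc₂ (by rw [MonoidHom.mem_ker, ← mem k]; exact hk)) g.1.2))
  have heD : ∀ z ∈ π.ker, z * z = 1 := fun z hz =>
    Subtype.ext (Subtype.ext (Prod.ext (he₁ _ hz) (he₂ _ (by
      rw [MonoidHom.mem_ker, ← mem z.1]; exact hz))))
  have hcD : π.ker ≤ Subgroup.center D := fun z hz => by
    rw [Subgroup.mem_center_iff]
    exact fun g => Subtype.ext (Subgroup.mem_center_iff.1 (hcP z.1 hz) g.1)
  have hperf : commutator D = ⊤ := by
    apply Subgroup.map_injective D.subtype_injective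
    rw [Subgroup.map_subtype_commutator, ← MonoidHom.range_eq_map, Subgroup.range_subtype]
    refine le_antisymm ((Subgroup.commutator_mono le_top le_top).trans
      (by rw [← commutator_def])) ?_
    show commutator P ≤ ⁅D, D⁆
    rw [commutator_eq_closure, Subgroup.closure_le]
    rintro _ ⟨g, h, rfl⟩
    have dec : ∀ g : P, ∃ d ∈ D, ∃ k ∈ Subgroup.center P, g = d * k := fun g => by
      obtain ⟨d, hd⟩ := hπ (π' g)
      refine ⟨d.1, d.2, d.1⁻¹ * g, hcP _ ?_, by group⟩
      rw [map_mul, map_inv]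
      exact inv_mul_eq_one.2 hd
    obtain ⟨d, hd, k, hk, rfl⟩ := dec g
    obtain ⟨d', hd', k', hk', rfl⟩ := dec h
    have e1 : ∀ a : P, Commute k a := fun a => (Subgroup.mem_center_iff.1 hk a).symm
    have e2 : ∀ a : P, Commute k' a := fun a => (Subgroup.mem_center_iff.1 hk' a).symm
    have : ⁅d * k, d' * k'⁆ = ⁅d, d'⁆ := by
      rw [commutatorElement_def, commutatorElement_def, mul_inv_rev, mul_inv_rev]
      rw [show d * k * (d' * k') * (k⁻¹ * d⁻¹) * (k'⁻¹ * d'⁻¹) =
        d * (k * (d' * k')) * k⁻¹ * d⁻¹ * k'⁻¹ * d'⁻¹ by group, (e1 _).eq,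
        show d * (d' * k' * k) * k⁻¹ * d⁻¹ * k'⁻¹ * d'⁻¹ =
          d * d' * (k' * d⁻¹) * k'⁻¹ * d'⁻¹ by group, (e2 _).eq]
      group
    rw [this]
    exact Subgroup.commutator_mem_commutator hd hd'
  have hcard : Nat.card π.ker ≤ 4 := card_ker_le π hF hπ hperf hcD heD
  have i₁ := injective_of_cover π p₁ f₁ hf₁ (fun d => rfl) (hcard.trans hk₁.ge)
  have i₂ := injective_of_cover π p₂ f₂ hf₂ (fun d => (mem d.1).symm) (hcard.trans hk₂.ge)
  exact ⟨(MulEquiv.ofBijective f₁ ⟨i₁, hf₁⟩).symm.trans (MulEquiv.ofBijective f₂ ⟨i₂, hf₂⟩)⟩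

end Cfsg.Agent.H18.L34Cover
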