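import Cfsg.Agent.H18.LargeCriterion

/-! The local subgroup of the four-group spanned by two orthogonal singular involutions. -/

set_option autoImplicit false

namespace Cfsg.Agent.H18

open scoped commutatorElement

variable {G : Type*} [Group G] [Finite G]

/-- Conjugating the singular group by two elements with the same effect on `z` gives the same group. -/
theorem SingPt.conj_eq_of_eq {F : Subgroup G} {z : G} (h : SingPt F z) {a a' : G}
    (e : a * z * a⁻¹ = a' * z * a'⁻¹) {y : G} (hy : y ∈ F.map (MulAut.conj a).toMonoidHom) :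
    y ∈ F.map (MulAut.conj a').toMonoidHom := by
  obtain ⟨q, hq, rfl⟩ := hy
  have hc : (a'⁻¹ * a) * z = z * (a'⁻¹ * a) := by
    calc (a'⁻¹ * a) * z = a'⁻¹ * (a * z * a⁻¹) * a := by group
      _ = a'⁻¹ * (a' * z * a'⁻¹) * a := by rw [e]
      _ = z * (a'⁻¹ * a) := by group
  exact ⟨_, h.norm _ hc q hq, by simp [mul_assoc]⟩

/-- Two orthogonal singular involutions `z` and `b = g z g⁻¹`. -/
structure OrthPair (F : Subgroup G) (z g : G) : Prop where
  h : SingPt F z
  hgF : g * z * g⁻¹ ∈ F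
  hzF : z ∈ F.map (MulAut.conj g).toMonoidHom
  hne : g * z * g⁻¹ ≠ z

/-- The pair attached to a conjugate inside `F`, `|F| > 8`. -/
theorem SingPt.orthPair {F : Subgroup G} {z : G} (h : SingPt F z) (hbig : 8 < Nat.card F) {g : G}
    (hgF : g * z * g⁻¹ ∈ F) (hne : g * z * g⁻¹ ≠ z) : OrthPair F z g := by
  refine ⟨h, hgF, ?_, hne⟩
  refine h.symm_of_conj_big (h.conj g) hbig (g := g) rfl (fun a => ⟨fun ha => ⟨a, ha, rfl⟩, ?_⟩) hgF
  rintro ⟨c, hc, e⟩
  rwa [← (MulAut.conj g).injective e]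

namespace OrthPair

variable {F : Subgroup G} {z g : G} (o : OrthPair F z g)
include o

omit [Finite G] o in
/-- The second involution. -/
abbrev bb (z g : G) : G := g * z * g⁻¹

omit [Finite G] o in
/-- The second singular group. -/
abbrev F' (F : Subgroup G) (g : G) : Subgroup G := F.map (MulAut.conj g).toMonoidHom

omit [Finite G] o in
/-- `C_F(b)`. -/
abbrev P (F : Subgroup G) (z g : G) : Subgroup G := F ⊓ Subgroup.centralizer ({bb z g} : Set G)

omit [Finite G] o in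
/-- `C_{F'}(z)`. -/
abbrev P' (F : Subgroup G) (z g : G) : Subgroup G := F' F g ⊓ Subgroup.centralizer ({z} : Set G)

omit [Finite G] o in
/-- The radical. -/
abbrev R (F : Subgroup G) (z g : G) : Subgroup G := P' F z g ⊔ P F z g

omit [Finite G] o in
/-- The group generated by the two singular groups. -/
abbrev X (F : Subgroup G) (g : G) : Subgroup G := F ⊔ F' F g

omit [Finite G] o in
/-- The four-group. -/
abbrev four (z g : G) : Subgroup G := Subgroup.zpowers z ⊔ Subgroup.zpowers (bb z g)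

theorem h' : SingPt (F' F g) (bb z g) := o.h.conj g

theorem zb : z * bb z g = bb z g * z := (o.h.comm_x _ o.hgF).symm

theorem mem_four_iff {x : G} :
    x ∈ four z g ↔ x = 1 ∨ x = z ∨ x = bb z g ∨ x = z * bb z g :=
  mem_four o.h.xx o.h'.xx o.zb x

theorem z_mem_four : z ∈ four z g := Subgroup.mem_sup_left (Subgroup.mem_zpowers _)

theorem b_mem_four : bb z g ∈ four z g := Subgroup.mem_sup_right (Subgroup.mem_zpowers _)

theorem mem_CV_iff {x : G} :
    x ∈ Subgroup.centralizer (four z g : Set G) ↔ x * z = z * x ∧ x * bb z g = bb z g * x := by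
  constructor
  · exact fun hx => ⟨(hx z o.z_mem_four).symm, (hx _ o.b_mem_four).symm⟩
  · rintro ⟨h1, h2⟩ v hv
    rcases o.mem_four_iff.mp hv with rfl | rfl | rfl | rfl
    · simp
    · exact h1.symm
    · exact h2.symm
    · calc z * bb z g * x = z * (x * bb z g) := by rw [mul_assoc, h2]
        _ = x * (z * bb z g) := by rw [← mul_assoc, ← h1, mul_assoc]

theorem P_le : P F z g ≤ Subgroup.centralizer (four z g : Set G) := fun _ hp =>
  o.mem_CV_iff.mpr ⟨o.h.comm_x _ hp.1, Subgroup.mem_centralizer_singleton_iff.mp hp.2⟩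

theorem P'_le : P' F z g ≤ Subgroup.centralizer (four z g : Set G) := fun _ hp =>
  o.mem_CV_iff.mpr ⟨Subgroup.mem_centralizer_singleton_iff.mp hp.2, o.h'.comm_x _ hp.1⟩

theorem R_le_CV : R F z g ≤ Subgroup.centralizer (four z g : Set G) := sup_le o.P'_le o.P_le

theorem R_le_X : R F z g ≤ X F g :=
  sup_le (inf_le_left.trans le_sup_right) (inf_le_left.trans le_sup_left)

theorem CV_norm_F {c : G} (hc : c ∈ Subgroup.centralizer (four z g : Set G)) {q : G} (hq : q ∈ F) :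
    c * q * c⁻¹ ∈ F := o.h.norm c (o.mem_CV_iff.mp hc).1 q hq

theorem CV_norm_F' {c : G} (hc : c ∈ Subgroup.centralizer (four z g : Set G)) {q : G}
    (hq : q ∈ F' F g) : c * q * c⁻¹ ∈ F' F g := o.h'.norm c (o.mem_CV_iff.mp hc).2 q hq

omit [Finite G] o in
theorem le_normalizer_of_conj {A B : Subgroup G} (h : ∀ a ∈ A, ∀ x ∈ B, a * x * a⁻¹ ∈ B) :
    A ≤ Subgroup.normalizer (B : Set G) := fun a ha =>
  Subgroup.mem_normalizer_iff.mpr fun x => ⟨h a ha x, fun hx => by
    simpa [mul_assoc] using h a⁻¹ (A.inv_mem ha) _ hx⟩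

theorem CV_le_norm : Subgroup.centralizer (four z g : Set G) ≤ Subgroup.normalizer (X F g : Set G) := by
  refine le_normalizer_of_conj fun a ha x hx => ?_
  have hle : X F g ≤ (X F g).comap (MulAut.conj a).toMonoidHom :=
    sup_le (fun q hq => Subgroup.mem_sup_left (o.CV_norm_F ha hq))
      (fun q hq => Subgroup.mem_sup_right (o.CV_norm_F' ha hq))
  exact hle hx

theorem conj_four {x : G} (hx : x ∈ X F g) : x * z * x⁻¹ ∈ four z g ∧ x * bb z g * x⁻¹ ∈ four z g := by
  have hle : X F g ≤ Subgroup.normalizer (four z g : Set G) := by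
    refine sup_le ?_ ?_ <;> refine le_normalizer_of_conj fun q hq v hv => ?_
    · have e1 : q * z * q⁻¹ = z := by rw [o.h.comm_x q hq, mul_inv_cancel_right]
      have e2 : q * bb z g * q⁻¹ ∈ four z g := by
        have := o.h.comm hq o.hgF
        have h2 : q * bb z g * q⁻¹ = (q * bb z g * q⁻¹ * (bb z g)⁻¹) * bb z g := by group
        rw [h2]
        exact mul_mem (Subgroup.mem_sup_left this) o.b_mem_four
      rcases o.mem_four_iff.mp hv with rfl | rfl | rfl | rfl
      · simp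
      · rw [e1]; exact o.z_mem_four
      · exact e2
      · have : q * (z * bb z g) * q⁻¹ = (q * z * q⁻¹) * (q * bb z g * q⁻¹) := by group
        rw [this, e1]; exact mul_mem o.z_mem_four e2
    · have e1 : q * bb z g * q⁻¹ = bb z g := by rw [o.h'.comm_x q hq, mul_inv_cancel_right]
      have e2 : q * z * q⁻¹ ∈ four z g := by
        have := o.h'.comm hq o.hzF
        have h2 : q * z * q⁻¹ = (q * z * q⁻¹ * z⁻¹) * z := by group
        rw [h2]
        exact mul_mem (Subgroup.mem_sup_right this) o.z_mem_four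
      rcases o.mem_four_iff.mp hv with rfl | rfl | rfl | rfl
      · simp
      · exact e2
      · rw [e1]; exact o.b_mem_four
      · have : q * (z * bb z g) * q⁻¹ = (q * z * q⁻¹) * (q * bb z g * q⁻¹) := by group
        rw [this, e1]; exact mul_mem e2 o.b_mem_four
  exact ⟨(Subgroup.mem_normalizer_iff.mp (hle hx) z).mp o.z_mem_four,
    (Subgroup.mem_normalizer_iff.mp (hle hx) _).mp o.b_mem_four⟩

theorem X_le_normalizer : X F g ≤ Subgroup.normalizer (four z g : Set G) :=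
  le_normalizer_of_conj fun x hx v hv => by
    obtain ⟨h1, h2⟩ := o.conj_four hx
    rcases o.mem_four_iff.mp hv with rfl | rfl | rfl | rfl
    · simp
    · exact h1
    · exact h2
    · have : x * (z * bb z g) * x⁻¹ = (x * z * x⁻¹) * (x * bb z g * x⁻¹) := by group
      rw [this]; exact mul_mem h1 h2

theorem conj_CV {n c : G} (hn : n ∈ Subgroup.normalizer (four z g : Set G))
    (hc : c ∈ Subgroup.centralizer (four z g : Set G)) :
    n * c * n⁻¹ ∈ Subgroup.centralizer (four z g : Set G) := by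
  intro v hv
  have h1 := hc (n⁻¹ * v * n) ((Subgroup.mem_normalizer_iff''.mp hn v).mp hv)
  calc v * (n * c * n⁻¹) = n * ((n⁻¹ * v * n) * c) * n⁻¹ := by group
    _ = n * (c * (n⁻¹ * v * n)) * n⁻¹ := by rw [h1]
    _ = n * c * n⁻¹ * v := by group

/-- Commutators of `X` with the centralizer of the four-group lie in the radical, on generators. -/
theorem comm_gen {x c : G} (hx : x ∈ F ∨ x ∈ F' F g)
    (hc : c ∈ Subgroup.centralizer (four z g : Set G)) : x * c * x⁻¹ * c⁻¹ ∈ R F z g := by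
  have hxX : x ∈ X F g := hx.elim (fun h => Subgroup.mem_sup_left h) (fun h => Subgroup.mem_sup_right h)
  have hcv : x * c * x⁻¹ * c⁻¹ ∈ Subgroup.centralizer (four z g : Set G) :=
    mul_mem (o.conj_CV (o.X_le_normalizer hxX) hc) (inv_mem hc)
  rcases hx with hx | hx
  · refine Subgroup.mem_sup_right ⟨?_, Subgroup.mem_centralizer_singleton_iff.mpr (o.mem_CV_iff.mp hcv).2⟩
    have : x * c * x⁻¹ * c⁻¹ = x * (c * x⁻¹ * c⁻¹) := by group
    rw [this]; exact F.mul_mem hx (o.CV_norm_F hc (F.inv_mem hx))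
  · refine Subgroup.mem_sup_left ⟨?_, Subgroup.mem_centralizer_singleton_iff.mpr (o.mem_CV_iff.mp hcv).1⟩
    have : x * c * x⁻¹ * c⁻¹ = x * (c * x⁻¹ * c⁻¹) := by group
    rw [this]; exact (F' F g).mul_mem hx (o.CV_norm_F' hc ((F' F g).inv_mem hx))

theorem conj_R_gen {x r : G} (hx : x ∈ F ∨ x ∈ F' F g) (hr : r ∈ R F z g) : x * r * x⁻¹ ∈ R F z g := by
  have : x * r * x⁻¹ = x * r * x⁻¹ * r⁻¹ * r := by group
  rw [this]; exact mul_mem (o.comm_gen hx (o.R_le_CV hr)) hr

theorem X_le_normR : X F g ≤ Subgroup.normalizer (R F z g : Set G) :=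
  sup_le (le_normalizer_of_conj fun a ha _ hr => o.conj_R_gen (Or.inl ha) hr)
    (le_normalizer_of_conj fun a ha _ hr => o.conj_R_gen (Or.inr ha) hr)

theorem conj_R {x r : G} (hx : x ∈ X F g) (hr : r ∈ R F z g) : x * r * x⁻¹ ∈ R F z g :=
  (Subgroup.mem_normalizer_iff.mp (o.X_le_normR hx) r).mp hr

theorem comm_X_CV {x c : G} (hx : x ∈ X F g) (hc : c ∈ Subgroup.centralizer (four z g : Set G)) :
    x * c * x⁻¹ * c⁻¹ ∈ R F z g := by
  set S : Set G := {x | x ∈ X F g ∧ ∀ c ∈ Subgroup.centralizer (four z g : Set G),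
    x * c * x⁻¹ * c⁻¹ ∈ R F z g}
  have hcl : ∀ a ∈ S, ∀ a' ∈ S, a * a' ∈ S := fun a ha a' ha' => ⟨mul_mem ha.1 ha'.1, fun c hc => by
    have : a * a' * c * (a * a')⁻¹ * c⁻¹ =
        (a * (a' * c * a'⁻¹ * c⁻¹) * a⁻¹) * (a * c * a⁻¹ * c⁻¹) := by group
    rw [this]; exact mul_mem (o.conj_R ha.1 (ha'.2 c hc)) (ha.2 c hc)⟩
  have hle : X F g ≤ subgroupOfMulClosed S ⟨one_mem _, fun c _ => by simp⟩ hcl :=
    sup_le (fun q hq => ⟨Subgroup.mem_sup_left hq, fun c hc => o.comm_gen (Or.inl hq) hc⟩)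
      (fun q hq => ⟨Subgroup.mem_sup_right hq, fun c hc => o.comm_gen (Or.inr hq) hc⟩)
  exact (hle hx).2 c hc

theorem P'_le_normP : P' F z g ≤ Subgroup.normalizer (P F z g : Set G) :=
  le_normalizer_of_conj fun a ha x hx => by
    refine ⟨o.CV_norm_F (o.P'_le ha) hx.1, Subgroup.mem_centralizer_singleton_iff.mpr ?_⟩
    exact (o.mem_CV_iff.mp (mul_mem (mul_mem (o.P'_le ha) (o.P_le hx)) (inv_mem (o.P'_le ha)))).2

theorem P_le_normP' : P F z g ≤ Subgroup.normalizer (P' F z g : Set G) :=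
  le_normalizer_of_conj fun a ha x hx => by
    refine ⟨o.CV_norm_F' (o.P_le ha) hx.1, Subgroup.mem_centralizer_singleton_iff.mpr ?_⟩
    exact (o.mem_CV_iff.mp (mul_mem (mul_mem (o.P_le ha) (o.P'_le hx)) (inv_mem (o.P_le ha)))).1

theorem R_isPGroup : IsPGroup 2 (R F z g) := by
  haveI : Fact (Nat.Prime 2) := ⟨Nat.prime_two⟩
  exact (o.h'.isPGroup_two.to_le inf_le_left).to_sup_of_normal_right'
    (o.h.isPGroup_two.to_le inf_le_left) o.P'_le_normP

/-- A transvection in `F`. -/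
theorem exists_u : ∃ u ∈ F, u * z * u⁻¹ = z ∧ u * bb z g * u⁻¹ = z * bb z g := by
  obtain ⟨u, hu, e⟩ := o.h.exists_translate o.hgF o.h'.xne o.hne
  exact ⟨u, hu, by rw [o.h.comm_x u hu, mul_inv_cancel_right], e⟩

/-- A transvection in `F'`. -/
theorem exists_v : ∃ v ∈ F' F g, v * bb z g * v⁻¹ = bb z g ∧ v * z * v⁻¹ = z * bb z g := by
  obtain ⟨v, hv, e⟩ := o.h'.exists_translate o.hzF o.h.xne (Ne.symm o.hne)
  exact ⟨v, hv, by rw [o.h'.comm_x v hv, mul_inv_cancel_right], e.trans o.zb.symm⟩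

theorem mem_P_or {u q : G} (hu : u ∈ F) (hub : u * bb z g * u⁻¹ = z * bb z g) (hq : q ∈ F) :
    q ∈ P F z g ∨ u⁻¹ * q ∈ P F z g := by
  have hv := o.h.pair (o.h.comm hq o.hgF)
  rcases hv with e | e
  · left
    rw [mul_inv_eq_one, mul_inv_eq_iff_eq_mul] at e
    exact ⟨hq, Subgroup.mem_centralizer_singleton_iff.mpr e⟩
  · right
    have h1 : q * bb z g * q⁻¹ = z * bb z g := mul_inv_eq_iff_eq_mul.mp e
    refine ⟨F.mul_mem (F.inv_mem hu) hq, Subgroup.mem_centralizer_singleton_iff.mpr ?_⟩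
    calc u⁻¹ * q * bb z g = u⁻¹ * (q * bb z g * q⁻¹) * q := by group
      _ = u⁻¹ * (u * bb z g * u⁻¹) * q := by rw [h1, hub]
      _ = bb z g * (u⁻¹ * q) := by simp only [bb]; group

theorem mem_P'_or {v q : G} (hv : v ∈ F' F g) (hvz : v * z * v⁻¹ = z * bb z g) (hq : q ∈ F' F g) :
    q ∈ P' F z g ∨ v⁻¹ * q ∈ P' F z g := by
  rcases o.h'.pair (o.h'.comm hq o.hzF) with e | e
  · left
    rw [mul_inv_eq_one, mul_inv_eq_iff_eq_mul] at e
    exact ⟨hq, Subgroup.mem_centralizer_singleton_iff.mpr e⟩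
  · right
    have h1 : q * z * q⁻¹ = z * bb z g := (mul_inv_eq_iff_eq_mul.mp e).trans o.zb.symm
    refine ⟨(F' F g).mul_mem ((F' F g).inv_mem hv) hq, Subgroup.mem_centralizer_singleton_iff.mpr ?_⟩
    calc v⁻¹ * q * z = v⁻¹ * (q * z * q⁻¹) * q := by group
      _ = v⁻¹ * (v * z * v⁻¹) * q := by rw [h1, hvz]
      _ = z * (v⁻¹ * q) := by group

theorem braid {u v : G} (hu : u ∈ F) (huz : u * z * u⁻¹ = z) (hub : u * bb z g * u⁻¹ = z * bb z g)
    (hv : v ∈ F' F g) (hvb : v * bb z g * v⁻¹ = bb z g) (hvz : v * z * v⁻¹ = z * bb z g) :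
    (v * u * v⁻¹)⁻¹ * (u * v * u⁻¹) ∈ R F z g := by
  set F2 := F.map (MulAut.conj (u * g)).toMonoidHom with hF2
  have hs : SingPt F2 (z * bb z g) := by
    have := o.h.conj (u * g)
    rwa [show u * g * z * (u * g)⁻¹ = z * bb z g by rw [← hub]; group] at this
  have hzF2 : z ∈ F2 := by
    obtain ⟨q, hq, e⟩ := o.hzF
    refine ⟨q, hq, ?_⟩
    have e' : g * q * g⁻¹ = z := e
    show u * g * q * (u * g)⁻¹ = z
    calc u * g * q * (u * g)⁻¹ = u * (g * q * g⁻¹) * u⁻¹ := by group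
      _ = z := by rw [e', huz]
  have h1 : u * v * u⁻¹ ∈ F2 := by
    obtain ⟨q, hq, e⟩ := hv
    refine ⟨q, hq, ?_⟩
    have e' : g * q * g⁻¹ = v := e
    show u * g * q * (u * g)⁻¹ = _
    calc u * g * q * (u * g)⁻¹ = u * (g * q * g⁻¹) * u⁻¹ := by group
      _ = _ := by rw [e']
  have h2 : v * u * v⁻¹ ∈ F2 := o.h.conj_eq_of_eq (a := v) (a' := u * g)
    (by rw [hvz, ← hub]; group) ⟨u, hu, rfl⟩
  have hvv : v⁻¹ * bb z g * v = bb z g := by
    calc v⁻¹ * bb z g * v = v⁻¹ * (v * bb z g * v⁻¹) * v := by rw [hvb]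
      _ = bb z g := by simp only [bb]; group
  have huu : u⁻¹ * z * u = z := by
    calc u⁻¹ * z * u = u⁻¹ * (u * z * u⁻¹) * u := by rw [huz]
      _ = z := by group
  have hzz : z * (z * bb z g) = bb z g := by rw [← mul_assoc, o.h.xx, one_mul]
  have hvzb : v * (z * bb z g) * v⁻¹ = z := by
    calc v * (z * bb z g) * v⁻¹ = (v * z * v⁻¹) * (v * bb z g * v⁻¹) := by group
      _ = z := by rw [hvz, hvb, mul_assoc, o.h'.xx, mul_one]
  have huzb : u * (z * bb z g) * u⁻¹ = bb z g := by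
    calc u * (z * bb z g) * u⁻¹ = (u * z * u⁻¹) * (u * bb z g * u⁻¹) := by group
      _ = bb z g := by rw [huz, hub, hzz]
  have a1 : (u * v * u⁻¹) * z * (u * v * u⁻¹)⁻¹ = bb z g := by
    calc (u * v * u⁻¹) * z * (u * v * u⁻¹)⁻¹ = u * (v * (u⁻¹ * z * u) * v⁻¹) * u⁻¹ := by group
      _ = bb z g := by rw [huu, hvz, huzb]
  have a2 : (v * u * v⁻¹) * z * (v * u * v⁻¹)⁻¹ = bb z g := by
    have hvi : v⁻¹ * z * v = z * bb z g := by
      calc v⁻¹ * z * v = v⁻¹ * (v * (z * bb z g) * v⁻¹) * v := by rw [hvzb]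
        _ = z * bb z g := by group
    calc (v * u * v⁻¹) * z * (v * u * v⁻¹)⁻¹ = v * (u * (v⁻¹ * z * v) * u⁻¹) * v⁻¹ := by group
      _ = bb z g := by rw [hvi, huzb, hvb]
  set w := (v * u * v⁻¹)⁻¹ * (u * v * u⁻¹) with hw
  have hwF2 : w ∈ F2 := F2.mul_mem (F2.inv_mem h2) h1
  have hwz : w * z = z * w := by
    apply mul_inv_eq_iff_eq_mul.mp
    calc w * z * w⁻¹ = (v * u * v⁻¹)⁻¹ * ((u * v * u⁻¹) * z * (u * v * u⁻¹)⁻¹) * (v * u * v⁻¹) := by
          rw [hw]; group
      _ = (v * u * v⁻¹)⁻¹ * ((v * u * v⁻¹) * z * (v * u * v⁻¹)⁻¹) * (v * u * v⁻¹) := by rw [a1, a2]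
      _ = z := by group
  have hwu : u⁻¹ * w * u ∈ P' F z g := by
    obtain ⟨q, hq, e⟩ := hwF2
    refine ⟨⟨q, hq, ?_⟩, Subgroup.mem_centralizer_singleton_iff.mpr ?_⟩
    · have e' : u * g * q * (u * g)⁻¹ = w := e
      show g * q * g⁻¹ = u⁻¹ * w * u
      rw [← e']; group
    · calc u⁻¹ * w * u * z = u⁻¹ * w * (u * z * u⁻¹) * u := by group
        _ = u⁻¹ * (w * z) * u := by rw [huz]; group
        _ = u⁻¹ * (z * w) * u := by rw [hwz]
        _ = (u⁻¹ * z * u) * (u⁻¹ * w * u) := by group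
        _ = z * (u⁻¹ * w * u) := by rw [huu]
  have h3 : u * (u⁻¹ * w * u) * u⁻¹ ∈ R F z g :=
    o.conj_R (Subgroup.mem_sup_left hu) (Subgroup.mem_sup_left hwu)
  simpa [mul_assoc] using h3

omit [Finite G] o in
/-- Labels of the three involutions of the four-group. -/
def lab (z g : G) : Fin 3 → G := ![z, bb z g, z * bb z g]

theorem lab_injective : Function.Injective (lab z g) := by
  have h1 : z * bb z g ≠ z := fun e => o.h'.xne (mul_eq_left.mp e)
  have h2 : z * bb z g ≠ bb z g := fun e => o.h.xne (mul_eq_right.mp e)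
  intro i j e
  fin_cases i <;> fin_cases j <;>
    simp [lab, o.hne, Ne.symm o.hne, h1, h1.symm, h2, h2.symm] at e ⊢

theorem exists_lab {x : G} (hx : x ∈ four z g) (h1 : x ≠ 1) : ∃ i, lab z g i = x := by
  rcases (o.mem_four_iff.mp hx).resolve_left h1 with rfl | rfl | rfl
  exacts [⟨0, rfl⟩, ⟨1, rfl⟩, ⟨2, rfl⟩]

theorem lab_mem (i : Fin 3) : lab z g i ∈ four z g ∧ lab z g i ≠ 1 := by
  fin_cases i
  · exact ⟨o.z_mem_four, o.h.xne⟩
  · exact ⟨o.b_mem_four, o.h'.xne⟩
  · refine ⟨mul_mem o.z_mem_four o.b_mem_four, fun e => o.hne ?_⟩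
    have e' : z * bb z g = 1 := e
    calc bb z g = z * (z * bb z g) := by rw [← mul_assoc, o.h.xx, one_mul]
      _ = z := by rw [e', mul_one]

theorem exists_move {n : G} (hn : n ∈ Subgroup.normalizer (four z g : Set G)) (i : Fin 3) :
    ∃ j, lab z g j = n * lab z g i * n⁻¹ :=
  o.exists_lab ((Subgroup.mem_normalizer_iff.mp hn _).mp (o.lab_mem i).1)
    fun e => (o.lab_mem i).2 (conj_eq_one_iff.mp e)

/-- The permutation of the three involutions. -/
noncomputable def perm : Subgroup.normalizer (four z g : Set G) →* Equiv.Perm (Fin 3) :=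
  have hm : ∀ (n : Subgroup.normalizer (four z g : Set G)) (i : Fin 3),
      ∃ j, lab z g j = (n : G) * lab z g i * (n : G)⁻¹ := fun n => o.exists_move n.2
  MonoidHom.toHomPerm
    { toFun := fun n i => (hm n i).choose
      map_one' := by
        funext i
        apply o.lab_injective
        refine ((hm 1 i).choose_spec).trans ?_
        show (1 : G) * lab z g i * (1 : G)⁻¹ = lab z g i
        simp
      map_mul' := fun a b => by
        funext i
        apply o.lab_injective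
        refine ((hm (a * b) i).choose_spec).trans ?_
        refine Eq.trans ?_ ((hm a (hm b i).choose).choose_spec).symm
        rw [(hm b i).choose_spec]
        show (a : G) * b * lab z g i * ((a : G) * b)⁻¹ = _
        group }
where
  /-- A monoid map into self maps gives one into permutations. -/
  MonoidHom.toHomPerm {α : Type} {M : Type _} [Group M] (f : M →* Function.End α) :
      M →* Equiv.Perm α :=
    f.toHomUnits.comp (MonoidHom.id M) |> (Equiv.Perm.equivUnitsEnd (α := α)).symm.toMonoidHom.comp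

theorem lab_perm (n : Subgroup.normalizer (four z g : Set G)) (i : Fin 3) :
    lab z g (o.perm n i) = (n : G) * lab z g i * (n : G)⁻¹ :=
  (o.exists_move n.2 i).choose_spec

theorem perm_eq_one_iff (n : Subgroup.normalizer (four z g : Set G)) :
    o.perm n = 1 ↔ (n : G) ∈ Subgroup.centralizer (four z g : Set G) := by
  rw [o.mem_CV_iff]
  constructor
  · intro e
    have h0 := o.lab_perm n 0
    have h1 := o.lab_perm n 1
    rw [e, Equiv.Perm.one_apply] at h0 h1
    exact ⟨mul_inv_eq_iff_eq_mul.mp h0.symm, mul_inv_eq_iff_eq_mul.mp h1.symm⟩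
  · rintro ⟨h1, h2⟩
    apply Equiv.ext
    intro i
    apply o.lab_injective
    rw [o.lab_perm, Equiv.Perm.one_apply]
    have h3 := o.mem_CV_iff.mpr ⟨h1, h2⟩
    rw [← h3 _ (o.lab_mem i).1, mul_inv_cancel_right]

theorem exists_perm_eq : ∀ σ : Equiv.Perm (Fin 3),
    ∃ x : Subgroup.normalizer (four z g : Set G), (x : G) ∈ X F g ∧ o.perm x = σ := by
  obtain ⟨u, hu, huz, hub⟩ := o.exists_u
  obtain ⟨v, hv, hvb, hvz⟩ := o.exists_v
  have huX : u ∈ X F g := Subgroup.mem_sup_left hu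
  have hvX : v ∈ X F g := Subgroup.mem_sup_right hv
  set U : Subgroup.normalizer (four z g : Set G) := ⟨u, o.X_le_normalizer huX⟩
  set W : Subgroup.normalizer (four z g : Set G) := ⟨v, o.X_le_normalizer hvX⟩
  have hU : o.perm U = Equiv.swap 1 2 := by
    apply Equiv.ext
    intro i
    apply o.lab_injective
    rw [o.lab_perm]
    fin_cases i
    · exact huz
    · exact hub
    · show u * (z * bb z g) * u⁻¹ = bb z g
      calc u * (z * bb z g) * u⁻¹ = (u * z * u⁻¹) * (u * bb z g * u⁻¹) := by group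
        _ = bb z g := by rw [huz, hub, ← mul_assoc, o.h.xx, one_mul]
  have hW : o.perm W = Equiv.swap 0 2 := by
    apply Equiv.ext
    intro i
    apply o.lab_injective
    rw [o.lab_perm]
    fin_cases i
    · exact hvz
    · exact hvb
    · show v * (z * bb z g) * v⁻¹ = z
      calc v * (z * bb z g) * v⁻¹ = (v * z * v⁻¹) * (v * bb z g * v⁻¹) := by group
        _ = z := by rw [hvz, hvb, mul_assoc, o.h'.xx, mul_one]
  have hall : ∀ σ : Equiv.Perm (Fin 3), σ = 1 ∨ σ = Equiv.swap 1 2 ∨ σ = Equiv.swap 0 2 ∨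
      σ = Equiv.swap 1 2 * Equiv.swap 0 2 ∨ σ = Equiv.swap 0 2 * Equiv.swap 1 2 ∨
      σ = Equiv.swap 1 2 * Equiv.swap 0 2 * Equiv.swap 1 2 := by decide
  intro σ
  rcases hall σ with rfl | rfl | rfl | rfl | rfl | rfl
  · exact ⟨1, one_mem _, map_one _⟩
  · exact ⟨U, huX, hU⟩
  · exact ⟨W, hvX, hW⟩
  · exact ⟨U * W, mul_mem huX hvX, by rw [map_mul, hU, hW]⟩
  · exact ⟨W * U, mul_mem hvX huX, by rw [map_mul, hU, hW]⟩
  · exact ⟨U * W * U, mul_mem (mul_mem huX hvX) huX, by rw [map_mul, map_mul, hU, hW]⟩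

theorem X_inf_CV : X F g ⊓ Subgroup.centralizer (four z g : Set G) = R F z g := by
  refine le_antisymm ?_ (le_inf o.R_le_X o.R_le_CV)
  obtain ⟨u, hu, huz, hub⟩ := o.exists_u
  obtain ⟨v, hv, hvb, hvz⟩ := o.exists_v
  have huX : u ∈ X F g := Subgroup.mem_sup_left hu
  have hvX : v ∈ X F g := Subgroup.mem_sup_right hv
  have hbr := o.braid hu huz hub hv hvb hvz
  have huu : u * u ∈ R F z g := by
    refine Subgroup.mem_sup_right ?_
    rcases o.h.pair (o.h.sq hu) with e | e <;> rw [e]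
    · exact one_mem _
    · exact ⟨o.h.mem, Subgroup.mem_centralizer_singleton_iff.mpr o.zb⟩
  have hvv : v * v ∈ R F z g := by
    refine Subgroup.mem_sup_left ?_
    rcases o.h'.pair (o.h'.sq hv) with e | e <;> rw [e]
    · exact one_mem _
    · exact ⟨o.h'.mem, Subgroup.mem_centralizer_singleton_iff.mpr o.zb.symm⟩
  -- membership in one of the six cosets
  set S : Set G := {x | x ∈ X F g ∧ (x ∈ R F z g ∨ u⁻¹ * x ∈ R F z g ∨ v⁻¹ * x ∈ R F z g ∨
    (u * v)⁻¹ * x ∈ R F z g ∨ (v * u)⁻¹ * x ∈ R F z g ∨ (u * v * u)⁻¹ * x ∈ R F z g)}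
  have hcoset : ∀ {a x : G}, a ∈ X F g → a⁻¹ * x ∈ R F z g → ∀ r ∈ R F z g, a⁻¹ * (r * x) ∈ R F z g := by
    intro a x ha hx r hr
    have : a⁻¹ * (r * x) = (a⁻¹ * r * a⁻¹⁻¹) * (a⁻¹ * x) := by group
    rw [this]; exact mul_mem (o.conj_R (inv_mem ha) hr) hx
  have hSR : ∀ r ∈ R F z g, ∀ x ∈ S, r * x ∈ S := by
    rintro r hr x ⟨hxX, hx⟩
    refine ⟨mul_mem (o.R_le_X hr) hxX, ?_⟩
    rcases hx with h | h | h | h | h | h
    · exact Or.inl (mul_mem hr h)
    · exact Or.inr (Or.inl (hcoset huX h r hr))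
    · exact Or.inr (Or.inr (Or.inl (hcoset hvX h r hr)))
    · exact Or.inr (Or.inr (Or.inr (Or.inl (hcoset (mul_mem huX hvX) h r hr))))
    · exact Or.inr (Or.inr (Or.inr (Or.inr (Or.inl (hcoset (mul_mem hvX huX) h r hr)))))
    · exact Or.inr (Or.inr (Or.inr (Or.inr (Or.inr (hcoset (mul_mem (mul_mem huX hvX) huX) h r hr)))))
  have huuinv : ∀ {w : G}, w ∈ X F g → w⁻¹ * (u * u) * w ∈ R F z g := fun {w} hw => by
    simpa using o.conj_R (inv_mem hw) huu
  have hvvinv : ∀ {w : G}, w ∈ X F g → w⁻¹ * (v * v) * w ∈ R F z g := fun {w} hw => by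
    simpa using o.conj_R (inv_mem hw) hvv
  have hbr1 : (u * v * u)⁻¹ * (v * u * v) ∈ R F z g := by
    have e : (u * v * u)⁻¹ * (v * u * v) =
        (u * u)⁻¹ * ((v * u * v⁻¹)⁻¹ * (u * v * u⁻¹))⁻¹ * (v * v) := by
      group
    rw [e]; exact mul_mem (mul_mem (inv_mem huu) (inv_mem hbr)) hvv
  have hSu : ∀ x ∈ S, u * x ∈ S := by
    rintro x ⟨hxX, hx⟩
    refine ⟨mul_mem huX hxX, ?_⟩
    rcases hx with h | h | h | h | h | h
    · exact Or.inr (Or.inl (by simpa using h))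
    · left
      have : u * x = (u * u) * (u⁻¹ * x) := by group
      rw [this]; exact mul_mem huu h
    · exact Or.inr (Or.inr (Or.inr (Or.inl (by simpa [mul_assoc] using h))))
    · right; right; left
      have : v⁻¹ * (u * x) = (v⁻¹ * (u * u) * v) * ((u * v)⁻¹ * x) := by group
      rw [this]; exact mul_mem (huuinv hvX) h
    · exact Or.inr (Or.inr (Or.inr (Or.inr (Or.inr (by simpa [mul_assoc] using h)))))
    · right; right; right; right; left
      have : (v * u)⁻¹ * (u * x) = ((v * u)⁻¹ * (u * u) * (v * u)) * ((u * v * u)⁻¹ * x) := by group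
      rw [this]; exact mul_mem (huuinv (mul_mem hvX huX)) h
  have hSv : ∀ x ∈ S, v * x ∈ S := by
    rintro x ⟨hxX, hx⟩
    refine ⟨mul_mem hvX hxX, ?_⟩
    rcases hx with h | h | h | h | h | h
    · exact Or.inr (Or.inr (Or.inl (by simpa using h)))
    · exact Or.inr (Or.inr (Or.inr (Or.inr (Or.inl (by simpa [mul_assoc] using h)))))
    · left
      have : v * x = (v * v) * (v⁻¹ * x) := by group
      rw [this]; exact mul_mem hvv h
    · right; right; right; right; right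
      have : (u * v * u)⁻¹ * (v * x) = ((u * v * u)⁻¹ * (v * u * v)) * ((u * v)⁻¹ * x) := by group
      rw [this]; exact mul_mem hbr1 h
    · right; left
      have : u⁻¹ * (v * x) = (u⁻¹ * (v * v) * u) * ((v * u)⁻¹ * x) := by group
      rw [this]; exact mul_mem (hvvinv huX) h
    · right; right; right; left
      have hvuv : (v * u * v)⁻¹ * x ∈ R F z g := by
        have : (v * u * v)⁻¹ * x = ((u * v * u)⁻¹ * (v * u * v))⁻¹ * ((u * v * u)⁻¹ * x) := by group
        rw [this]; exact mul_mem (inv_mem hbr1) h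
      have : (u * v)⁻¹ * (v * x) = ((u * v)⁻¹ * (v * v) * (u * v)) * ((v * u * v)⁻¹ * x) := by group
      rw [this]; exact mul_mem (hvvinv (mul_mem huX hvX)) hvuv
  set M : Set G := {a | ∀ x ∈ S, a * x ∈ S}
  have hM : X F g ≤ subgroupOfMulClosed M (fun x hx => by rwa [one_mul])
      (fun a ha b hb x hx => by rw [mul_assoc]; exact ha _ (hb x hx)) := by
    refine sup_le (fun q hq => ?_) (fun q hq => ?_)
    · intro x hx
      rcases o.mem_P_or hu hub hq with h | h
      · exact hSR q (Subgroup.mem_sup_right h) x hx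
      · have := hSu _ (hSR _ (Subgroup.mem_sup_right h) x hx)
        simpa [← mul_assoc] using this
    · intro x hx
      rcases o.mem_P'_or hv hvz hq with h | h
      · exact hSR q (Subgroup.mem_sup_left h) x hx
      · have := hSv _ (hSR _ (Subgroup.mem_sup_left h) x hx)
        simpa [← mul_assoc] using this
  rintro x ⟨hxX, hxC⟩
  have hxS : x ∈ S := by
    have := hM hxX 1 ⟨one_mem _, Or.inl (one_mem _)⟩
    rwa [mul_one] at this
  obtain ⟨h1, h2⟩ := o.mem_CV_iff.mp hxC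
  have hfix : ∀ a, a⁻¹ * x ∈ R F z g → a * z = z * a ∧ a * bb z g = bb z g * a := by
    intro a ha
    have : a = x * (a⁻¹ * x)⁻¹ := by group
    rw [this]
    exact o.mem_CV_iff.mp (mul_mem hxC (inv_mem (o.R_le_CV ha)))
  have hzne : z * bb z g ≠ z := fun e => o.h'.xne (mul_eq_left.mp e)
  have hbne : z * bb z g ≠ bb z g := fun e => o.h.xne (mul_eq_right.mp e)
  have hzz : z * (z * bb z g) = bb z g := by rw [← mul_assoc, o.h.xx, one_mul]
  have hvzb : v * (z * bb z g) * v⁻¹ = z := by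
    calc v * (z * bb z g) * v⁻¹ = (v * z * v⁻¹) * (v * bb z g * v⁻¹) := by group
      _ = z := by rw [hvz, hvb, mul_assoc, o.h'.xx, mul_one]
  have huzb : u * (z * bb z g) * u⁻¹ = bb z g := by
    calc u * (z * bb z g) * u⁻¹ = (u * z * u⁻¹) * (u * bb z g * u⁻¹) := by group
      _ = bb z g := by rw [huz, hub, hzz]
  rcases hxS.2 with h | h | h | h | h | h
  · exact h
  · exact absurd (hub.symm.trans (mul_inv_eq_iff_eq_mul.mpr (hfix u h).2)) hbne
  · exact absurd (hvz.symm.trans (mul_inv_eq_iff_eq_mul.mpr (hfix v h).1)) hzne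
  · exfalso
    have e : u * v * z * (u * v)⁻¹ = bb z g := by
      calc u * v * z * (u * v)⁻¹ = u * (v * z * v⁻¹) * u⁻¹ := by group
        _ = bb z g := by rw [hvz, huzb]
    exact o.hne (e.symm.trans (mul_inv_eq_iff_eq_mul.mpr (hfix _ h).1))
  · exfalso
    have e : v * u * z * (v * u)⁻¹ = z * bb z g := by
      calc v * u * z * (v * u)⁻¹ = v * (u * z * u⁻¹) * v⁻¹ := by group
        _ = z * bb z g := by rw [huz, hvz]
    exact hzne (e.symm.trans (mul_inv_eq_iff_eq_mul.mpr (hfix _ h).1))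
  · exfalso
    have e : u * v * u * z * (u * v * u)⁻¹ = bb z g := by
      calc u * v * u * z * (u * v * u)⁻¹ = u * (v * (u * z * u⁻¹) * v⁻¹) * u⁻¹ := by group
        _ = bb z g := by rw [huz, hvz, huzb]
    exact o.hne (e.symm.trans (mul_inv_eq_iff_eq_mul.mpr (hfix _ h).1))

/-- The permutation representation of `X`. -/
noncomputable def permX : X F g →* Equiv.Perm (Fin 3) :=
  o.perm.comp (Subgroup.inclusion o.X_le_normalizer)

theorem permX_ker : o.permX.ker = (R F z g).subgroupOf (X F g) := by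
  ext x
  rw [MonoidHom.mem_ker, Subgroup.mem_subgroupOf]
  show o.perm _ = 1 ↔ _
  rw [o.perm_eq_one_iff, ← o.X_inf_CV]
  exact ⟨fun h => ⟨x.2, h⟩, fun h => h.2⟩

theorem permX_surjective : Function.Surjective o.permX := fun σ => by
  obtain ⟨x, hx, e⟩ := o.exists_perm_eq σ
  exact ⟨⟨x, hx⟩, e⟩

theorem R_eq_pCore : R F z g = (Cfsg.pCore 2 ↥(X F g)).map (X F g).subtype := by
  haveI : Fact (Nat.Prime 2) := ⟨Nat.prime_two⟩
  have hn : ((R F z g).subgroupOf (X F g)).Normal := o.permX_ker ▸ inferInstance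
  have h1 : (R F z g).subgroupOf (X F g) ≤ Cfsg.pCore 2 ↥(X F g) :=
    le_pCore hn (o.R_isPGroup.of_equiv (Subgroup.subgroupOfEquivOfLe o.R_le_X).symm)
  refine le_antisymm (fun x hx => ⟨⟨x, o.R_le_X hx⟩, h1 hx, rfl⟩) ?_
  rintro - ⟨x, hx, rfl⟩
  suffices hker : x ∈ o.permX.ker by rwa [o.permX_ker, Subgroup.mem_subgroupOf] at hker
  rw [MonoidHom.mem_ker]
  by_contra hne
  have hp2 : IsPGroup 2 ((Cfsg.pCore 2 ↥(X F g)).map o.permX) := (pCore_isPGroup 2).map _
  have hord : ∀ y ∈ (Cfsg.pCore 2 ↥(X F g)).map o.permX, y ^ 3 = 1 → y = 1 := by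
    intro y hy hy3
    obtain ⟨k, hk⟩ := hp2 ⟨y, hy⟩
    have hk' : y ^ 2 ^ k = 1 := congrArg Subtype.val hk
    rw [← orderOf_eq_one_iff]
    exact Nat.eq_one_of_dvd_coprimes ((by norm_num : Nat.Coprime 3 2).pow_right k)
      (orderOf_dvd_of_pow_eq_one hy3) (orderOf_dvd_of_pow_eq_one hk')
  have key : ∀ t : Equiv.Perm (Fin 3), t ≠ 1 →
      t ^ 3 = 1 ∨ ∃ s, (s * t * s⁻¹ * t⁻¹) ^ 3 = 1 ∧ s * t * s⁻¹ * t⁻¹ ≠ 1 := by
    set_option maxRecDepth 100000 in decide
  have hxm : o.permX x ∈ (Cfsg.pCore 2 ↥(X F g)).map o.permX := ⟨x, hx, rfl⟩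
  rcases key _ hne with h | ⟨s, h3, h1'⟩
  · exact hne (hord _ hxm h)
  · obtain ⟨y, rfl⟩ := o.permX_surjective s
    refine h1' (hord _ ?_ h3)
    exact ⟨y * x * y⁻¹ * x⁻¹, mul_mem ((pCore_normal 2).conj_mem x hx y) (inv_mem hx),
      by simp only [map_mul, map_inv]⟩

theorem quot_equiv :
    ∃ _ : ((R F z g).subgroupOf (X F g)).Normal,
      Nonempty (↥(X F g) ⧸ (R F z g).subgroupOf (X F g) ≃* Equiv.Perm (Fin 3)) := by
  haveI hn : ((R F z g).subgroupOf (X F g)).Normal := o.permX_ker ▸ inferInstance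
  exact ⟨hn, ⟨(QuotientGroup.quotientMulEquivOfEq o.permX_ker.symm).trans
    (QuotientGroup.quotientKerEquivOfSurjective o.permX o.permX_surjective)⟩⟩

theorem normalizer_eq : Subgroup.normalizer (four z g : Set G) =
    X F g ⊔ (Subgroup.centralizer ({z} : Set G) ⊓ Subgroup.centralizer (four z g : Set G)) := by
  have hCN : Subgroup.centralizer (four z g : Set G) ≤ Subgroup.normalizer (four z g : Set G) :=
    le_normalizer_of_conj fun a ha v hv => by
      rw [← ha v hv, mul_inv_cancel_right]; exact hv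
  refine le_antisymm ?_ (sup_le o.X_le_normalizer (inf_le_right.trans hCN))
  intro n hn
  obtain ⟨x, hx, e⟩ := o.exists_perm_eq (o.perm ⟨n, hn⟩)
  have h1 : o.perm (x⁻¹ * ⟨n, hn⟩) = 1 := by rw [map_mul, map_inv, e, inv_mul_cancel]
  have h2 := (o.perm_eq_one_iff _).mp h1
  have h3 : n = (x : G) * ((x : G)⁻¹ * n) := by group
  rw [h3]
  exact Subgroup.mul_mem_sup hx
    ⟨Subgroup.mem_centralizer_singleton_iff.mpr (o.mem_CV_iff.mp h2).1, h2⟩

theorem normalizer_le_normX : Subgroup.normalizer (four z g : Set G) ≤ Subgroup.normalizer (X F g : Set G) := by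
  rw [o.normalizer_eq]
  exact sup_le Subgroup.le_normalizer (inf_le_right.trans o.CV_le_norm)

theorem R_center : (Subgroup.center ↥(R F z g)).map (R F z g).subtype = four z g := by
  ext x
  rw [mem_centerMap_iff]
  constructor
  · rintro ⟨hxR, hx⟩
    obtain ⟨hxz, hxb⟩ := o.mem_CV_iff.mp (o.R_le_CV hxR)
    obtain ⟨u, hu, huz, hub⟩ := o.exists_u
    have hPc : ∀ p ∈ P F z g, p * x = x * p := fun p hp => hx p (Subgroup.mem_sup_right hp)
    have hCP : ∀ c ∈ F ⊓ Subgroup.centralizer (P F z g : Set G), c ∈ four z g := by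
      intro c hc
      have hH : four z g ≤ F := sup_le o.h.zp_le (Subgroup.zpowers_le.mpr o.hgF)
      rw [← o.h.double (four z g) hH o.z_mem_four]
      refine ⟨hc.1, fun w hw => hc.2 w ⟨hw.1, Subgroup.mem_centralizer_singleton_iff.mpr ?_⟩⟩
      exact (hw.2 _ o.b_mem_four).symm
    have hfix : ∀ w ∈ P F z g, w⁻¹ * (x * w * x⁻¹) ∈ Subgroup.zpowers z := by
      intro w hw
      rw [← hPc w hw, mul_inv_cancel_right, inv_mul_cancel]
      exact one_mem _
    have hd := o.h.disp_centralizes hxz inf_le_left hfix hu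
    set c := u⁻¹ * (x * u * x⁻¹) with hc
    have hcz : c ∈ Subgroup.zpowers z := by
      have hsq : (x * u * x⁻¹) * (x * u * x⁻¹) = u * u := by
        rw [conj_mul]
        exact o.h.central_zp_mul' hxz (o.h.sq hu)
      rcases o.mem_four_iff.mp (hCP c hd) with e | e | e | e
      · rw [e]; exact one_mem _
      · rw [e]; exact Subgroup.mem_zpowers _
      · exfalso
        have h1 : x * u * x⁻¹ = u * bb z g := by rw [← e, hc]; group
        rw [h1] at hsq
        apply o.h.xne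
        have : u * bb z g * (u * bb z g) = u * u * z := by
          calc u * bb z g * (u * bb z g) = (u * bb z g * u⁻¹) * (u * u) * bb z g := by group
            _ = z * (bb z g * (u * u)) * bb z g := by rw [hub]; group
            _ = z * ((u * u) * bb z g) * bb z g := by rw [o.h.x_central o.hgF (o.h.sq hu)]
            _ = z * (u * u) := by rw [mul_assoc, mul_assoc (u * u), o.h'.xx, mul_one]
            _ = u * u * z := (o.h.comm_x _ (F.mul_mem hu hu)).symm
        rw [this] at hsq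
        exact mul_eq_left.mp hsq
      · exfalso
        have h1 : x * u * x⁻¹ = u * (z * bb z g) := by rw [← e, hc]; group
        rw [h1] at hsq
        apply o.h.xne
        have : u * (z * bb z g) * (u * (z * bb z g)) = u * u * z := by
          have huz' : u * z = z * u := o.h.comm_x u hu
          calc u * (z * bb z g) * (u * (z * bb z g))
              = (u * z) * bb z g * (u * z) * bb z g := by group
            _ = (z * u) * bb z g * (z * u) * bb z g := by rw [huz']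
            _ = z * u * (bb z g * z) * u * bb z g := by group
            _ = z * (u * z) * bb z g * u * bb z g := by rw [← o.zb]; group
            _ = (z * z) * u * bb z g * u * bb z g := by rw [huz']; group
            _ = (u * bb z g * u⁻¹) * (u * u) * bb z g := by rw [o.h.xx]; group
            _ = z * (bb z g * (u * u)) * bb z g := by rw [hub]; group
            _ = z * ((u * u) * bb z g) * bb z g := by rw [o.h.x_central o.hgF (o.h.sq hu)]
            _ = z * (u * u) := by rw [mul_assoc, mul_assoc (u * u), o.h'.xx, mul_one]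
            _ = u * u * z := (o.h.comm_x _ (F.mul_mem hu hu)).symm
        rw [this] at hsq
        exact mul_eq_left.mp hsq
    have hxF : x ∈ F := by
      refine o.h.mem_of_disp hxz ?_
      have hle : F ≤ o.h.fixSub x (Subgroup.zpowers z) (Subgroup.mem_zpowers z) o.h.zp_le := by
        intro q hq
        rcases o.mem_P_or hu hub hq with hp | hp
        · exact ⟨hq, hfix q hp⟩
        · have h1 : u ∈ o.h.fixSub x (Subgroup.zpowers z) (Subgroup.mem_zpowers z) o.h.zp_le := ⟨hu, hcz⟩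
          have h2 : u⁻¹ * q ∈ o.h.fixSub x (Subgroup.zpowers z) (Subgroup.mem_zpowers z) o.h.zp_le :=
            ⟨hp.1, hfix _ hp⟩
          have h3 := mul_mem h1 h2
          rwa [mul_inv_cancel_left] at h3
      exact fun q hq => (hle hq).2
    exact hCP x ⟨hxF, fun p hp => hPc p hp⟩
  · intro hx
    refine ⟨?_, fun y hy => ((o.R_le_CV hy) x hx).symm⟩
    have hz : z ∈ R F z g := Subgroup.mem_sup_right
      ⟨o.h.mem, Subgroup.mem_centralizer_singleton_iff.mpr o.zb⟩
    have hb : bb z g ∈ R F z g := Subgroup.mem_sup_right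
      ⟨o.hgF, Subgroup.mem_centralizer_singleton_iff.mpr rfl⟩
    exact sup_le (Subgroup.zpowers_le.mpr hz) (Subgroup.zpowers_le.mpr hb) hx

theorem inf_eq_inter : P' F z g ⊓ P F z g = F ⊓ F' F g := by
  ext x
  exact ⟨fun hx => ⟨hx.2.1, hx.1.1⟩, fun hx =>
    ⟨⟨hx.2, Subgroup.mem_centralizer_singleton_iff.mpr (o.h.comm_x x hx.1)⟩,
      hx.1, Subgroup.mem_centralizer_singleton_iff.mpr (o.h'.comm_x x hx.2)⟩⟩

theorem inter_le_R : F ⊓ F' F g ≤ R F z g := by
  rw [← o.inf_eq_inter]; exact inf_le_left.trans le_sup_left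

theorem zb_disjoint {x : G} (h1 : x ∈ Subgroup.zpowers z) (h2 : x ∈ Subgroup.zpowers (bb z g)) : x = 1 := by
  rcases o.h.pair h1 with e | e
  · exact e
  · rcases o.h'.pair h2 with e' | e'
    · exact e'
    · exact absurd (e'.symm.trans e) o.hne

theorem inter_elementary : Cfsg.IsElementaryAbelian 2 (F ⊓ F' F g) := by
  refine ⟨⟨⟨fun a b => Subtype.ext ?_⟩⟩, fun a ha => ?_⟩
  · have h1 := o.zb_disjoint (o.h.comm a.2.1 b.2.1) (o.h'.comm a.2.2 b.2.2)
    rwa [mul_inv_eq_one, mul_inv_eq_iff_eq_mul] at h1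
  · rw [pow_two]; exact o.zb_disjoint (o.h.sq ha.1) (o.h'.sq ha.2)

theorem comm_mem_inter {x y : G} (hx : x ∈ R F z g) (hy : y ∈ R F z g) :
    x * y * x⁻¹ * y⁻¹ ∈ F ⊓ F' F g ∧ x ^ 2 ∈ F ⊓ F' F g := by
  set E := F ⊓ F' F g with hE
  have hconjE : ∀ a ∈ R F z g, ∀ e ∈ E, a * e * a⁻¹ ∈ E := fun a ha e he =>
    ⟨o.CV_norm_F (o.R_le_CV ha) he.1, o.CV_norm_F' (o.R_le_CV ha) he.2⟩
  haveI hn : (E.subgroupOf (R F z g)).Normal := ⟨fun n hn a => hconjE a a.2 n hn⟩
  set q := QuotientGroup.mk' (E.subgroupOf (R F z g)) with hq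
  have hq1 : ∀ w : R F z g, q w = 1 ↔ (w : G) ∈ E := fun w =>
    QuotientGroup.eq_one_iff w
  have hzE : ∀ {t}, t ∈ Subgroup.zpowers z → t ∈ E := fun {t} ht =>
    ⟨o.h.zp_le ht, Subgroup.zpowers_le.mpr o.hzF ht⟩
  have hbE : ∀ {t}, t ∈ Subgroup.zpowers (bb z g) → t ∈ E := fun {t} ht =>
    ⟨Subgroup.zpowers_le.mpr o.hgF ht, o.h'.zp_le ht⟩
  have hgen : ∀ a b : R F z g, ((a : G) ∈ P' F z g ∨ (a : G) ∈ P F z g) →
      ((b : G) ∈ P' F z g ∨ (b : G) ∈ P F z g) → q a * q b = q b * q a := by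
    intro a b ha hb
    rw [← commutatorElement_eq_one_iff_mul_comm, ← map_commutatorElement, hq1]
    show (a : G) * b * (a : G)⁻¹ * (b : G)⁻¹ ∈ E
    rcases ha with ha | ha <;> rcases hb with hb | hb
    · exact hbE (o.h'.comm ha.1 hb.1)
    · refine ⟨F.mul_mem (o.CV_norm_F (o.P'_le ha) hb.1) (F.inv_mem hb.1), ?_⟩
      have : (a : G) * b * (a : G)⁻¹ * (b : G)⁻¹ = a * ((b : G) * (a : G)⁻¹ * (b : G)⁻¹) := by group
      rw [this]
      exact (F' F g).mul_mem ha.1 (o.CV_norm_F' (o.P_le hb) ((F' F g).inv_mem ha.1))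
    · refine ⟨?_, (F' F g).mul_mem (o.CV_norm_F' (o.P_le ha) hb.1) ((F' F g).inv_mem hb.1)⟩
      have : (a : G) * b * (a : G)⁻¹ * (b : G)⁻¹ = a * ((b : G) * (a : G)⁻¹ * (b : G)⁻¹) := by group
      rw [this]
      exact F.mul_mem ha.1 (o.CV_norm_F (o.P'_le hb) (F.inv_mem ha.1))
    · exact hzE (o.h.comm ha.1 hb.1)
  have hcentral : ∀ a : R F z g, ((a : G) ∈ P' F z g ∨ (a : G) ∈ P F z g) →
      ∀ w : R F z g, q w * q a = q a * q w := by
    intro a ha w
    set T := {t : G | ∀ ht : t ∈ R F z g, q ⟨t, ht⟩ * q a = q a * q ⟨t, ht⟩} ∩ (R F z g : Set G)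
    have hT : R F z g ≤ subgroupOfMulClosed T
        ⟨fun ht => by
          rw [show (⟨1, ht⟩ : R F z g) = 1 from rfl, map_one, one_mul, mul_one], one_mem _⟩
        (fun t ht t' ht' => ⟨fun h => by
          rw [show (⟨t * t', h⟩ : R F z g) = ⟨t, ht.2⟩ * ⟨t', ht'.2⟩ from rfl, map_mul, mul_assoc,
            ht'.1 ht'.2, ← mul_assoc, ht.1 ht.2, mul_assoc], mul_mem ht.2 ht'.2⟩) :=
      sup_le (fun t ht => ⟨fun h => hgen ⟨t, h⟩ a (Or.inl ht) ha, Subgroup.mem_sup_left ht⟩)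
        (fun t ht => ⟨fun h => hgen ⟨t, h⟩ a (Or.inr ht) ha, Subgroup.mem_sup_right ht⟩)
    exact (hT w.2).1 w.2
  have hall : ∀ a w : R F z g, q w * q a = q a * q w := by
    intro a w
    set T := {t : G | ∀ ht : t ∈ R F z g, q w * q ⟨t, ht⟩ = q ⟨t, ht⟩ * q w} ∩ (R F z g : Set G)
    have hT : R F z g ≤ subgroupOfMulClosed T
        ⟨fun ht => by
          rw [show (⟨1, ht⟩ : R F z g) = 1 from rfl, map_one, one_mul, mul_one], one_mem _⟩
        (fun t ht t' ht' => ⟨fun h => by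
          rw [show (⟨t * t', h⟩ : R F z g) = ⟨t, ht.2⟩ * ⟨t', ht'.2⟩ from rfl, map_mul, ← mul_assoc,
            ht.1 ht.2, mul_assoc, ht'.1 ht'.2, mul_assoc], mul_mem ht.2 ht'.2⟩) :=
      sup_le (fun t ht => ⟨fun h => hcentral ⟨t, h⟩ (Or.inl ht) w, Subgroup.mem_sup_left ht⟩)
        (fun t ht => ⟨fun h => hcentral ⟨t, h⟩ (Or.inr ht) w, Subgroup.mem_sup_right ht⟩)
    exact (hT a.2).1 a.2
  refine ⟨(hq1 ⁅(⟨x, hx⟩ : R F z g), ⟨y, hy⟩⁆).mp ?_, ?_⟩
  · rw [map_commutatorElement, commutatorElement_eq_one_iff_mul_comm]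
    exact hall _ _
  · set T := {t : G | ∀ ht : t ∈ R F z g, q ⟨t, ht⟩ * q ⟨t, ht⟩ = 1} ∩ (R F z g : Set G)
    have hT : R F z g ≤ subgroupOfMulClosed T
        ⟨fun ht => by rw [show (⟨1, ht⟩ : R F z g) = 1 from rfl, map_one, one_mul], one_mem _⟩
        (fun t ht t' ht' => ⟨fun h => by
          rw [show (⟨t * t', h⟩ : R F z g) = ⟨t, ht.2⟩ * ⟨t', ht'.2⟩ from rfl, map_mul, mul_assoc,
            ← mul_assoc (q ⟨t', ht'.2⟩), hall ⟨t, ht.2⟩ ⟨t', ht'.2⟩, mul_assoc (q ⟨t, ht.2⟩),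
            ht'.1 ht'.2, mul_one, ht.1 ht.2], mul_mem ht.2 ht'.2⟩) :=
      sup_le (fun t ht => ⟨fun h => by
          rw [← map_mul, hq1]; exact hbE (o.h'.sq ht.1), Subgroup.mem_sup_left ht⟩)
        (fun t ht => ⟨fun h => by
          rw [← map_mul, hq1]; exact hzE (o.h.sq ht.1), Subgroup.mem_sup_right ht⟩)
    have h2 : (((⟨x, hx⟩ : R F z g) * ⟨x, hx⟩ : R F z g) : G) ∈ E :=
      (hq1 _).mp (by rw [map_mul]; exact (hT hx).1 hx)
    rwa [pow_two]

theorem comm_X_inter {x e : G} (hx : x ∈ X F g) (he : e ∈ F ⊓ F' F g) :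
    x * e * x⁻¹ * e⁻¹ ∈ four z g := by
  set S : Set G := {x | x ∈ X F g ∧ ∀ e ∈ F ⊓ F' F g, x * e * x⁻¹ * e⁻¹ ∈ four z g}
  have hcl : ∀ a ∈ S, ∀ a' ∈ S, a * a' ∈ S := fun a ha a' ha' => ⟨mul_mem ha.1 ha'.1, fun c hc => by
    have : a * a' * c * (a * a')⁻¹ * c⁻¹ =
        (a * (a' * c * a'⁻¹ * c⁻¹) * a⁻¹) * (a * c * a⁻¹ * c⁻¹) := by group
    rw [this]
    exact mul_mem ((Subgroup.mem_normalizer_iff.mp (o.X_le_normalizer ha.1) _).mp (ha'.2 c hc))
      (ha.2 c hc)⟩
  have hle : X F g ≤ subgroupOfMulClosed S ⟨one_mem _, fun c _ => by simp⟩ hcl :=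
    sup_le (fun q hq => ⟨Subgroup.mem_sup_left hq, fun c hc => Subgroup.mem_sup_left (o.h.comm hq hc.1)⟩)
      (fun q hq => ⟨Subgroup.mem_sup_right hq, fun c hc => Subgroup.mem_sup_right (o.h'.comm hq hc.2)⟩)
  exact (hle hx).2 e he

theorem inter_le_ucs :
    F ⊓ F' F g ≤ (Subgroup.upperCentralSeries ↥(R F z g) 2).map (R F z g).subtype := by
  intro e he
  refine ⟨⟨e, o.inter_le_R he⟩, ?_, rfl⟩
  refine (Subgroup.mem_upperCentralSeries_succ_iff (n := 1)).mpr fun y => ?_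
  rw [Subgroup.upperCentralSeries_one]
  have h := o.comm_X_inter (o.R_le_X y.2) he
  rw [← o.R_center] at h
  obtain ⟨w, hw, e'⟩ := h
  have : (⟨e, o.inter_le_R he⟩ : R F z g) * y * (⟨e, o.inter_le_R he⟩ : R F z g)⁻¹ * y⁻¹ = w⁻¹ :=
    Subtype.ext (by
      show e * (y : G) * e⁻¹ * (y : G)⁻¹ = ((w : R F z g) : G)⁻¹
      rw [show ((w : R F z g) : G) = (y : G) * e * (y : G)⁻¹ * e⁻¹ from e']
      group)
  rw [commutatorElement_def, this]; exact inv_mem hw

theorem ucs_three : Subgroup.upperCentralSeries ↥(R F z g) 3 = ⊤ := by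
  rw [eq_top_iff]
  intro x _
  refine (Subgroup.mem_upperCentralSeries_succ_iff (n := 2)).mpr fun y => ?_
  obtain ⟨w, hw, e⟩ := o.inter_le_ucs (o.comm_mem_inter x.2 y.2).1
  have : x * y * x⁻¹ * y⁻¹ = w := Subtype.ext e.symm
  rwa [commutatorElement_def, this]

end OrthPair

/-- The pair and the normal forms of the given subgroups, from a large extraspecial subgroup. -/
theorem orthPair_of_large {Q : Subgroup G} (hQ : Cfsg.IsLargeExtraspecial Q) {z : G}
    (hz : (Subgroup.center ↥Q).map Q.subtype = Subgroup.zpowers z) {w : ℕ} (hw : 2 ≤ w)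
    (hcard : Nat.card ↥Q = 2 ^ (2 * w + 1)) {g : G}
    (hgH : g ∉ Subgroup.centralizer ({z} : Set G)) (hgQ : g * z * g⁻¹ ∈ Q) :
    OrthPair Q z g ∧ Subgroup.closure ({z, g * z * g⁻¹} : Set G) = OrthPair.four z g := by
  obtain ⟨z', h, -, hz'⟩ := exists_singPt Q hQ.1 hQ.2.1 hQ.2.2.1
  rw [hz] at hz'
  have hzz' : z = z' := by
    have h1 : z ∈ Subgroup.zpowers z' := hz' ▸ Subgroup.mem_zpowers z
    have h2 : z' ∈ Subgroup.zpowers z := hz'.symm ▸ Subgroup.mem_zpowers z'
    rcases h.pair h1 with e | e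
    · exfalso
      rw [e, Subgroup.zpowers_one_eq_bot, Subgroup.mem_bot] at h2
      exact h.xne h2
    · exact e
  subst hzz'
  refine ⟨h.orthPair ?_ hgQ ?_, ?_⟩
  · rw [hcard]
    calc 8 < 2 ^ 5 := by norm_num
      _ ≤ 2 ^ (2 * w + 1) := Nat.pow_le_pow_right (by norm_num) (by omega)
  · exact fun e => hgH (Subgroup.mem_centralizer_singleton_iff.mpr (mul_inv_eq_iff_eq_mul.mp e))
  · rw [OrthPair.four, Subgroup.zpowers_eq_closure, Subgroup.zpowers_eq_closure, ← Subgroup.closure_union]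
    rfl

end Cfsg.Agent.H18
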