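import Cfsg.Agent.H18.LargeSimple
import Cfsg.Agent.H18.PairLocal
import Cfsg.Agent.H18.CentralFactor
import Cfsg.Agent.H24.Extraspecial
import Cfsg.Agent.H19.Cores
import Cfsg.Agent.H58.ExtraspecialCongr
import Cfsg.Agent.S0219
import Cfsg.Agent.S5422

/-! Large extraspecial subgroups in sections of centralizers. -/

set_option autoImplicit false

namespace Cfsg.Agent.H18

open scoped commutatorElement

/-- An extraspecial subgroup of width at least two with `C(F) = Z(F)`, normal in `C(Z(F))`, and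
with a conjugate of the central involution in `F` is large. -/
theorem large_of_conjugate {H : Type*} [Group H] [Finite H] {F : Subgroup H} {z g : H}
    (hE : Cfsg.IsExtraspecial 2 ↥F) (hbig : 32 ≤ Nat.card ↥F) (hz1 : z ≠ 1) (hz : z ∈ F)
    (hC : ∀ x, (∀ q ∈ F, q * x = x * q) → x = 1 ∨ x = z)
    (hzc : ∀ q ∈ F, q * z = z * q)
    (hN : ∀ a, a * z = z * a → ∀ q ∈ F, a * q * a⁻¹ ∈ F)
    (hgF : g * z * g⁻¹ ∈ F) (hne : g * z * g⁻¹ ≠ z) : Cfsg.IsLargeExtraspecial F := by
  have : Fact (Nat.Prime 2) := ⟨Nat.prime_two⟩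
  obtain ⟨c, hc1, -, hZ, hmem⟩ := centerMap_eq_pair F hE
  have hzz : z = c := ((hmem z).mp ((mem_centerMap_iff F z).mpr ⟨hz, hzc⟩)).resolve_left hz1
  subst hzz
  obtain ⟨n, -, hn⟩ := H24.espec_card hE
  have hn2 : 2 ≤ n := by
    by_contra hcon
    have : n ≤ 1 := by omega
    have h8 : (2 : ℕ) ^ (2 * n + 1) ≤ 2 ^ 3 := Nat.pow_le_pow_right (by norm_num) (by omega)
    omega
  refine (S5422.result F hE ?_ ?_ n hn2 hn g ?_ ?_).2.2
  · refine le_antisymm (fun x hx => ?_) fun x hx y hy => ((mem_centerMap_iff F x).mp hx).2 y hy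
    exact (hmem x).mpr (hC x hx)
  · intro a ha
    refine Subgroup.mem_normalizer_fintype fun q hq => hN a ?_ q hq
    exact (ha z ((hmem z).mpr (Or.inr rfl))).symm
  · rw [hZ]
    intro hg
    have hm : g * z * g⁻¹ ∈ Subgroup.zpowers z :=
      (Subgroup.mem_normalizer_iff.mp hg z).mp (Subgroup.mem_zpowers z)
    rcases (hmem _).mp (hZ ▸ hm) with e | e
    · exact hz1 (conj_eq_one_iff.mp e)
    · exact hne e
  · rw [hZ, MonoidHom.map_zpowers]
    exact Subgroup.zpowers_le.mpr hgF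

variable {G : Type*} [Group G] [Finite G]

/-- The singular point given by the generalized Fitting subgroup. -/
theorem singPt_of_fstar {z : G} (hz : orderOf z = 2) {Q : Subgroup G}
    (hF : (Cfsg.generalizedFittingSubgroup ↥(Subgroup.centralizer ({z} : Set G))).map
      (Subgroup.centralizer ({z} : Set G)).subtype = Q) (hQ : Cfsg.IsExtraspecial 2 ↥Q) :
    SingPt Q z ∧ (Subgroup.center ↥Q).map Q.subtype = Subgroup.zpowers z := by
  obtain ⟨hzQ, hZ, hC, hN⟩ := fstar_conditions hz hF hQ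
  obtain ⟨z', h, hz', hZ'⟩ := exists_singPt Q hQ hC hN
  have he : z = z' := by
    have hm : z ∈ Subgroup.zpowers z' := by rw [← hZ', hZ]; exact Subgroup.mem_zpowers z
    rcases h.pair hm with e | e
    · rw [e, orderOf_one] at hz; omega
    · exact e
  subst he
  exact ⟨h, hZ⟩

/-- The centralizer of an odd group of automorphisms fixing the centre is a central factor. -/
theorem central_split {Q A : Subgroup G} (hE : Cfsg.IsExtraspecial 2 ↥Q)
    (hA : A ≤ Subgroup.normalizer (Q : Set G)) (hAodd : Odd (Nat.card ↥A))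
    (hZA : ∀ w ∈ (Subgroup.center ↥Q).map Q.subtype, ∀ a ∈ A, a * w = w * a) :
    ⁅Q, A⁆ ⊔ (Q ⊓ Subgroup.centralizer (A : Set G)) = Q ∧
      ∀ x ∈ Q ⊓ Subgroup.centralizer (A : Set G), ∀ y ∈ ⁅Q, A⁆, x * y = y * x := by
  have : Fact (Nat.Prime 2) := ⟨Nat.prime_two⟩
  have hcop : (Nat.card ↥A).Coprime (Nat.card ↥Q) := by
    obtain ⟨k, hk⟩ := IsPGroup.iff_card.mp hE.1.1
    rw [hk]; exact (Nat.coprime_two_right.mpr hAodd).pow_right k
  have hsolv : Group.IsSolvable ↥A ∨ Group.IsSolvable ↥Q := by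
    have : Group.IsNilpotent ↥Q := hE.1.1.isNilpotent
    exact Or.inr inferInstance
  refine ⟨H20.commutator_sup_centralizer hA hcop hsolv, ?_⟩
  have hCC : ⁅⁅Q, A⁆, Q ⊓ Subgroup.centralizer (A : Set G)⁆ = ⊥ := by
    refine Subgroup.commutator_commutator_eq_bot_of_rotate ?_ ?_
    · have h0 : ⁅A, Q ⊓ Subgroup.centralizer (A : Set G)⁆ = ⊥ :=
        Subgroup.commutator_eq_bot_iff_le_centralizer.mpr fun a ha x hx => (hx.2 a ha).symm
      rw [h0]
      exact Subgroup.commutator_eq_bot_iff_le_centralizer.mpr bot_le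
    · refine Subgroup.commutator_eq_bot_iff_le_centralizer.mpr ?_
      refine le_trans ?_ (show (Subgroup.center ↥Q).map Q.subtype ≤ Subgroup.centralizer (A : Set G)
        from fun w hw a ha => hZA w hw a ha)
      rw [Subgroup.commutator_le]
      intro x hx y hy
      exact ⟨⁅(⟨x, hx.1⟩ : Q), ⟨y, hy⟩⁆, commutator_mem_center hE _ _, rfl⟩
  exact fun x hx y hy => (Subgroup.commutator_eq_bot_iff_le_centralizer.mp hCC hy) x hx

/-- The image in `C(t)/⟨t⟩` of the centralizer of a suitable involution `t` in `Q` is large. -/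
theorem large_in_involution_quotient {z : G} (hz : orderOf z = 2) {Q : Subgroup G}
    (hF : (Cfsg.generalizedFittingSubgroup ↥(Subgroup.centralizer ({z} : Set G))).map
      (Subgroup.centralizer ({z} : Set G)).subtype = Q) (hQ : Cfsg.IsExtraspecial 2 ↥Q)
    (hbig : 128 ≤ Nat.card ↥Q) {g : G} (hgQ : g * z * g⁻¹ ∈ Q) (hgne : g * z * g⁻¹ ≠ z)
    {t : G} (ht : orderOf t = 2) (htQ : t ∈ Q) (htQ' : t ∈ Q.map (MulAut.conj g).toMonoidHom)
    (htz : ¬ IsConj z t) {P : Subgroup G} (hP : P = Q ⊓ Subgroup.centralizer ({t} : Set G))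
    (hCP : ∀ c : G, c * z = z * c →
      (∀ x ∈ P, c * x * c⁻¹ * x⁻¹ = 1 ∨ c * x * c⁻¹ * x⁻¹ = t) → c ∈ Q)
    [hn : ((Subgroup.zpowers t).subgroupOf (Subgroup.centralizer ({t} : Set G))).Normal] :
    Cfsg.IsLargeExtraspecial ((P.subgroupOf (Subgroup.centralizer ({t} : Set G))).map
      (QuotientGroup.mk' ((Subgroup.zpowers t).subgroupOf (Subgroup.centralizer ({t} : Set G))))) ∧
    ∃ x ∈ P ⊔ (Q.map (MulAut.conj g).toMonoidHom ⊓ Subgroup.centralizer ({t} : Set G)),
      x * (g * z * g⁻¹) * x⁻¹ = z := by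
  have : Fact (Nat.Prime 2) := ⟨Nat.prime_two⟩
  obtain ⟨h, -⟩ := singPt_of_fstar hz hF hQ
  have o : OrthPair Q z g := h.orthPair (by omega) hgQ hgne
  have htt : t * t = 1 := by rw [← pow_two, ← ht, pow_orderOf_eq_one]
  have ht1 : t ≠ 1 := fun e => by rw [e, orderOf_one] at ht; omega
  have htz' : t ≠ z := fun e => htz (e ▸ IsConj.refl z)
  set b := g * z * g⁻¹ with hb
  have hzt : z * t = t * z := (h.comm_x t htQ).symm
  have hbt : b * t = t * b := (o.h'.comm_x t htQ').symm
  obtain ⟨u₀, hu₀, hu₀t⟩ := h.exists_translate htQ ht1 htz'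
  have hztc : IsConj t (z * t) := isConj_iff.mpr ⟨u₀, hu₀t⟩
  have hnzt : ¬ IsConj z (z * t) := fun e => htz (e.trans hztc.symm)
  have hnb : t ≠ b := fun e => htz (isConj_iff.mpr ⟨g, e.symm⟩)
  have hnzb : t ≠ z * b := fun e => by
    obtain ⟨u, hu, huz, hub⟩ := o.exists_u
    refine htz (isConj_iff.mpr ⟨u * g, ?_⟩)
    calc u * g * z * (u * g)⁻¹ = u * b * u⁻¹ := by rw [hb]; group
      _ = t := by rw [e]; exact hub
  -- transvections centralizing `t`
  obtain ⟨u, hu, hut, hub⟩ : ∃ u ∈ Q, u * t = t * u ∧ u * b * u⁻¹ = z * b := by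
    obtain ⟨u, hu, huz, hub⟩ := o.exists_u
    rcases h.pair (h.comm hu htQ) with e | e
    · exact ⟨u, hu, (mul_inv_eq_iff_eq_mul.mp (mul_inv_eq_one.mp e)), hub⟩
    · by_cases hu₀b : u₀ * b = b * u₀
      · refine ⟨u₀ * u, Q.mul_mem hu₀ hu, ?_, ?_⟩
        · have h1 : u * t * u⁻¹ = z * t := mul_inv_eq_iff_eq_mul.mp e
          calc u₀ * u * t = u₀ * (u * t * u⁻¹) * u := by group
            _ = (u₀ * z) * t * u := by rw [h1]; group
            _ = z * (u₀ * t * u₀⁻¹) * (u₀ * u) := by rw [h.comm_x u₀ hu₀]; group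
            _ = t * (u₀ * u) := by rw [hu₀t, ← mul_assoc z, h.xx, one_mul]
        · calc u₀ * u * b * (u₀ * u)⁻¹ = u₀ * (u * b * u⁻¹) * u₀⁻¹ := by group
            _ = (u₀ * z) * b * u₀⁻¹ := by rw [hub]; simp only [hb, OrthPair.bb]; group
            _ = z * (u₀ * b) * u₀⁻¹ := by rw [h.comm_x u₀ hu₀]; group
            _ = z * b := by rw [hu₀b]; group
      · -- some element moves exactly one of `b`, `t`
        have h2 : t * b ∈ Q := Q.mul_mem htQ hgQ
        have h3 : t * b ≠ 1 := fun e' => hnb (by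
          rw [← mul_one t, ← o.h'.xx, ← mul_assoc, e', one_mul])
        have h4 : t * b ≠ z := fun e' => hnzb (by
          rw [← e', mul_assoc, o.h'.xx, mul_one])
        obtain ⟨w, hw, hwe⟩ := h.exists_translate h2 h3 h4
        have hsplit : w * (t * b) * w⁻¹ = (w * t * w⁻¹) * (w * b * w⁻¹) := by group
        rcases h.pair (h.comm hw htQ) with et | et <;> rcases h.pair (h.comm hw hgQ) with eb | eb
        · exfalso
          rw [hsplit, mul_inv_eq_one.mp et, mul_inv_eq_one.mp eb] at hwe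
          exact h.xne (mul_eq_right.mp hwe.symm)
        · exact ⟨w, hw, mul_inv_eq_iff_eq_mul.mp (mul_inv_eq_one.mp et), mul_inv_eq_iff_eq_mul.mp eb⟩
        · -- `w` moves `t` and fixes `b`
          refine ⟨w * u, Q.mul_mem hw hu, ?_, ?_⟩
          · have h1 : u * t * u⁻¹ = z * t := mul_inv_eq_iff_eq_mul.mp e
            have h1' : w * t * w⁻¹ = z * t := mul_inv_eq_iff_eq_mul.mp et
            calc w * u * t = w * (u * t * u⁻¹) * u := by group
              _ = (w * z) * t * u := by rw [h1]; group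
              _ = z * (w * t * w⁻¹) * (w * u) := by rw [h.comm_x w hw]; group
              _ = t * (w * u) := by rw [h1', ← mul_assoc z, h.xx, one_mul]
          · calc w * u * b * (w * u)⁻¹ = w * (u * b * u⁻¹) * w⁻¹ := by group
              _ = (w * z) * b * w⁻¹ := by rw [hub]; simp only [hb, OrthPair.bb]; group
              _ = z * (w * b * w⁻¹) := by rw [h.comm_x w hw]; group
              _ = z * b := by rw [mul_inv_eq_one.mp eb]
        · exfalso
          rw [hsplit, mul_inv_eq_iff_eq_mul.mp et, mul_inv_eq_iff_eq_mul.mp eb] at hwe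
          have : z * t * (z * b) = t * b := by
            calc z * t * (z * b) = z * (t * z) * b := by group
              _ = z * (z * t) * b := by rw [hzt]
              _ = t * b := by rw [← mul_assoc z, h.xx, one_mul]
          rw [this] at hwe
          exact h.xne (mul_eq_right.mp hwe.symm)
  obtain ⟨v, hv, hvt, hvz⟩ : ∃ v ∈ Q.map (MulAut.conj g).toMonoidHom,
      v * t = t * v ∧ v * z * v⁻¹ = z * b := by
    obtain ⟨v, hv, hvb, hvz⟩ := o.exists_v
    rcases o.h'.pair (o.h'.comm hv htQ') with e | e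
    · exact ⟨v, hv, (mul_inv_eq_iff_eq_mul.mp (mul_inv_eq_one.mp e)), hvz⟩
    · have h2 : t * z ∈ Q.map (MulAut.conj g).toMonoidHom := mul_mem htQ' o.hzF
      have h3 : t * z ≠ 1 := fun e' => htz' (by
        rw [← mul_one t, ← h.xx, ← mul_assoc, e', one_mul])
      have h4 : t * z ≠ b := fun e' => hnzb (by
        rw [show z * b = b * z from o.zb, ← e', mul_assoc, h.xx, mul_one])
      obtain ⟨w, hw, hwe⟩ := o.h'.exists_translate h2 h3 h4
      have hsplit : w * (t * z) * w⁻¹ = (w * t * w⁻¹) * (w * z * w⁻¹) := by group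
      rcases o.h'.pair (o.h'.comm hw htQ') with et | et <;>
        rcases o.h'.pair (o.h'.comm hw o.hzF) with ez | ez
      · exfalso
        rw [hsplit, mul_inv_eq_one.mp et, mul_inv_eq_one.mp ez] at hwe
        exact o.h'.xne (mul_eq_right.mp hwe.symm)
      · exact ⟨w, hw, mul_inv_eq_iff_eq_mul.mp (mul_inv_eq_one.mp et),
          (mul_inv_eq_iff_eq_mul.mp ez).trans o.zb.symm⟩
      · refine ⟨w * v, mul_mem hw hv, ?_, ?_⟩
        · have h1 : v * t * v⁻¹ = b * t := mul_inv_eq_iff_eq_mul.mp e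
          have h1' : w * t * w⁻¹ = b * t := mul_inv_eq_iff_eq_mul.mp et
          calc w * v * t = w * (v * t * v⁻¹) * v := by group
            _ = (w * b) * t * v := by rw [h1]; group
            _ = b * (w * t * w⁻¹) * (w * v) := by
                rw [show w * b = b * w from o.h'.comm_x w hw]; group
            _ = t * (w * v) := by rw [h1', ← mul_assoc b, o.h'.xx, one_mul]
        · calc w * v * z * (w * v)⁻¹ = w * (v * z * v⁻¹) * w⁻¹ := by group
            _ = (w * z * w⁻¹) * (w * b * w⁻¹) := by rw [hvz]; simp only [hb, OrthPair.bb]; group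
            _ = z * b := by
                rw [mul_inv_eq_one.mp ez, mul_inv_eq_iff_eq_mul.mpr (o.h'.comm_x w hw)]
      · exfalso
        rw [hsplit, mul_inv_eq_iff_eq_mul.mp et, mul_inv_eq_iff_eq_mul.mp ez] at hwe
        have : b * t * (b * z) = t * z := by
          calc b * t * (b * z) = b * (t * b) * z := by group
            _ = b * (b * t) * z := by rw [hbt]
            _ = t * z := by rw [← mul_assoc b, o.h'.xx, one_mul]
        rw [this] at hwe
        exact o.h'.xne (mul_eq_right.mp hwe.symm)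
  have hvb : v * b * v⁻¹ = b := mul_inv_eq_iff_eq_mul.mpr (o.h'.comm_x v hv)
  have hvub : v * u * b * (v * u)⁻¹ = z := by
    calc v * u * b * (v * u)⁻¹ = v * (u * b * u⁻¹) * v⁻¹ := by group
      _ = (v * z * v⁻¹) * (v * b * v⁻¹) := by rw [hub]; group
      _ = z := by rw [hvz, hvb, mul_assoc, o.h'.xx, mul_one]
  have huP : u ∈ P := hP ▸ ⟨hu, Subgroup.mem_centralizer_singleton_iff.mpr hut⟩
  have hvC : v ∈ Subgroup.centralizer ({t} : Set G) := Subgroup.mem_centralizer_singleton_iff.mpr hvt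
  refine ⟨?_, v * u, ?_, hvub⟩
  swap
  · rw [sup_comm]
    exact Subgroup.mul_mem_sup ⟨hv, hvC⟩ huP
  set N := (Subgroup.zpowers t).subgroupOf (Subgroup.centralizer ({t} : Set G)) with hN
  set π := QuotientGroup.mk' N with hπ
  have hzp : ∀ {w}, w ∈ Subgroup.zpowers t → w = 1 ∨ w = t := fun {w} hw => by
    exact (mem_zpowers_iff_pair htt w).mp hw
  have hπ1 : ∀ a : ↥(Subgroup.centralizer ({t} : Set G)), π a = 1 ↔ (a : G) = 1 ∨ (a : G) = t :=
    fun a => (QuotientGroup.eq_one_iff a).trans (mem_zpowers_iff_pair htt _)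
  have hπe : ∀ a c : ↥(Subgroup.centralizer ({t} : Set G)),
      π a = π c ↔ (a : G) * (c : G)⁻¹ = 1 ∨ (a : G) * (c : G)⁻¹ = t := by
    intro a c
    rw [← mul_inv_eq_one, ← map_inv, ← map_mul, hπ1]
    simp
  have hzC : z ∈ Subgroup.centralizer ({t} : Set G) := Subgroup.mem_centralizer_singleton_iff.mpr hzt
  have hPC : ∀ p ∈ P, p ∈ Subgroup.centralizer ({t} : Set G) := fun p hp => (hP ▸ hp).2
  have hPQ : ∀ p ∈ P, p ∈ Q := fun p hp => (hP ▸ hp).1
  have hzP : z ∈ P := hP ▸ ⟨h.mem, hzC⟩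
  have htP : t ∈ P := hP ▸ ⟨htQ, Subgroup.mem_centralizer_singleton_iff.mpr rfl⟩
  -- centralizing `P` modulo `⟨t⟩`
  have hcentP : ∀ x : G, x * t = t * x →
      (∀ p ∈ P, x * p * x⁻¹ * p⁻¹ = 1 ∨ x * p * x⁻¹ * p⁻¹ = t) →
      x = 1 ∨ x = z ∨ x = t ∨ x = z * t := by
    intro x hxt hx
    have hxz : x * z = z * x := by
      rcases hx z hzP with e | e
      · exact mul_inv_eq_iff_eq_mul.mp (mul_inv_eq_one.mp e)
      · exfalso
        refine hnzt (isConj_iff.mpr ⟨x, ?_⟩)
        rw [hzt]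
        exact mul_inv_eq_iff_eq_mul.mp e
    have hxQ := hCP x hxz hx
    have hcomm : ∀ p ∈ P, p * x = x * p := by
      intro p hp
      rcases hx p hp with e | e
      · exact (mul_inv_eq_iff_eq_mul.mp (mul_inv_eq_one.mp e)).symm
      · exfalso
        rcases h.pair (h.comm hxQ (hPQ p hp)) with e' | e'
        · exact ht1 (e.symm.trans e')
        · exact htz' (e.symm.trans e')
    -- `x` or `x * t` is central in `Q`
    rcases h.pair (h.comm hu₀ hxQ) with e | e
    · refine (h.cent x fun q hq => ?_).imp_right Or.inl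
      have hux : u₀ * x = x * u₀ := mul_inv_eq_iff_eq_mul.mp (mul_inv_eq_one.mp e)
      rcases h.pair (h.comm hq htQ) with e' | e'
      · exact hcomm q (hP ▸ ⟨hq, Subgroup.mem_centralizer_singleton_iff.mpr
          (mul_inv_eq_iff_eq_mul.mp (mul_inv_eq_one.mp e'))⟩)
      · have hmem : u₀⁻¹ * q ∈ P := hP ▸ ⟨Q.mul_mem (Q.inv_mem hu₀) hq,
          Subgroup.mem_centralizer_singleton_iff.mpr (by
            calc u₀⁻¹ * q * t = u₀⁻¹ * (q * t * q⁻¹) * q := by group
              _ = u₀⁻¹ * (u₀ * t * u₀⁻¹) * q := by rw [mul_inv_eq_iff_eq_mul.mp e', hu₀t]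
              _ = t * (u₀⁻¹ * q) := by group)⟩
        calc q * x = u₀ * ((u₀⁻¹ * q) * x) := by group
          _ = (u₀ * x) * (u₀⁻¹ * q) := by rw [hcomm _ hmem]; group
          _ = x * q := by rw [hux]; group
    · have hux : u₀ * x * u₀⁻¹ = z * x := mul_inv_eq_iff_eq_mul.mp e
      have hxt' : ∀ q ∈ Q, q * (x * t) = x * t * q := by
        intro q hq
        rcases h.pair (h.comm hq htQ) with e' | e'
        · have hqt : q * t = t * q := mul_inv_eq_iff_eq_mul.mp (mul_inv_eq_one.mp e')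
          have hqP : q ∈ P := hP ▸ ⟨hq, Subgroup.mem_centralizer_singleton_iff.mpr hqt⟩
          calc q * (x * t) = (q * x) * t := by group
            _ = x * (q * t) := by rw [hcomm q hqP]; group
            _ = x * t * q := by rw [hqt]; group
        · have hmem : u₀⁻¹ * q ∈ P := hP ▸ ⟨Q.mul_mem (Q.inv_mem hu₀) hq,
            Subgroup.mem_centralizer_singleton_iff.mpr (by
              calc u₀⁻¹ * q * t = u₀⁻¹ * (q * t * q⁻¹) * q := by group
                _ = u₀⁻¹ * (u₀ * t * u₀⁻¹) * q := by rw [mul_inv_eq_iff_eq_mul.mp e', hu₀t]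
                _ = t * (u₀⁻¹ * q) := by group)⟩
          have hwt : u₀⁻¹ * q * t = t * (u₀⁻¹ * q) :=
            Subgroup.mem_centralizer_singleton_iff.mp (hPC _ hmem)
          have hu₀xt : u₀ * (x * t) * u₀⁻¹ = x * t := by
            calc u₀ * (x * t) * u₀⁻¹ = (u₀ * x * u₀⁻¹) * (u₀ * t * u₀⁻¹) := by group
              _ = z * (x * z) * t := by rw [hux, hu₀t]; group
              _ = x * t := by rw [hxz, ← mul_assoc z, h.xx, one_mul]
          calc q * (x * t) = u₀ * (((u₀⁻¹ * q) * x) * t) := by group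
            _ = u₀ * (x * ((u₀⁻¹ * q) * t)) := by rw [hcomm _ hmem]; group
            _ = (u₀ * (x * t) * u₀⁻¹) * q := by rw [hwt]; group
            _ = x * t * q := by rw [hu₀xt]
      rcases h.cent _ hxt' with e'' | e''
      · right; right; left
        calc x = x * t * t := by rw [mul_assoc, htt, mul_one]
          _ = t := by rw [e'', one_mul]
      · right; right; right
        calc x = x * t * t := by rw [mul_assoc, htt, mul_one]
          _ = z * t := by rw [e'']
  -- the image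
  set F := (P.subgroupOf (Subgroup.centralizer ({t} : Set G))).map π with hFdef
  have hFm : ∀ p : G, ∀ hp : p ∈ P, π ⟨p, hPC p hp⟩ ∈ F := fun p hp =>
    ⟨⟨p, hPC p hp⟩, Subgroup.mem_subgroupOf.mpr hp, rfl⟩
  set zb' := π ⟨z, hzC⟩ with hzb'
  have hzb1 : zb' ≠ 1 := fun e => by
    rcases (hπ1 _).mp e with e' | e'
    · exact h.xne e'
    · exact htz' e'.symm
  have hFcent : ∀ X, (∀ q ∈ F, q * X = X * q) → X = 1 ∨ X = zb' := by
    intro X hX
    obtain ⟨⟨x, hx⟩, rfl⟩ := QuotientGroup.mk'_surjective N X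
    have hx' : ∀ p ∈ P, x * p * x⁻¹ * p⁻¹ = 1 ∨ x * p * x⁻¹ * p⁻¹ = t := by
      intro p hp
      have := hX _ (hFm p hp)
      rw [← hπ, ← map_mul, ← map_mul, eq_comm, hπe] at this
      simpa [mul_assoc] using this
    rcases hcentP x (Subgroup.mem_centralizer_singleton_iff.mp hx) hx' with e | e | e | e
    · exact Or.inl ((hπ1 _).mpr (Or.inl e))
    · exact Or.inr (by rw [hzb']; congr 1; exact Subtype.ext e)
    · exact Or.inl ((hπ1 _).mpr (Or.inr e))
    · refine Or.inr ((hπe _ _).mpr (Or.inr ?_))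
      show x * z⁻¹ = t
      rw [e, hzt, mul_inv_cancel_right]
  have hFc : ∀ q ∈ F, q * zb' = zb' * q := by
    rintro - ⟨p, hp, rfl⟩
    rw [hzb', ← map_mul, ← map_mul]
    exact congrArg π (Subtype.ext (h.comm_x (p : G) (hPQ _ hp)))
  have hFz : ∀ x y, x ∈ F → y ∈ F → (x * y * x⁻¹ * y⁻¹ = 1 ∨ x * y * x⁻¹ * y⁻¹ = zb') ∧
      (x * x = 1 ∨ x * x = zb') := by
    rintro - - ⟨p, hp, rfl⟩ ⟨p', hp', rfl⟩
    simp only [← map_mul, ← map_inv]
    constructor
    · rcases h.pair (h.comm (hPQ _ hp) (hPQ _ hp')) with e | e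
      · exact Or.inl ((hπ1 _).mpr (Or.inl e))
      · exact Or.inr (congrArg π (Subtype.ext e))
    · rcases h.pair (h.sq (hPQ _ hp)) with e | e
      · exact Or.inl ((hπ1 _).mpr (Or.inl e))
      · exact Or.inr (congrArg π (Subtype.ext e))
  have hzF : zb' ∈ F := hFm z hzP
  -- the order of the image
  have hcard : Nat.card ↥Q ≤ 4 * Nat.card ↥F := by
    have hle : Nat.card ↥Q ≤ 2 * Nat.card ↥P := by
      have hmul := Subgroup.card_mul_index (P.subgroupOf Q)
      rw [Nat.card_congr (Subgroup.subgroupOfEquivOfLe (show P ≤ Q from hPQ)).toEquiv] at hmul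
      have hidx : (P.subgroupOf Q).index ≤ 2 := by
        have hP' : P.subgroupOf Q = Subgroup.centralizer ({(⟨t, htQ⟩ : ↥Q)} : Set ↥Q) := by
          ext x
          rw [Subgroup.mem_subgroupOf, hP, Subgroup.mem_centralizer_singleton_iff]
          exact ⟨fun hx => Subtype.ext (Subgroup.mem_centralizer_singleton_iff.mp hx.2),
            fun hx => ⟨x.2, Subgroup.mem_centralizer_singleton_iff.mpr (congrArg Subtype.val hx)⟩⟩
        rw [hP']
        exact index_centralizer_singleton_le hQ _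
      rw [← hmul, mul_comm]
      exact Nat.mul_le_mul_right _ hidx
    let f : ↥P →* _ := π.comp (Subgroup.inclusion (fun p hp => hPC p hp :
      P ≤ Subgroup.centralizer ({t} : Set G)))
    have hr : f.range = F := by
      ext y
      constructor
      · rintro ⟨p, rfl⟩; exact hFm p p.2
      · rintro ⟨p, hp, rfl⟩; exact ⟨⟨p, hp⟩, rfl⟩
    have hk : Nat.card f.ker ≤ 2 := by
      calc Nat.card f.ker ≤ Nat.card (Subgroup.zpowers t) :=
            Nat.card_le_card_of_injective
              (fun a => (⟨((a : ↥P) : G),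
                (mem_zpowers_iff_pair htt _).mpr ((hπ1 _).mp a.2)⟩ : Subgroup.zpowers t))
              fun a c e => Subtype.ext (Subtype.ext
                (congrArg (fun w : Subgroup.zpowers t => (w : G)) e))
        _ = 2 := by rw [Nat.card_zpowers, ht]
    have hmul := Subgroup.card_mul_index f.ker
    rw [Subgroup.index_ker, hr] at hmul
    calc Nat.card ↥Q ≤ 2 * Nat.card ↥P := hle
      _ = 2 * (Nat.card f.ker * Nat.card ↥F) := by rw [hmul]
      _ ≤ 2 * (2 * Nat.card ↥F) := Nat.mul_le_mul_left _ (Nat.mul_le_mul_right _ hk)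
      _ = 4 * Nat.card ↥F := by ring
  have hFbig : 32 ≤ Nat.card ↥F := by omega
  have hFE : Cfsg.IsExtraspecial 2 ↥F := by
    have hp : IsPGroup 2 ↥F := ((h.isPGroup_two.to_le hPQ).comap_of_injective
      (Subgroup.centralizer ({t} : Set G)).subtype (Subgroup.subtype_injective _)).map π
    have hzc : ∀ X : ↥F, X ∈ Subgroup.center ↥F ↔ X.1 = 1 ∨ X.1 = zb' := by
      intro X
      refine ⟨fun hX => hFcent X fun q hq =>
        congrArg Subtype.val (Subgroup.mem_center_iff.mp hX ⟨q, hq⟩), fun hX => ?_⟩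
      refine Subgroup.mem_center_iff.mpr fun q => Subtype.ext ?_
      rcases hX with e | e
      · simp [e]
      · simp only [Subgroup.coe_mul, e]; exact hFc _ q.2
    have hle : commutator ↥F ≤ Subgroup.center ↥F := by
      rw [commutator_def, Subgroup.commutator_le]
      intro x _ y _
      rw [hzc]
      exact (hFz x y x.2 y.2).1
    obtain ⟨x₀, y₀, hxy⟩ : ∃ x y : ↥F, ⁅x, y⁆ ≠ 1 := by
      by_contra! hcon
      have hsub : ∀ x : ↥F, x.1 = 1 ∨ x.1 = zb' := fun x => (hzc x).mp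
        (Subgroup.mem_center_iff.mpr fun y => commutatorElement_eq_one_iff_mul_comm.mp (hcon y x))
      have h2 : Nat.card ↥F ≤ 2 := by
        classical
        let S : Finset (↥(Subgroup.centralizer ({t} : Set G)) ⧸ N) := {1, zb'}
        calc Nat.card ↥F ≤ Nat.card S :=
              Nat.card_le_card_of_injective
                (fun x : ↥F => (⟨x.1, by simpa [S] using hsub x⟩ : S))
                fun a c e => Subtype.ext (congrArg (fun w : S => w.1) e)
          _ ≤ 2 := by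
              rw [Nat.card_eq_fintype_card, Fintype.card_coe]
              exact Finset.card_le_two
      omega
    have hce : commutator ↥F = Subgroup.center ↥F := by
      refine le_antisymm hle fun X hX => ?_
      rcases (hzc X).mp hX with e | e
      · rw [show X = 1 from Subtype.ext e]; exact one_mem _
      · have : X = ⁅x₀, y₀⁆ := by
          refine Subtype.ext (e.trans ?_)
          rcases (hFz x₀ y₀ x₀.2 y₀.2).1 with e' | e'
          · exact absurd (Subtype.ext e') hxy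
          · exact e'.symm
        rw [this, commutator_def]
        exact Subgroup.commutator_mem_commutator trivial trivial
    refine ⟨⟨hp, le_antisymm (H24.frattini_le_of (p := 2) _ hle fun x => (hzc _).mpr ?_) ?_, hce⟩, ?_⟩
    · rw [SubmonoidClass.coe_pow, pow_two]
      exact (hFz x x x.2 x.2).2
    · rw [← hce]; exact H24.commutator_le_frattini hp
    · refine Nat.card_eq_two_iff.mpr ⟨1, ⟨⟨zb', hzF⟩, (hzc _).mpr (Or.inr rfl)⟩, ?_, ?_⟩
      · exact fun e => hzb1 (congrArg (fun w : Subgroup.center ↥F => w.1.1) e).symm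
      · refine Set.eq_univ_of_forall fun X => ?_
        rcases (hzc _).mp X.2 with e | e
        · exact Or.inl (Subtype.ext (Subtype.ext e))
        · exact Or.inr (Subtype.ext (Subtype.ext e))
  have huC : u ∈ Subgroup.centralizer ({t} : Set G) := hPC u huP
  refine large_of_conjugate (g := (π (⟨v, hvC⟩ * ⟨u, huC⟩))⁻¹) hFE hFbig hzb1 hzF hFcent hFc
    ?_ ?_ ?_
  · intro A hA q hq
    obtain ⟨⟨a, ha⟩, rfl⟩ := QuotientGroup.mk'_surjective N A
    obtain ⟨⟨p, hp⟩, hpP, rfl⟩ := hq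
    have hat : a * t = t * a := Subgroup.mem_centralizer_singleton_iff.mp ha
    have haz : a * z = z * a := by
      rw [hzb', ← hπ, ← map_mul, ← map_mul, hπe] at hA
      rcases hA with e | e
      · exact mul_inv_eq_one.mp e
      · exfalso
        refine hnzt (isConj_iff.mpr ⟨a, ?_⟩)
        have e' : a * z * (z * a)⁻¹ = t := e
        calc a * z * a⁻¹ = (a * z * (z * a)⁻¹) * z := by group
          _ = z * t := by rw [e', hzt]
    rw [← hπ, ← map_inv, ← map_mul, ← map_mul]
    refine ⟨_, Subgroup.mem_subgroupOf.mpr ?_, rfl⟩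
    show a * p * a⁻¹ ∈ P
    rw [hP]
    refine ⟨h.norm a haz p (hPQ p hpP), ?_⟩
    have hai : a⁻¹ ∈ Subgroup.centralizer ({t} : Set G) := inv_mem ha
    exact mul_mem (mul_mem ha hp) hai
  · rw [hzb', ← map_inv, ← map_inv, ← map_mul, ← map_mul]
    have hbP : b ∈ P := hP ▸ ⟨hgQ, Subgroup.mem_centralizer_singleton_iff.mpr hbt⟩
    refine ⟨_, Subgroup.mem_subgroupOf.mpr ?_, rfl⟩
    show (v * u)⁻¹ * z * (v * u)⁻¹⁻¹ ∈ P
    rw [show (v * u)⁻¹ * z * (v * u)⁻¹⁻¹ = b by rw [← hvub]; group]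
    exact hbP
  · rw [hzb', ← map_inv, ← map_inv, ← map_mul, ← map_mul, Ne, hπe]
    have e : (v * u)⁻¹ * z * (v * u)⁻¹⁻¹ = b := by rw [← hvub]; group
    rintro (e' | e')
    · exact o.hne (by
        have e'' : (v * u)⁻¹ * z * (v * u)⁻¹⁻¹ * z⁻¹ = 1 := e'
        rw [e, mul_inv_eq_one] at e''
        exact e'')
    · exact hnzb (by
        have e'' : (v * u)⁻¹ * z * (v * u)⁻¹⁻¹ * z⁻¹ = t := e'
        rw [e, h.x_inv] at e''
        rw [← e'']; exact o.zb.symm)

/-- The image in `(C(A)A)/A` of the centralizer of an odd group `A` in `Q` is large. -/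
theorem large_in_odd_quotient {z : G} (hz : orderOf z = 2) {Q : Subgroup G}
    (hF : (Cfsg.generalizedFittingSubgroup ↥(Subgroup.centralizer ({z} : Set G))).map
      (Subgroup.centralizer ({z} : Set G)).subtype = Q) (hQ : Cfsg.IsExtraspecial 2 ↥Q)
    {A : Subgroup G} (hA : A ≤ Subgroup.centralizer ({z} : Set G)) (hAodd : Odd (Nat.card ↥A))
    {R : Subgroup G} (hR : R = Q ⊓ Subgroup.centralizer (A : Set G)) (hR32 : 32 ≤ Nat.card ↥R)
    (hO : (Cfsg.oddCore ↥(Subgroup.centralizer ((A ⊔ R : Subgroup G) : Set G))).map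
      (Subgroup.centralizer ((A ⊔ R : Subgroup G) : Set G)).subtype ≤ A)
    (h4 : ¬ 4 ∣ Nat.card ↥(Subgroup.centralizer ((A ⊔ R : Subgroup G) : Set G)))
    {g : G} (hgR : g * z * g⁻¹ ∈ R) (hgne : g * z * g⁻¹ ≠ z)
    {M : Subgroup G} (hM : M = Subgroup.centralizer (A : Set G) ⊔ A) [hn : (A.subgroupOf M).Normal] :
    (M ⊓ Subgroup.centralizer ((R ⊔ A : Subgroup G) : Set G)) ⊔ A = A ⊔ Subgroup.zpowers z ∧
    Cfsg.IsLargeExtraspecial ((R.subgroupOf M).map (QuotientGroup.mk' (A.subgroupOf M))) ∧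
    ∃ x ∈ R ⊔ (Q.map (MulAut.conj g).toMonoidHom ⊓ Subgroup.centralizer (A : Set G)),
      x * (g * z * g⁻¹) * x⁻¹ = z := by
  have : Fact (Nat.Prime 2) := ⟨Nat.prime_two⟩
  obtain ⟨h, hZ⟩ := singPt_of_fstar hz hF hQ
  have hRQ : R ≤ Q := hR ▸ inf_le_left
  have hRA : ∀ r ∈ R, ∀ a ∈ A, a * r = r * a := fun r hr a ha => (hR ▸ hr).2 a ha
  have hAz : ∀ a ∈ A, a * z = z * a := fun a ha => Subgroup.mem_centralizer_singleton_iff.mp (hA ha)
  have o : OrthPair Q z g :=
    h.orthPair (by have := Subgroup.card_le_of_le hRQ; omega) (hRQ hgR) hgne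
  set b := g * z * g⁻¹ with hb
  have hzR : z ∈ R := hR ▸ ⟨h.mem, fun a ha => hAz a ha⟩
  have hAb : ∀ a ∈ A, a * b = b * a := hRA b hgR
  have hAQ : A ≤ Subgroup.normalizer (Q : Set G) :=
    OrthPair.le_normalizer_of_conj fun a ha q hq => h.norm a (hAz a ha) q hq
  have hAQ' : A ≤ Subgroup.normalizer (Q.map (MulAut.conj g).toMonoidHom : Set G) :=
    OrthPair.le_normalizer_of_conj fun a ha q hq => o.h'.norm a (hAb a ha) q hq
  have hZA : ∀ {F : Subgroup G} {c : G}, SingPt F c → (∀ a ∈ A, a * c = c * a) →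
      ∀ w ∈ (Subgroup.center ↥F).map F.subtype, ∀ a ∈ A, a * w = w * a := by
    intro F c hF' hc w hw a ha
    rcases hF'.cent w ((mem_centerMap_iff F w).mp hw).2 with rfl | rfl
    · simp
    · exact hc a ha
  obtain ⟨hgen, hcomm⟩ := central_split hQ hAQ hAodd (hZA h hAz)
  obtain ⟨hgen', hcomm'⟩ := central_split o.h'.ext hAQ' hAodd (hZA o.h' hAb)
  rw [← hR] at hgen hcomm
  have hRE : Cfsg.IsExtraspecial 2 ↥R := by
    refine isExtraspecial_of_central_factor hQ hRQ ((sup_comm _ _).trans hgen).ge hcomm ?_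
    intro hle
    rw [hZ] at hle
    have := Subgroup.card_le_of_le hle
    rw [Nat.card_zpowers, hz] at this
    omega
  obtain ⟨u, hu, hub⟩ : ∃ u ∈ R, u * b * u⁻¹ = z * b := by
    by_contra hcon
    push Not at hcon
    have hRc : ∀ r ∈ R, r * b = b * r := by
      intro r hr
      rcases h.pair (h.comm (hRQ hr) (hRQ hgR)) with e | e
      · exact mul_inv_eq_iff_eq_mul.mp (mul_inv_eq_one.mp e)
      · exact absurd (mul_inv_eq_iff_eq_mul.mp e) (hcon r hr)
    have hle : Q ≤ Subgroup.centralizer ({b} : Set G) := by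
      rw [← hgen]
      exact sup_le (fun y hy => Subgroup.mem_centralizer_singleton_iff.mpr (hcomm b hgR y hy).symm)
        (fun r hr => Subgroup.mem_centralizer_singleton_iff.mpr (hRc r hr))
    rcases h.cent b fun q hq => Subgroup.mem_centralizer_singleton_iff.mp (hle hq) with e | e
    · exact o.h'.xne e
    · exact hgne e
  obtain ⟨v, hv, hvz⟩ : ∃ v ∈ Q.map (MulAut.conj g).toMonoidHom ⊓ Subgroup.centralizer (A : Set G),
      v * z * v⁻¹ = z * b := by
    by_contra hcon
    push Not at hcon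
    have hzR' : z ∈ Q.map (MulAut.conj g).toMonoidHom ⊓ Subgroup.centralizer (A : Set G) :=
      ⟨o.hzF, fun a ha => hAz a ha⟩
    have hRc : ∀ r ∈ Q.map (MulAut.conj g).toMonoidHom ⊓ Subgroup.centralizer (A : Set G),
        r * z = z * r := by
      intro r hr
      rcases o.h'.pair (o.h'.comm hr.1 o.hzF) with e | e
      · exact mul_inv_eq_iff_eq_mul.mp (mul_inv_eq_one.mp e)
      · exact absurd ((mul_inv_eq_iff_eq_mul.mp e).trans o.zb.symm) (hcon r hr)
    have hle : Q.map (MulAut.conj g).toMonoidHom ≤ Subgroup.centralizer ({z} : Set G) := by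
      show OrthPair.F' Q g ≤ _
      rw [← hgen']
      exact sup_le (fun y hy => Subgroup.mem_centralizer_singleton_iff.mpr (hcomm' z hzR' y hy).symm)
        (fun r hr => Subgroup.mem_centralizer_singleton_iff.mpr (hRc r hr))
    rcases o.h'.cent z fun q hq => Subgroup.mem_centralizer_singleton_iff.mp (hle hq) with e | e
    · exact h.xne e
    · exact hgne e.symm
  have hvub : v * u * b * (v * u)⁻¹ = z := by
    calc v * u * b * (v * u)⁻¹ = v * (u * b * u⁻¹) * v⁻¹ := by group
      _ = (v * z * v⁻¹) * (v * b * v⁻¹) := by rw [hub]; group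
      _ = z := by
          rw [hvz, mul_inv_eq_iff_eq_mul.mpr (o.h'.comm_x v hv.1), mul_assoc, o.h'.xx, mul_one]
  -- the centralizer of `A R`
  set D := Subgroup.centralizer ((A ⊔ R : Subgroup G) : Set G) with hD
  have hmemD : ∀ {x : G}, (∀ a ∈ A, a * x = x * a) → (∀ r ∈ R, r * x = x * r) → x ∈ D := by
    intro x h1 h2
    have hle : A ⊔ R ≤ Subgroup.centralizer ({x} : Set G) :=
      sup_le (fun a ha => Subgroup.mem_centralizer_singleton_iff.mpr (h1 a ha))
        (fun r hr => Subgroup.mem_centralizer_singleton_iff.mpr (h2 r hr))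
    exact fun y hy => Subgroup.mem_centralizer_singleton_iff.mp (hle hy)
  have hzD : z ∈ D := hmemD hAz fun r hr => h.comm_x r (hRQ hr)
  have hDle : ∀ d ∈ D, d ∈ A ⊔ Subgroup.zpowers z := by
    intro d hd
    have hzo : orderOf (⟨z, hzD⟩ : ↥D) = 2 := by rw [Subgroup.orderOf_mk, hz]
    obtain ⟨P, hP⟩ := (IsPGroup.of_card (p := 2) (n := 1) (G := ↥(Subgroup.zpowers (⟨z, hzD⟩ : ↥D)))
      (by rw [Nat.card_zpowers, hzo, pow_one])).exists_le_sylow
    have hPcard : Nat.card (P : Subgroup ↥D) = 2 := by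
      obtain ⟨k, hk⟩ := IsPGroup.iff_card.mp P.isPGroup'
      have h2 : 2 ∣ Nat.card (P : Subgroup ↥D) := by
        have := Subgroup.card_dvd_of_le hP
        rwa [Nat.card_zpowers, hzo] at this
      rcases Nat.lt_or_ge k 2 with hk2 | hk2
      · interval_cases k
        · rw [hk] at h2; norm_num at h2
        · simpa using hk
      · exact absurd ((Dvd.dvd.trans (by
          rw [hk]; exact pow_dvd_pow 2 hk2) (Subgroup.card_subgroup_dvd_card _))) h4
    obtain ⟨H, hH⟩ := H28.exists_index_two_of_cyclic_sylow (G := ↥D)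
      (even_iff_two_dvd.mpr (hzo ▸ orderOf_dvd_natCard _)) P (isCyclic_of_prime_card (p := 2) hPcard)
    haveI : H.Normal := Subgroup.normal_of_index_eq_two hH
    have hHodd : Odd (Nat.card H) := by
      rw [Nat.odd_iff]
      by_contra hcon
      refine h4 ?_
      rw [← Subgroup.card_mul_index H, hH, show (4 : ℕ) = 2 * 2 from rfl]
      exact Nat.mul_dvd_mul_right (Nat.dvd_of_mod_eq_zero (by omega)) 2
    have hHA : ∀ w : ↥D, w ∈ H → (w : G) ∈ A := fun w hw =>
      hO ⟨w, H19.le_pPrimeCore inferInstance (Nat.coprime_two_right.mpr hHodd) hw, rfl⟩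
    have hzH : (⟨z, hzD⟩ : ↥D) ∉ H := by
      intro hmem
      have := Subgroup.orderOf_dvd_natCard H hmem
      rw [hzo] at this
      exact (Nat.not_even_iff_odd.mpr hHodd) (even_iff_two_dvd.mpr this)
    by_cases hdH : (⟨d, hd⟩ : ↥D) ∈ H
    · exact Subgroup.mem_sup_left (hHA _ hdH)
    · have hmul : (⟨d, hd⟩ : ↥D) * ⟨z, hzD⟩ ∈ H :=
        (Subgroup.mul_mem_iff_of_index_two hH).mpr (iff_of_false hdH hzH)
      have hd' : d = d * z * z := by rw [mul_assoc, h.xx, mul_one]
      rw [hd']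
      exact Subgroup.mul_mem_sup (hHA _ hmul) (Subgroup.mem_zpowers z)
  have hAM : A ≤ M := hM ▸ le_sup_right
  have hCM : Subgroup.centralizer (A : Set G) ≤ M := hM ▸ le_sup_left
  have hRM : ∀ r ∈ R, r ∈ M := fun r hr => hCM (hR ▸ hr).2
  refine ⟨?_, ?_, v * u, ?_, hvub⟩
  · refine le_antisymm (sup_le (fun x hx => hDle x ?_) le_sup_left) (sup_le le_sup_right ?_)
    · exact fun y hy => hx.2 y (by rwa [sup_comm])
    · refine Subgroup.zpowers_le.mpr (Subgroup.mem_sup_left ⟨hRM z hzR, ?_⟩)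
      intro y hy
      exact hzD y (by rwa [sup_comm])
  swap
  · rw [sup_comm]
    exact Subgroup.mul_mem_sup hv hu
  -- the quotient
  set π := QuotientGroup.mk' (A.subgroupOf M) with hπ
  have hπe : ∀ a c : ↥M, π a = π c ↔ (a : G) * (c : G)⁻¹ ∈ A := by
    intro a c
    rw [← mul_inv_eq_one, ← map_inv, ← map_mul]
    exact QuotientGroup.eq_one_iff _
  have hdisj : ∀ x, x ∈ Q → x ∈ A → x = 1 := by
    intro x hx hxA
    have hd : Q ⊓ A = ⊥ := Subgroup.inf_eq_bot_of_coprime (by
      obtain ⟨n, hn⟩ := h.isPGroup_two.exists_card_eq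
      rw [hn]; exact (Nat.coprime_two_left.mpr hAodd).pow_left n)
    exact Subgroup.mem_bot.mp (hd ▸ (⟨hx, hxA⟩ : x ∈ Q ⊓ A))
  let f : ↥R →* ↥M ⧸ A.subgroupOf M := π.comp (Subgroup.inclusion (fun r hr => hRM r hr : R ≤ M))
  have hfinj : Function.Injective f := by
    intro r r' e
    have := (hπe _ _).mp e
    exact Subtype.ext (mul_inv_eq_one.mp
      (hdisj _ (Q.mul_mem (hRQ r.2) (Q.inv_mem (hRQ r'.2))) this))
  set F := (R.subgroupOf M).map π with hFdef
  have hr : f.range = F := by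
    ext y
    constructor
    · rintro ⟨r, rfl⟩; exact ⟨⟨r, hRM r r.2⟩, Subgroup.mem_subgroupOf.mpr r.2, rfl⟩
    · rintro ⟨r, hr', rfl⟩; exact ⟨⟨r, hr'⟩, rfl⟩
  let e : ↥R ≃* ↥F := (MonoidHom.ofInjective hfinj).trans (MulEquiv.subgroupCongr hr)
  have hFE : Cfsg.IsExtraspecial 2 ↥F := H58.isExtraspecial_congr e hRE
  have hFbig : 32 ≤ Nat.card ↥F := by rw [← Nat.card_congr e.toEquiv]; exact hR32
  have hFm : ∀ r : G, ∀ hr : r ∈ R, π ⟨r, hRM r hr⟩ ∈ F := fun r hr =>
    ⟨⟨r, hRM r hr⟩, Subgroup.mem_subgroupOf.mpr hr, rfl⟩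
  -- every coset has a representative centralizing `A`
  have hrep : ∀ X, ∃ c : G, ∃ hc : c ∈ Subgroup.centralizer (A : Set G), X = π ⟨c, hCM hc⟩ := by
    intro X
    obtain ⟨⟨m, hm⟩, rfl⟩ := QuotientGroup.mk'_surjective (A.subgroupOf M) X
    have hnorm : A ≤ Subgroup.normalizer (Subgroup.centralizer (A : Set G) : Set G) :=
      OrthPair.le_normalizer_of_conj fun a ha x hx y hy => by
        have e1 := hx (a⁻¹ * y * a) (mul_mem (mul_mem (inv_mem ha) hy) ha)
        calc y * (a * x * a⁻¹) = a * ((a⁻¹ * y * a) * x) * a⁻¹ := by group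
          _ = a * (x * (a⁻¹ * y * a)) * a⁻¹ := by rw [e1]
          _ = a * x * a⁻¹ * y := by group
    have hm' : m ∈ (↑(Subgroup.centralizer (A : Set G) ⊔ A) : Set G) := by rw [← hM]; exact hm
    rw [Subgroup.coe_mul_of_right_le_normalizer_left _ _ hnorm] at hm'
    obtain ⟨c, hc, a, ha, hca⟩ := hm'
    refine ⟨c, hc, (hπe _ _).mpr ?_⟩
    show m * c⁻¹ ∈ A
    rw [← hca, show c * a * c⁻¹ = a by rw [← hc a ha, mul_inv_cancel_right]]
    exact ha
  -- `A` kills commutators of `C(A)` with `R`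
  have hkey : ∀ c ∈ Subgroup.centralizer (A : Set G), ∀ r ∈ R, ∀ r' ∈ R,
      c * r * c⁻¹ * r'⁻¹ ∈ A → c * r * c⁻¹ = r' := by
    intro c hc r hr r' hr' hα
    set α := c * r * c⁻¹ * r'⁻¹ with hαdef
    have hcomm : Commute α r' := hRA r' hr' α hα
    have hord : ∀ q ∈ Q, q ^ 4 = 1 := fun q hq => by
      have e : q ^ 4 = (q * q) * (q * q) := by rw [show (4 : ℕ) = 2 * 2 from rfl, pow_mul, pow_two, pow_two]
      rcases h.pair (h.sq hq) with e' | e' <;> rw [e, e']
      exacts [one_mul 1, h.xx]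
    have h1 : (c * r * c⁻¹) ^ 4 = 1 := by rw [conj_pow, hord r (hRQ hr), mul_one, mul_inv_cancel]
    rw [show c * r * c⁻¹ = α * r' by rw [hαdef]; group, hcomm.mul_pow, hord r' (hRQ hr'), mul_one] at h1
    have h2 : orderOf α ∣ Nat.card A := Subgroup.orderOf_dvd_natCard A hα
    have h3 : α = 1 := orderOf_eq_one_iff.mp (Nat.eq_one_of_dvd_coprimes
      ((Nat.coprime_two_left.mpr hAodd).pow_left 2) (orderOf_dvd_of_pow_eq_one h1) h2)
    rw [hαdef, mul_inv_eq_one] at h3
    exact h3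
  have hFcent : ∀ X, (∀ q ∈ F, q * X = X * q) → X = 1 ∨ X = π ⟨z, hRM z hzR⟩ := by
    intro X hX
    obtain ⟨c, hc, rfl⟩ := hrep X
    have hcD : c ∈ D := hmemD (fun a ha => hc a ha) fun r hr => by
      have e1 := hX _ (hFm r hr)
      rw [← map_mul, ← map_mul, eq_comm, hπe] at e1
      have e2 := hkey c hc r hr r hr (by simpa [mul_assoc] using e1)
      calc r * c = (c * r * c⁻¹) * c := by rw [e2]
        _ = c * r := by group
    have hsup := hDle c hcD
    have hzA : Subgroup.zpowers z ≤ Subgroup.normalizer (A : Set G) := by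
      rw [Subgroup.zpowers_le]
      refine Subgroup.mem_normalizer_fintype fun a ha => ?_
      rw [← hAz a ha, mul_inv_cancel_right]; exact ha
    rw [← SetLike.mem_coe, Subgroup.coe_mul_of_right_le_normalizer_left _ _ hzA] at hsup
    obtain ⟨a, ha, w, hw, haw⟩ := hsup
    rcases h.pair hw with e' | e'
    · left
      refine (QuotientGroup.eq_one_iff _).mpr ?_
      show c ∈ A
      rw [← haw, e']; simpa using ha
    · right
      rw [hπe]
      show c * z⁻¹ ∈ A
      rw [← haw, e']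
      simpa using ha
  have hvA : v ∈ Subgroup.centralizer (A : Set G) := hv.2
  have huM : u ∈ M := hRM u hu
  refine large_of_conjugate (g := (π (⟨v, hCM hvA⟩ * ⟨u, huM⟩))⁻¹) hFE hFbig ?_ (hFm z hzR) hFcent
    ?_ ?_ ?_ ?_
  · intro e
    exact h.xne (hdisj z h.mem (Subgroup.mem_subgroupOf.mp ((QuotientGroup.eq_one_iff _).mp e)))
  · rintro - ⟨r, hr', rfl⟩
    rw [← map_mul, ← map_mul]
    exact congrArg π (Subtype.ext (h.comm_x (r : G) (hRQ hr')))
  · intro X hX q hq
    obtain ⟨c, hc, rfl⟩ := hrep X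
    obtain ⟨⟨r, hrM⟩, hr', rfl⟩ := hq
    rw [← map_mul, ← map_mul, hπe] at hX
    have hcz : c * z * c⁻¹ = z := hkey c hc z hzR z hzR (by simpa [mul_assoc] using hX)
    have hmem : c * r * c⁻¹ ∈ R := by
      rw [hR]
      refine ⟨h.norm c (mul_inv_eq_iff_eq_mul.mp hcz) r (hRQ hr'), ?_⟩
      exact (Subgroup.centralizer (A : Set G)).mul_mem ((Subgroup.centralizer (A : Set G)).mul_mem hc (hR ▸ hr' : r ∈ Q ⊓ Subgroup.centralizer (A : Set G)).2) ((Subgroup.centralizer (A : Set G)).inv_mem hc)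
    rw [← map_inv, ← map_mul, ← map_mul]
    exact ⟨_, Subgroup.mem_subgroupOf.mpr hmem, rfl⟩
  · rw [← map_inv, ← map_inv, ← map_mul, ← map_mul]
    refine ⟨_, Subgroup.mem_subgroupOf.mpr ?_, rfl⟩
    show (v * u)⁻¹ * z * (v * u)⁻¹⁻¹ ∈ R
    rw [show (v * u)⁻¹ * z * (v * u)⁻¹⁻¹ = b by rw [← hvub]; group]
    exact hgR
  · rw [← map_inv, ← map_inv, ← map_mul, ← map_mul, Ne, hπe]
    intro e'
    have e'' : (v * u)⁻¹ * z * (v * u)⁻¹⁻¹ * z⁻¹ ∈ A := e'
    rw [show (v * u)⁻¹ * z * (v * u)⁻¹⁻¹ = b by rw [← hvub]; group] at e''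
    exact hgne (mul_inv_eq_one.mp (hdisj _ (Q.mul_mem (hRQ hgR) (Q.inv_mem h.mem)) e''))

end Cfsg.Agent.H18
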