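import Cfsg.Agent.H18.LargeExtraspecial
import Cfsg.Agent.H51.FStar
import Cfsg.Agent.H24.PGroupBasic
import Cfsg.Agent.S5433

/-! Simplicity criteria from a large extraspecial 2-subgroup. -/

set_option autoImplicit false

namespace Cfsg.Agent.H18

variable {G : Type*} [Group G] [Finite G]

/-- The first three conditions of largeness from the generalized Fitting subgroup of an
involution centralizer. -/
theorem fstar_conditions {z : G} (hz : orderOf z = 2) {Q : Subgroup G}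
    (hF : (Cfsg.generalizedFittingSubgroup ↥(Subgroup.centralizer ({z} : Set G))).map
      (Subgroup.centralizer ({z} : Set G)).subtype = Q) (hQ : Cfsg.IsExtraspecial 2 ↥Q) :
    z ∈ Q ∧ (Subgroup.center ↥Q).map Q.subtype = Subgroup.zpowers z ∧
      Subgroup.centralizer (Q : Set G) = (Subgroup.center ↥Q).map Q.subtype ∧
      Subgroup.centralizer (((Subgroup.center ↥Q).map Q.subtype : Subgroup G) : Set G) ≤
        Subgroup.normalizer (Q : Set G) := by
  set C := Subgroup.centralizer ({z} : Set G) with hC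
  have hzC : z ∈ C := Subgroup.mem_centralizer_singleton_iff.mpr rfl
  have hsc := H51.centralizer_generalizedFitting_le ↥C
  have hzF : (⟨z, hzC⟩ : C) ∈ Cfsg.generalizedFittingSubgroup ↥C :=
    hsc fun w _ => Subtype.ext (Subgroup.mem_centralizer_singleton_iff.mp w.2)
  have hQC : ∀ q ∈ Q, q * z = z * q := by
    intro q hq
    rw [← hF] at hq
    obtain ⟨w, -, rfl⟩ := hq
    exact Subgroup.mem_centralizer_singleton_iff.mp w.2
  have hzQ : z ∈ Q := hF ▸ ⟨_, hzF, rfl⟩
  obtain ⟨c, -, -, hZc, hmem⟩ := centerMap_eq_pair Q hQ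
  have hz1 : z ≠ 1 := fun h => by rw [h, orderOf_one] at hz; omega
  have hzc : z = c := ((hmem z).mp ((mem_centerMap_iff Q z).mpr ⟨hzQ, hQC⟩)).resolve_left hz1
  subst hzc
  refine ⟨hzQ, hZc, le_antisymm (fun x hx => ?_) ?_, ?_⟩
  · have hxC : x ∈ C := Subgroup.mem_centralizer_singleton_iff.mpr (hx z hzQ).symm
    have hxF : (⟨x, hxC⟩ : C) ∈ Cfsg.generalizedFittingSubgroup ↥C :=
      hsc fun w hw => Subtype.ext (hx (w : G) (hF ▸ ⟨w, hw, rfl⟩))
    exact (mem_centerMap_iff Q x).mpr ⟨hF ▸ ⟨_, hxF, rfl⟩, hx⟩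
  · intro x hx y hy
    exact ((mem_centerMap_iff Q x).mp hx).2 y hy
  · intro a ha
    have haC : a ∈ C :=
      Subgroup.mem_centralizer_singleton_iff.mpr (ha z ((hmem z).mpr (Or.inr rfl))).symm
    have hn := H51.generalizedFittingSubgroup_normal ↥C
    refine Subgroup.mem_normalizer_fintype fun q hq => ?_
    rw [← hF] at hq ⊢
    obtain ⟨w, hw, rfl⟩ := hq
    exact ⟨⟨a, haC⟩ * w * (⟨a, haC⟩)⁻¹, hn.conj_mem _ hw _, rfl⟩

variable {Q : Subgroup G} {z : G}

/-- A non-trivial normal subgroup contains the central involution. -/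
theorem mem_of_normal_ne_bot (hQ : Cfsg.IsLargeExtraspecial Q)
    (hZ : (Subgroup.center ↥Q).map Q.subtype = Subgroup.zpowers z) (hz : orderOf z = 2)
    (N : Subgroup G) [N.Normal] (hN : N ≠ ⊥) : z ∈ N := by
  have : Fact (Nat.Prime 2) := ⟨Nat.prime_two⟩
  obtain ⟨hE, hC, -, hK⟩ := hQ
  have h2 : 2 ∣ Nat.card N := by
    by_contra h
    exact hN (hK N (Nat.odd_iff.mpr (Nat.two_dvd_ne_zero.mp h))
      (le_top.trans (Subgroup.normalizer_eq_top N).ge))
  obtain ⟨P, hP⟩ := hE.1.1.exists_le_sylow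
  have hZP := centerMap_eq_of_le_twoGroup Q P hE hC hP P.isPGroup'
  obtain ⟨⟨t, ht⟩, ht2⟩ := exists_prime_orderOf_dvd_card' 2 h2
  rw [Subgroup.orderOf_mk] at ht2
  obtain ⟨S, hS⟩ := (IsPGroup.of_card (n := 1) (G := ↥(Subgroup.zpowers t))
    (by rw [Nat.card_zpowers, ht2, pow_one])).exists_le_sylow
  obtain ⟨g, hg⟩ := MulAction.exists_smul_eq G S P
  have htP : g * t * g⁻¹ ∈ (P : Subgroup G) := by
    rw [← hg]
    exact ⟨t, hS (Subgroup.mem_zpowers t), rfl⟩
  have ht' : g * t * g⁻¹ ∈ N := ‹N.Normal›.conj_mem t ht g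
  have hne : g * t * g⁻¹ ≠ 1 := fun e => by
    rw [conj_eq_one_iff.mp e, orderOf_one] at ht2; omega
  have hNP : N.subgroupOf (P : Subgroup G) ≠ ⊥ := fun e => by
    have h : (⟨g * t * g⁻¹, htP⟩ : (P : Subgroup G)) ∈ N.subgroupOf (P : Subgroup G) :=
      Subgroup.mem_subgroupOf.mpr ht'
    rw [e, Subgroup.mem_bot] at h
    exact hne (congrArg Subtype.val h)
  obtain ⟨⟨w, hwN⟩, hwc, hw1⟩ : ∃ w : N.subgroupOf (P : Subgroup G),
      ((w : (P : Subgroup G)) ∈ Subgroup.center ↥(P : Subgroup G)) ∧ (w : (P : Subgroup G)) ≠ 1 := by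
    by_contra! hcon
    have hbot : N.subgroupOf (P : Subgroup G) ⊓ Subgroup.center ↥(P : Subgroup G) = ⊥ := by
      rw [eq_bot_iff]
      intro w hw
      exact Subgroup.mem_bot.mpr (hcon ⟨w, hw.1⟩ hw.2)
    exact H24.inf_center_ne_bot P.isPGroup' hNP hbot
  have hwZ : ((w : (P : Subgroup G)) : G) ∈ Subgroup.zpowers z := by
    rw [← hZ, ← hZP]; exact ⟨w, hwc, rfl⟩
  have hpair : (Subgroup.zpowers z : Set G) ⊆ {1, z} := by
    rintro x ⟨k, rfl⟩
    have h1 : z ^ (2 : ℤ) = 1 := by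
      rw [zpow_ofNat, ← hz, pow_orderOf_eq_one]
    rcases Int.even_or_odd k with ⟨l, rfl⟩ | ⟨l, rfl⟩
    · left; show z ^ (l + l) = 1
      rw [← two_mul, zpow_mul, h1, one_zpow]
    · right; show z ^ (2 * l + 1) = z
      rw [zpow_add, zpow_mul, h1, one_zpow, one_mul, zpow_one]
  rcases hpair hwZ with e | e
  · exact absurd (Subtype.ext e) hw1
  · rw [← e]; exact hwN

/-- A normal subgroup containing the centralizer of the central involution is everything. -/
theorem eq_top_of_sup_centralizer (hQ : Cfsg.IsLargeExtraspecial Q)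
    (hZ : (Subgroup.center ↥Q).map Q.subtype = Subgroup.zpowers z) (hz : orderOf z = 2)
    (N : Subgroup G) [N.Normal] (hQN : Q ≤ N) :
    N ⊔ Subgroup.centralizer ({z} : Set G) = ⊤ := by
  rw [eq_top_iff, ← S5433.result Q hQ N hQN]
  refine sup_le le_sup_left (le_sup_of_le_right fun n hn => ?_)
  obtain ⟨c, hc1, -, hZc, hmem⟩ := centerMap_eq_pair Q hQ.1
  have hzZ : z ∈ (Subgroup.center ↥Q).map Q.subtype := hZ ▸ Subgroup.mem_zpowers z
  have hz1 : z ≠ 1 := fun h => by rw [h, orderOf_one] at hz; omega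
  have hzc : z = c := ((hmem z).mp hzZ).resolve_left hz1
  subst hzc
  have hzQ := (mem_centerMap_iff Q z).mp hzZ
  have hm : n * z * n⁻¹ ∈ (Subgroup.center ↥Q).map Q.subtype := by
    refine (mem_centerMap_iff Q _).mpr
      ⟨(Subgroup.mem_normalizer_iff.mp hn z).mp hzQ.1, fun y hy => ?_⟩
    have h' : n⁻¹ * y * n ∈ Q :=
      (Subgroup.mem_normalizer_iff.mp hn _).mpr (by simpa [mul_assoc] using hy)
    calc y * (n * z * n⁻¹) = n * ((n⁻¹ * y * n) * z) * n⁻¹ := by group
      _ = n * (z * (n⁻¹ * y * n)) * n⁻¹ := by rw [hzQ.2 _ h']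
      _ = n * z * n⁻¹ * y := by group
  rcases (hmem _).mp hm with e | e
  · exact absurd (conj_eq_one_iff.mp e) hz1
  · exact Subgroup.mem_centralizer_singleton_iff.mpr (mul_inv_eq_iff_eq_mul.mp e)

end Cfsg.Agent.H18
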