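import Cfsg.Agent.H18.LargeSimple
import Cfsg.Agent.H18.Singular.Util
import Cfsg.Agent.H19.Cores
import Cfsg.Agent.H19.Fitting
import Cfsg.Agent.H75.SylowGraph
import Cfsg.Agent.S0542
import Cfsg.Agent.S0219

/-! The structure of a group with a large extraspecial 2-subgroup. -/

set_option autoImplicit false

namespace Cfsg.Agent.H18

open scoped commutatorElement

variable {G : Type*} [Group G] [Finite G] {Q : Subgroup G} {z : G}

/-- What the centre of a large extraspecial subgroup looks like. -/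
theorem large_center (hQ : Cfsg.IsExtraspecial 2 ↥Q)
    (hZ : (Subgroup.center ↥Q).map Q.subtype = Subgroup.zpowers z) :
    z ≠ 1 ∧ orderOf z = 2 ∧ z ∈ Q ∧ (∀ q ∈ Q, q * z = z * q) ∧
      ∀ x, x ∈ Subgroup.zpowers z → x = 1 ∨ x = z := by
  obtain ⟨c, hc1, hco, hcZ, hmem⟩ := centerMap_eq_pair Q hQ
  have hc : c = z := by
    have h1 : c ∈ Subgroup.zpowers z := hZ ▸ (hmem c).mpr (Or.inr rfl)
    rcases (hmem z).mp (hZ.symm ▸ Subgroup.mem_zpowers z) with e | e
    · rw [e, Subgroup.zpowers_one_eq_bot, Subgroup.mem_bot] at h1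
      exact absurd h1 hc1
    · exact e.symm
  subst hc
  have h := (mem_centerMap_iff Q c).mp ((hmem c).mpr (Or.inr rfl))
  exact ⟨hc1, hco, h.1, h.2, fun x hx => (hmem x).mp (hZ ▸ hx)⟩

/-- A non-trivial subgroup normalized by a large extraspecial subgroup contains its central
involution. -/
theorem mem_of_normalized (hQ : Cfsg.IsLargeExtraspecial Q)
    (hZ : (Subgroup.center ↥Q).map Q.subtype = Subgroup.zpowers z)
    (N : Subgroup G) (hQN : Q ≤ Subgroup.normalizer (N : Set G)) (hN : N ≠ ⊥) : z ∈ N := by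
  have : Fact (Nat.Prime 2) := ⟨Nat.prime_two⟩
  obtain ⟨hz1, hz, -, -, hpair⟩ := large_center hQ.1 hZ
  obtain ⟨hE, hC, -, hK⟩ := hQ
  have h2 : 2 ∣ Nat.card N := by
    by_contra h
    exact hN (hK N (Nat.odd_iff.mpr (Nat.two_dvd_ne_zero.mp h)) hQN)
  set K := Subgroup.normalizer (N : Set G) with hKdef
  have hNK : N ≤ K := Subgroup.le_normalizer
  haveI hn : (N.subgroupOf K).Normal := Subgroup.normal_subgroupOf_of_le_normalizer le_rfl
  obtain ⟨P, hP⟩ := (hE.1.1.of_equiv (Subgroup.subgroupOfEquivOfLe hQN).symm).exists_le_sylow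
  set S := (P : Subgroup ↥K).map K.subtype with hS
  have hQS : Q ≤ S := fun q hq => ⟨⟨q, hQN hq⟩, hP hq, rfl⟩
  have hS2 : IsPGroup 2 ↥S := P.isPGroup'.map _
  have hZS := centerMap_eq_of_le_twoGroup Q S hE hC hQS hS2
  have h2' : 2 ∣ Nat.card (N.subgroupOf K) := by
    rwa [Nat.card_congr (Subgroup.subgroupOfEquivOfLe hNK).toEquiv]
  have hne := H75.inf_sylow_ne_bot (N.subgroupOf K) h2' P
  obtain ⟨⟨w, hwP, hwN⟩, hw1⟩ := Subgroup.ne_bot_iff_exists_ne_one.mp hne
  set T := N.subgroupOf S with hT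
  haveI : T.Normal := Subgroup.normal_subgroupOf_of_le_normalizer (fun s hs => by
    obtain ⟨k, -, rfl⟩ := hs
    exact k.2)
  have hT1 : T ≠ ⊥ := fun e => hw1 (by
    have h : (⟨(w : G), ⟨w, hwP, rfl⟩⟩ : ↥S) ∈ T :=
      Subgroup.mem_subgroupOf.mpr (Subgroup.mem_subgroupOf.mp hwN)
    rw [e, Subgroup.mem_bot] at h
    have h' : (w : G) = 1 := congrArg Subtype.val h
    exact Subtype.ext (Subtype.ext h'))
  obtain ⟨v, hv1⟩ := Subgroup.ne_bot_iff_exists_ne_one.mp (H24.inf_center_ne_bot hS2 hT1)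
  have hvZ : ((v : ↥S) : G) ∈ Subgroup.zpowers z := by
    rw [← hZ, ← hZS]; exact ⟨v, v.2.2, rfl⟩
  rcases hpair _ hvZ with e | e
  · exact absurd (Subtype.ext (Subtype.ext e)) hv1
  · rw [← e]; exact v.2.1

/-- Largeness kills the odd core. -/
theorem pPrimeCore_eq_bot (hQ : Cfsg.IsLargeExtraspecial Q) : Cfsg.pPrimeCore 2 G = ⊥ := by
  have hn := H19.pPrimeCore_normal (G := G) 2
  exact hQ.2.2.2 _ (Nat.coprime_two_right.mp (H19.pPrimeCore_coprime 2))
    (le_top.trans (Subgroup.normalizer_eq_top _).ge)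

/-- If the central involution is in `O₂`, its normal closure is abelian and `F* = O₂`. -/
theorem structure_of_mem_pCore (hQ : Cfsg.IsLargeExtraspecial Q)
    (hZ : (Subgroup.center ↥Q).map Q.subtype = Subgroup.zpowers z) (hzR : z ∈ Cfsg.pCore 2 G) :
    IsMulCommutative ↥(Subgroup.normalClosure ({z} : Set G)) ∧
      Cfsg.generalizedFittingSubgroup G = Cfsg.pCore 2 G := by
  have : Fact (Nat.Prime 2) := ⟨Nat.prime_two⟩
  obtain ⟨hz1, hz, hzQ, hzc, hpair⟩ := large_center hQ.1 hZ
  have hO := pPrimeCore_eq_bot hQ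
  obtain ⟨hE, hC, hN, -⟩ := hQ
  have hRn := H19.pCore_normal (G := G) 2
  obtain ⟨S, hS⟩ := hE.1.1.exists_le_sylow
  have hZS := centerMap_eq_of_le_twoGroup Q S hE hC hS S.isPGroup'
  have hzS := (mem_centerMap_iff (S : Subgroup G) z).mp (hZS ▸ hZ ▸ Subgroup.mem_zpowers z)
  have hzCR : z ∈ Subgroup.centralizer (Cfsg.pCore 2 G : Set G) :=
    fun r hr => hzS.2 r (H19.pCore_le_sylow S hr)
  have hMR : Subgroup.normalClosure ({z} : Set G) ≤ Cfsg.pCore 2 G :=
    Subgroup.normalClosure_le_normal (Set.singleton_subset_iff.mpr hzR)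
  have hMC : Subgroup.normalClosure ({z} : Set G) ≤ Subgroup.centralizer (Cfsg.pCore 2 G : Set G) :=
    Subgroup.normalClosure_le_normal (Set.singleton_subset_iff.mpr hzCR)
  refine ⟨⟨⟨fun a b => Subtype.ext ?_⟩⟩, ?_⟩
  · exact (hMC b.2 a (hMR a.2))
  -- the layer is trivial
  have hF : Cfsg.fittingSubgroup G = Cfsg.pCore 2 G := H19.fitting_eq_pCore_of_pPrimeCore_eq_bot hO
  have hL : Cfsg.layer G = ⊥ := by
    have hEz : Cfsg.layer G ≤ Subgroup.normalizer (Q : Set G) := by
      refine le_trans ?_ hN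
      intro e he y hy
      rw [hZ] at hy
      have hcom := Subgroup.commutator_eq_bot_iff_le_centralizer.mp
        (H51.layer_commute_fittingSubgroup G) he
      rcases hpair y hy with rfl | rfl
      · simp
      · exact hcom y (hF.symm ▸ hzR)
    haveI := H51.layer_normal G
    have hQE : ⁅Cfsg.layer G, Q⁆ ≤ Cfsg.layer G ⊓ Q := by
      rw [Subgroup.commutator_le]
      intro e he q hq
      refine ⟨?_, ?_⟩
      · rw [commutatorElement_def, show e * q * e⁻¹ * q⁻¹ = e * (q * e⁻¹ * q⁻¹) by group]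
        exact mul_mem he (‹(Cfsg.layer G).Normal›.conj_mem _ (inv_mem he) q)
      · rw [commutatorElement_def]
        exact Q.mul_mem ((Subgroup.mem_normalizer_iff.mp (hEz he) q).mp hq) (Q.inv_mem hq)
    have hcent : ⁅Cfsg.layer G ⊓ Q, Cfsg.layer G⁆ = ⊥ := H51.commutator_layer_eq_bot fun L hL => by
      have hLn : L ≤ Subgroup.normalizer ((Cfsg.layer G ⊓ Q : Subgroup G) : Set G) := by
        intro l hl
        have hle := H51.component_le_layer hL hl
        refine Subgroup.mem_normalizer_fintype fun x hx => ⟨?_, ?_⟩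
        · exact ‹(Cfsg.layer G).Normal›.conj_mem x hx.1 l
        · exact (Subgroup.mem_normalizer_iff.mp (hEz hle) x).mp hx.2
      have hsol : Group.IsSolvable ↥(Cfsg.layer G ⊓ Q) := by
        have := (hE.1.1.to_le (inf_le_right : Cfsg.layer G ⊓ Q ≤ Q)).isNilpotent
        infer_instance
      rw [Subgroup.commutator_comm]
      exact H51.component_commute_of_solvable hL hLn hsol
    have hQEC : ⁅⁅Cfsg.layer G, Cfsg.layer G⁆, Q⁆ = ⊥ := by
      refine Subgroup.commutator_commutator_eq_bot_of_rotate ?_ ?_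
      · exact le_bot_iff.mp ((Subgroup.commutator_mono hQE le_rfl).trans hcent.le)
      · refine le_bot_iff.mp ((Subgroup.commutator_mono ?_ le_rfl).trans hcent.le)
        rw [Subgroup.commutator_comm]; exact hQE
    rw [H51.layer_commutator_self, Subgroup.commutator_eq_bot_iff_le_centralizer, hC, hZ] at hQEC
    have hab : ⁅Cfsg.layer G, Cfsg.layer G⁆ = ⊥ := by
      rw [Subgroup.commutator_eq_bot_iff_le_centralizer]
      intro a ha b hb
      rcases hpair a (hQEC ha) with rfl | rfl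
      · simp
      · rcases hpair b (hQEC hb) with rfl | rfl <;> simp
    rwa [H51.layer_commutator_self] at hab
  rw [H51.generalizedFitting_eq_fitting_of_layer_eq_bot hL, hF]

omit [Finite G] in
/-- Factorizations along two commuting subgroups meeting trivially are unique. -/
theorem factor_unique {L K : Subgroup G} (hd : L ⊓ K = ⊥) {l l' k k' : G} (hl : l ∈ L) (hl' : l' ∈ L)
    (hk : k ∈ K) (hk' : k' ∈ K) (e : l * k = l' * k') : l = l' := by
  have h : l'⁻¹ * l ∈ L ⊓ K := by
    refine ⟨L.mul_mem (L.inv_mem hl') hl, ?_⟩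
    have : l'⁻¹ * l = k' * k⁻¹ := by
      calc l'⁻¹ * l = l'⁻¹ * (l * k) * k⁻¹ := by group
        _ = k' * k⁻¹ := by rw [e]; group
    rw [this]; exact K.mul_mem hk' (K.inv_mem hk)
  rw [hd, Subgroup.mem_bot, inv_mul_eq_one] at h
  exact h.symm

omit [Finite G] in
/-- The conjugate of a subgroup by a group element. -/
abbrev cnj (L : Subgroup G) (g : G) : Subgroup G := L.map (MulAut.conj g).toMonoidHom

omit [Finite G] in
theorem mem_cnj_iff {L : Subgroup G} {g x : G} : x ∈ cnj L g ↔ g⁻¹ * x * g ∈ L := by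
  constructor
  · rintro ⟨l, hl, rfl⟩; simpa [mul_assoc] using hl
  · exact fun h => ⟨_, h, by simp [mul_assoc]⟩

omit [Finite G] in
theorem cnj_cnj (L : Subgroup G) (g h : G) : cnj (cnj L h) g = cnj L (g * h) := by
  ext x
  simp only [mem_cnj_iff, mul_inv_rev, mul_assoc]

omit [Finite G] in
theorem cnj_one (L : Subgroup G) : cnj L 1 = L := by
  ext x; simp [mem_cnj_iff]

omit [Finite G] in
theorem cnj_eq_self_of_mem_normalizer {L : Subgroup G} {g : G}
    (hg : g ∈ Subgroup.normalizer (L : Set G)) : cnj L g = L := by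
  ext x
  rw [mem_cnj_iff]
  exact (Subgroup.mem_normalizer_iff''.mp hg x).symm

/-- The case of a large extraspecial subgroup with central involution outside `O₂`. -/
theorem structure_of_not_mem_pCore (hQ : Cfsg.IsLargeExtraspecial Q)
    (hZ : (Subgroup.center ↥Q).map Q.subtype = Subgroup.zpowers z) (hzR : z ∉ Cfsg.pCore 2 G)
    (M : Subgroup G) (hM : M = Subgroup.normalClosure ({z} : Set G)) :
    (M = Cfsg.generalizedFittingSubgroup G ∧ IsSimpleGroup ↥M ∧ ¬ IsMulCommutative ↥M) ∨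
    (M = Cfsg.generalizedFittingSubgroup G ∧ ∃ (L : Subgroup G) (u : G), u ∈ Q ∧ IsSimpleGroup ↥L ∧
      ¬ IsMulCommutative ↥L ∧ L ⊓ cnj L u = ⊥ ∧
      (∀ x ∈ L, ∀ y ∈ cnj L u, x * y = y * x) ∧ L ⊔ cnj L u = M ∧
      ∃ z₁ ∈ L, z = z₁ * (u * z₁ * u⁻¹) ∧
        (∃ R : Sylow 2 ↥L, (R : Subgroup ↥L) = (Subgroup.centralizer ({z₁} : Set G)).subgroupOf L ∧
          (frattini ↥(R : Subgroup ↥L)).map ((L.subtype).comp (R : Subgroup ↥L).subtype) ≤
            Subgroup.zpowers z₁) ∧
        Q ≠ (Cfsg.pCore 2 ↥(Subgroup.centralizer ({z} : Set G))).map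
          (Subgroup.centralizer ({z} : Set G)).subtype) := by
  classical
  have : Fact (Nat.Prime 2) := ⟨Nat.prime_two⟩
  obtain ⟨hz1, hz, hzQ, hzc, hpair⟩ := large_center hQ.1 hZ
  haveI hMn : M.Normal := hM ▸ inferInstance
  have hzM : z ∈ M := hM ▸ Subgroup.subset_normalClosure rfl
  have hMmin : ∀ N : Subgroup G, N.Normal → N ≠ ⊥ → M ≤ N := fun N hN hne => by
    rw [hM]
    exact Subgroup.normalClosure_le_normal (Set.singleton_subset_iff.mpr
      (mem_of_normalized hQ hZ N (le_top.trans (Subgroup.normalizer_eq_top N).ge) hne))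
  have hR0 : Cfsg.pCore 2 G = ⊥ := by
    by_contra h
    exact hzR (hMmin _ (H19.pCore_normal 2 G) h hzM)
  have hF0 : Cfsg.fittingSubgroup G = ⊥ := by
    rw [H19.fitting_eq_pCore_of_pPrimeCore_eq_bot (pPrimeCore_eq_bot hQ), hR0]
  have hMne : M ≠ ⊥ := fun e => hz1 (Subgroup.mem_bot.mp (e ▸ hzM))
  have hMab : ¬ (∀ a ∈ M, ∀ b ∈ M, a * b = b * a) := by
    intro h
    refine hMne (le_bot_iff.mp (hF0 ▸ H51.le_fittingSubgroup_of_commutative hMn ?_))
    exact Subgroup.commutator_eq_bot_iff_le_centralizer.mpr fun a ha b hb => (h a ha b hb).symm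
  have hzMc : z ∉ Subgroup.centralizer (M : Set G) := by
    intro h
    haveI : (Subgroup.centralizer (M : Set G)).Normal := inferInstance
    have hle : M ≤ Subgroup.centralizer (M : Set G) :=
      hM ▸ Subgroup.normalClosure_le_normal (Set.singleton_subset_iff.mpr (hM ▸ h))
    exact hMab fun a ha b hb => (hle hb a ha)
  have hCM : Subgroup.centralizer (M : Set G) = ⊥ := by
    by_contra h
    exact hzMc (hMmin _ inferInstance h hzM)
  -- a minimal non-trivial normal subgroup of `M`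
  obtain ⟨L, ⟨hLM, hMLn, hLne⟩, hLmin⟩ := Set.Finite.exists_minimal
    (Set.toFinite {L : Subgroup G | L ≤ M ∧ M ≤ Subgroup.normalizer (L : Set G) ∧ L ≠ ⊥})
    ⟨M, le_rfl, Subgroup.le_normalizer, hMne⟩
  have hmin : ∀ g : G, ∀ N : Subgroup G, N ≤ cnj L g → M ≤ Subgroup.normalizer (N : Set G) →
      N = ⊥ ∨ N = cnj L g := by
    intro g N hN hMN
    by_cases hne : N = ⊥
    · exact Or.inl hne
    right
    refine le_antisymm hN ?_
    have h1 : cnj N g⁻¹ ≤ L := by
      intro x hx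
      have := hN (mem_cnj_iff.mp hx)
      rw [mem_cnj_iff] at this
      simpa [mul_assoc] using this
    have h2 : L ≤ cnj N g⁻¹ := by
      refine hLmin ⟨h1.trans hLM, ?_, ?_⟩ h1
      · intro m hm
        refine Subgroup.mem_normalizer_fintype fun x hx => ?_
        rw [SetLike.mem_coe, mem_cnj_iff] at hx ⊢
        have hm' : g * m * g⁻¹ ∈ M := hMn.conj_mem m hm g
        have := (Subgroup.mem_normalizer_iff.mp (hMN hm') _).mp hx
        simpa [mul_assoc] using this
      · intro e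
        exact hne ((Subgroup.map_eq_bot_iff_of_injective N (MulAut.conj g⁻¹).injective).mp e)
    intro x hx
    rw [mem_cnj_iff] at hx
    have := mem_cnj_iff.mp (h2 hx)
    simpa [mul_assoc] using this
  have hgM : ∀ g : G, cnj L g ≤ M := fun g x hx => by
    have := hMn.conj_mem _ (hLM (mem_cnj_iff.mp hx)) g
    simpa [mul_assoc] using this
  have hMg : ∀ g : G, M ≤ Subgroup.normalizer (cnj L g : Set G) := fun g m hm => by
    refine Subgroup.mem_normalizer_fintype fun x hx => ?_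
    rw [SetLike.mem_coe, mem_cnj_iff] at hx ⊢
    have hm' : g⁻¹ * m * g ∈ M := by simpa using hMn.conj_mem m hm g⁻¹
    have := (Subgroup.mem_normalizer_iff.mp (hMLn hm') _).mp hx
    simpa [mul_assoc] using this
  have hgne : ∀ g : G, cnj L g ≠ ⊥ := fun g e =>
    hLne ((Subgroup.map_eq_bot_iff_of_injective L (MulAut.conj g).injective).mp e)
  -- distinct conjugates commute and meet trivially
  have hdisj : ∀ g h : G, cnj L g ≠ cnj L h → cnj L g ⊓ cnj L h = ⊥ := by
    intro g h hne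
    have hn : M ≤ Subgroup.normalizer ((cnj L g ⊓ cnj L h : Subgroup G) : Set G) := fun m hm =>
      Subgroup.mem_normalizer_fintype fun x hx =>
        ⟨(Subgroup.mem_normalizer_iff.mp (hMg g hm) x).mp hx.1,
          (Subgroup.mem_normalizer_iff.mp (hMg h hm) x).mp hx.2⟩
    rcases hmin g _ inf_le_left hn with e | e
    · exact e
    · exfalso
      rcases hmin h _ (inf_eq_left.mp e) (hMg g) with e' | e'
      · exact hgne g e'
      · exact hne e'
  have hcom : ∀ g h : G, cnj L g ≠ cnj L h → cnj L g ≤ Subgroup.centralizer (cnj L h : Set G) := by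
    intro g h hne a ha b hb
    have hc : a * b * a⁻¹ * b⁻¹ ∈ cnj L g ⊓ cnj L h := by
      refine ⟨?_, (cnj L h).mul_mem ((Subgroup.mem_normalizer_iff.mp (hMg h (hgM g ha)) b).mp hb) ((cnj L h).inv_mem hb)⟩
      rw [show a * b * a⁻¹ * b⁻¹ = a * (b * a⁻¹ * b⁻¹) by group]
      exact mul_mem ha ((Subgroup.mem_normalizer_iff.mp (hMg g (hgM h hb)) _).mp (inv_mem ha))
    rw [hdisj g h hne, Subgroup.mem_bot] at hc
    calc b * a = (a * b * a⁻¹ * b⁻¹) * (b * a) := by rw [hc, one_mul]
      _ = a * b := by group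
  have hgen : M = ⨆ g : G, cnj L g := by
    refine le_antisymm (hMmin _ ?_ ?_) (iSup_le hgM)
    · refine Subgroup.normalizer_eq_top_iff.mp (eq_top_iff.mpr fun a _ => ?_)
      refine Subgroup.mem_normalizer_fintype fun x hx => ?_
      have hle : (⨆ g : G, cnj L g) ≤ (⨆ g : G, cnj L g).comap (MulAut.conj a).toMonoidHom := by
        refine iSup_le fun g => ?_
        refine le_trans ?_ (Subgroup.comap_mono (le_iSup (fun g => cnj L g) (a * g)))
        rw [← cnj_cnj]
        exact Subgroup.le_comap_map _ _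
      exact hle hx
    · exact fun e => hgne 1 (le_bot_iff.mp ((le_iSup (fun g => cnj L g) 1).trans e.le))
  have hLab : ¬ (∀ a ∈ L, ∀ b ∈ L, a * b = b * a) := by
    intro hab
    apply hMab
    have hall : ∀ g h : G, cnj L g ≤ Subgroup.centralizer (cnj L h : Set G) := by
      intro g h
      by_cases e : cnj L g = cnj L h
      · rw [← e]
        rintro x hx y hy
        have h1 := hab _ (mem_cnj_iff.mp hy) _ (mem_cnj_iff.mp hx)
        calc y * x = g * ((g⁻¹ * y * g) * (g⁻¹ * x * g)) * g⁻¹ := by group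
          _ = g * ((g⁻¹ * x * g) * (g⁻¹ * y * g)) * g⁻¹ := by rw [h1]
          _ = x * y := by group
      · exact hcom g h e
    have hMM : M ≤ Subgroup.centralizer (M : Set G) := by
      rw [Subgroup.le_centralizer_iff]
      conv_lhs => rw [hgen]
      refine iSup_le fun g => ?_
      rw [Subgroup.le_centralizer_iff]
      conv_lhs => rw [hgen]
      exact iSup_le fun h => hall h g
    exact fun a ha b hb => hMM hb a ha
  have hLself : ∀ x ∈ L, (∀ y ∈ L, y * x = x * y) → x = 1 := by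
    intro x hx hc
    have hn : M ≤ Subgroup.normalizer ((L ⊓ Subgroup.centralizer (L : Set G) : Subgroup G) : Set G) := by
      intro m hm
      have hmL := Subgroup.mem_normalizer_iff.mp (hMLn hm)
      refine Subgroup.mem_normalizer_fintype fun a ha => ⟨(hmL a).mp ha.1, fun b hb => ?_⟩
      have hb' : m⁻¹ * b * m ∈ L := (hmL _).mpr (by simpa [mul_assoc] using hb)
      calc b * (m * a * m⁻¹) = m * ((m⁻¹ * b * m) * a) * m⁻¹ := by group
        _ = m * (a * (m⁻¹ * b * m)) * m⁻¹ := by rw [ha.2 _ hb']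
        _ = m * a * m⁻¹ * b := by group
    rcases hmin 1 _ (by rw [cnj_one]; exact inf_le_left) hn with e | e
    · exact Subgroup.mem_bot.mp (e ▸ (⟨hx, hc⟩ : x ∈ L ⊓ Subgroup.centralizer (L : Set G)))
    · exfalso
      rw [cnj_one] at e
      exact hLab fun a ha b hb => ((e.ge hb).2 a ha)
  have hLna : ¬ IsMulCommutative ↥L := fun h =>
    hLab fun a ha b hb => congrArg Subtype.val (h.is_comm.comm (⟨a, ha⟩ : L) ⟨b, hb⟩)
  haveI hLnt : Nontrivial ↥L := (Subgroup.nontrivial_iff_ne_bot L).mpr hLne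
  have hLsimple : IsSimpleGroup ↥L := by
    refine ⟨fun N hN => ?_⟩
    have hle : N.map L.subtype ≤ cnj L 1 := by rw [cnj_one]; exact Subgroup.map_subtype_le N
    have hnorm : M ≤ Subgroup.normalizer (N.map L.subtype : Set G) := by
      conv_lhs => rw [hgen]
      refine iSup_le fun g => ?_
      by_cases e : cnj L g = cnj L 1
      · rw [e, cnj_one]
        intro l hl
        refine Subgroup.mem_normalizer_fintype ?_
        rintro - ⟨n, hn, rfl⟩
        exact ⟨_, hN.conj_mem n hn ⟨l, hl⟩, rfl⟩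
      · intro l hl
        refine Subgroup.mem_normalizer_fintype fun x hx => ?_
        have hc := hcom g 1 e hl x (hle hx)
        rw [show l * x * l⁻¹ = x by rw [← hc, mul_inv_cancel_right]]
        exact hx
    rcases hmin 1 _ hle hnorm with e | e
    · exact Or.inl ((Subgroup.map_eq_bot_iff_of_injective N L.subtype_injective).mp e)
    · right
      rw [cnj_one] at e
      rw [eq_top_iff]
      intro x _
      obtain ⟨n, hn, he⟩ := e.ge x.2
      rwa [← show n = x from Subtype.ext he]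
  haveI := hLsimple
  -- every conjugate is one by an element of `Q`
  have hmemQ : ∀ g : G, (∀ a ∈ cnj L g, a * z = z * a) ∨ ∃ q ∈ Q, cnj L g = cnj L q := by
    intro g
    by_cases h : ∃ q ∈ Q, cnj L g = cnj L q
    · exact Or.inr h
    push Not at h
    left
    set O := ⨆ q : ↥Q, cnj L (q : G) with hO
    have hQO : Q ≤ Subgroup.normalizer (O : Set G) := by
      intro a ha
      refine Subgroup.mem_normalizer_fintype fun x hx => ?_
      have hle : O ≤ O.comap (MulAut.conj a).toMonoidHom := by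
        refine iSup_le fun q => ?_
        refine le_trans ?_ (Subgroup.comap_mono (le_iSup (fun q : ↥Q => cnj L (q : G)) (⟨a, ha⟩ * q)))
        rw [Subgroup.coe_mul, ← cnj_cnj]
        exact Subgroup.le_comap_map _ _
      exact hle hx
    have hzO : z ∈ O := mem_of_normalized hQ hZ O hQO fun e => hgne (1 : ↥Q)
      (le_bot_iff.mp ((le_iSup (fun q : ↥Q => cnj L (q : G)) 1).trans e.le))
    have hOg : O ≤ Subgroup.centralizer (cnj L g : Set G) :=
      iSup_le fun q => hcom q g (Ne.symm (h q q.2))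
    exact fun a ha => hOg hzO a ha
  have hnotz : ¬ (∀ a ∈ L, a * z = z * a) := by
    intro h
    apply hzMc
    have hle : M ≤ Subgroup.centralizer ({z} : Set G) := by
      conv_lhs => rw [hgen]
      refine iSup_le fun g a ha => Subgroup.mem_centralizer_singleton_iff.mpr ?_
      rcases hmemQ g with h' | ⟨q, hq, e⟩
      · exact h' a ha
      · rw [e, mem_cnj_iff] at ha
        calc a * z = q * ((q⁻¹ * a * q) * (q⁻¹ * z * q)) * q⁻¹ := by group
          _ = q * ((q⁻¹ * a * q) * z) * q⁻¹ := by rw [mul_assoc q⁻¹ z q, ← hzc q hq]; group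
          _ = q * (z * (q⁻¹ * a * q)) * q⁻¹ := by rw [h _ ha]
          _ = (q * z) * q⁻¹ * a := by group
          _ = z * a := by rw [hzc q hq]; group
    exact fun a ha => Subgroup.mem_centralizer_singleton_iff.mp (hle ha)
  have horb : ∀ g : G, ∃ q ∈ Q, cnj L g = cnj L q := by
    intro g
    rcases hmemQ g with h | h
    swap
    · exact h
    refine absurd ?_ hzMc
    -- `z` then centralizes every conjugate
    have hle : M ≤ Subgroup.centralizer ({z} : Set G) := by
      conv_lhs => rw [hgen]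
      refine iSup_le fun g' a ha => Subgroup.mem_centralizer_singleton_iff.mpr ?_
      set O := ⨆ q : ↥Q, cnj L ((q : G) * g) with hO
      have hQO : Q ≤ Subgroup.normalizer (O : Set G) := by
        intro a ha
        refine Subgroup.mem_normalizer_fintype fun x hx => ?_
        have hle : O ≤ O.comap (MulAut.conj a).toMonoidHom := by
          refine iSup_le fun q => ?_
          refine le_trans ?_ (Subgroup.comap_mono
            (le_iSup (fun q : ↥Q => cnj L ((q : G) * g)) (⟨a, ha⟩ * q)))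
          rw [Subgroup.coe_mul, mul_assoc, ← cnj_cnj L a ((q : G) * g)]
          exact Subgroup.le_comap_map _ _
        exact hle hx
      have hzO : z ∈ O := mem_of_normalized hQ hZ O hQO fun e => hgne (((1 : ↥Q) : G) * g)
        (le_bot_iff.mp ((le_iSup (fun q : ↥Q => cnj L ((q : G) * g)) 1).trans e.le))
      by_cases he : ∃ q ∈ Q, cnj L g' = cnj L (q * g)
      · obtain ⟨q, hq, e⟩ := he
        rw [e, ← cnj_cnj, mem_cnj_iff] at ha
        calc a * z = q * ((q⁻¹ * a * q) * (q⁻¹ * z * q)) * q⁻¹ := by group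
          _ = q * ((q⁻¹ * a * q) * z) * q⁻¹ := by rw [mul_assoc q⁻¹ z q, ← hzc q hq]; group
          _ = q * (z * (q⁻¹ * a * q)) * q⁻¹ := by rw [h _ ha]
          _ = (q * z) * q⁻¹ * a := by group
          _ = z * a := by rw [hzc q hq]; group
      · push Not at he
        have hOg : O ≤ Subgroup.centralizer (cnj L g' : Set G) :=
          iSup_le fun q => hcom _ g' (Ne.symm (he q q.2))
        exact hOg hzO a ha
    exact fun a ha => Subgroup.mem_centralizer_singleton_iff.mp (hle ha)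
  -- `F*(G) = M`
  have hLcomp : Cfsg.IsComponent L := by
    refine ⟨?_, ?_⟩
    · exact Subgroup.IsSubnormal.step L M hLM hMn.isSubnormal
        (Subgroup.normal_subgroupOf_of_le_normalizer hMLn)
    · haveI : Group.IsPerfect ↥L := ⟨by
        rcases hLsimple.eq_bot_or_eq_top_of_normal (commutator ↥L) inferInstance with e | e
        · exact absurd ((_root_.commutator_eq_bot_iff _).mp e) hLna
        · exact e⟩
      exact H51.isQuasisimple_of_normal_le_center fun N hN =>
        (hLsimple.eq_bot_or_eq_top_of_normal N hN).symm.imp_right fun e => e.le.trans bot_le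
  have hFM : M = Cfsg.generalizedFittingSubgroup G := by
    refine le_antisymm (le_trans ?_ (H51.layer_le_generalizedFitting G)) ?_
    · conv_lhs => rw [hgen]
      exact iSup_le fun g => H51.component_le_layer (H51.component_map_conj hLcomp g)
    · rw [Cfsg.generalizedFittingSubgroup, hF0, sup_bot_eq]
      refine sSup_le fun K hK => ?_
      rcases H51.component_le_or_commute_of_normal hK hMn with h | h
      · exact h
      · rw [Subgroup.commutator_eq_bot_iff_le_centralizer, hCM, le_bot_iff] at h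
        exact absurd h (H51.component_ne_bot hK)
  by_cases hfix : ∀ q ∈ Q, cnj L q = L
  · refine Or.inl ⟨hFM, ?_⟩
    have e : M = L := by
      refine le_antisymm ?_ hLM
      conv_lhs => rw [hgen]
      refine iSup_le fun g => ?_
      obtain ⟨q, hq, e⟩ := horb g
      exact (e.trans (hfix q hq)).le
    rw [e]; exact ⟨hLsimple, hLna⟩
  push Not at hfix
  obtain ⟨u, hu, huL⟩ := hfix
  refine Or.inr ⟨hFM, ?_⟩
  set K := ⨆ g : {g : G // cnj L g ≠ L}, cnj L (g : G) with hKdef
  have hLK : ∀ k ∈ K, ∀ l ∈ L, l * k = k * l := by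
    have : K ≤ Subgroup.centralizer (L : Set G) := iSup_le fun g => by
      have := hcom g.1 1 (by rw [cnj_one]; exact g.2)
      rwa [cnj_one] at this
    exact fun k hk l hl => this hk l hl
  have hLKd : L ⊓ K = ⊥ := eq_bot_iff.mpr fun x hx =>
    Subgroup.mem_bot.mpr (hLself x hx.1 fun y hy => hLK x hx.2 y hy)
  have hleK : ∀ g : G, cnj L g ≠ L → cnj L g ≤ K := fun g hg =>
    le_iSup (fun g : {g : G // cnj L g ≠ L} => cnj L (g : G)) ⟨g, hg⟩
  obtain ⟨z₁, hz₁, k₁, hk₁, hzk⟩ : ∃ z₁ ∈ L, ∃ k₁ ∈ K, z = z₁ * k₁ := by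
    set T : Set G := {x | ∃ l ∈ L, ∃ k ∈ K, x = l * k}
    have hT1 : (1 : G) ∈ T := ⟨1, one_mem _, 1, one_mem _, (one_mul 1).symm⟩
    have hTm : ∀ a ∈ T, ∀ b ∈ T, a * b ∈ T := by
      rintro - ⟨l, hl, k, hk, rfl⟩ - ⟨l', hl', k', hk', rfl⟩
      refine ⟨l * l', mul_mem hl hl', k * k', mul_mem hk hk', ?_⟩
      calc l * k * (l' * k') = l * (k * l') * k' := by group
        _ = l * (l' * k) * k' := by rw [hLK k hk l' hl']
        _ = l * l' * (k * k') := by group
    have hle : M ≤ subgroupOfMulClosed T hT1 hTm := by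
      conv_lhs => rw [hgen]
      refine iSup_le fun g x hx => ?_
      by_cases e : cnj L g = L
      · exact ⟨x, e ▸ hx, 1, one_mem _, (mul_one x).symm⟩
      · exact ⟨1, one_mem _, x, hleK g e hx, (one_mul x).symm⟩
    obtain ⟨l, hl, k, hk, e⟩ := hle hzM
    exact ⟨l, hl, k, hk, e⟩
  have hz₁ne : z₁ ≠ 1 := by
    intro e
    apply hnotz
    rw [hzk, e, one_mul]
    exact fun a ha => hLK k₁ hk₁ a ha
  have hcz : ∀ c ∈ L, (c * z = z * c ↔ c * z₁ = z₁ * c) := by
    intro c hc
    constructor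
    · intro e
      refine factor_unique hLKd (mul_mem hc hz₁) (mul_mem hz₁ hc) hk₁ hk₁ ?_
      calc c * z₁ * k₁ = c * z := by rw [hzk]; group
        _ = z * c := e
        _ = z₁ * (k₁ * c) := by rw [hzk]; group
        _ = z₁ * c * k₁ := by rw [← hLK k₁ hk₁ c hc]; group
    · intro e
      calc c * z = (c * z₁) * k₁ := by rw [hzk]; group
        _ = z₁ * (c * k₁) := by rw [e]; group
        _ = z * c := by rw [hLK k₁ hk₁ c hc, hzk]; group
  have hnormQ : ∀ c : G, c * z = z * c → c ∈ Subgroup.normalizer (Q : Set G) := by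
    intro c hc
    refine hQ.2.2.1 ?_
    rw [hZ]
    intro y hy
    rcases hpair y hy with rfl | rfl
    · simp
    · exact hc.symm
  have huK : cnj L u ≤ K := hleK u huL
  have hdq : ∀ c ∈ L, c * z = z * c → c * (u * c⁻¹ * u⁻¹) ∈ Q := by
    intro c hc hcz
    have h1 : c * u * c⁻¹ ∈ Q := (Subgroup.mem_normalizer_iff.mp (hnormQ c hcz) u).mp hu
    simpa [mul_assoc] using mul_mem h1 (inv_mem hu)
  have hdK : ∀ c ∈ L, u * c⁻¹ * u⁻¹ ∈ cnj L u := fun c hc =>
    ⟨c⁻¹, inv_mem hc, rfl⟩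
  have h2el : ∀ c ∈ L, c * z = z * c → ∃ n : ℕ, c ^ 2 ^ n = 1 := by
    intro c hc hcz'
    obtain ⟨n, hn⟩ := hQ.1.1.1 ⟨_, hdq c hc hcz'⟩
    refine ⟨n, ?_⟩
    have hn' : (c * (u * c⁻¹ * u⁻¹)) ^ 2 ^ n = 1 := congrArg Subtype.val hn
    have hcomm : Commute c (u * c⁻¹ * u⁻¹) := hLK _ (huK (hdK c hc)) c hc
    rw [hcomm.mul_pow] at hn'
    refine factor_unique hLKd (pow_mem hc (2 ^ n)) (one_mem _) (pow_mem (huK (hdK c hc)) (2 ^ n)) (one_mem _) ?_
    rw [hn', one_mul]
  -- the centralizer of `z` in `L` is a Sylow subgroup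
  obtain ⟨S, hS⟩ := hQ.1.1.1.exists_le_sylow
  have hZS := centerMap_eq_of_le_twoGroup Q S hQ.1 hQ.2.1 hS S.isPGroup'
  have hzS := (mem_centerMap_iff (S : Subgroup G) z).mp (hZS ▸ hZ ▸ Subgroup.mem_zpowers z)
  obtain ⟨P, hP⟩ := S0542.result 2 L hLcomp.1 S
  have hPC : (P : Subgroup ↥L) = (Subgroup.centralizer ({z₁} : Set G)).subgroupOf L := by
    refine (P.is_maximal' ?_ ?_).symm
    · intro c
      obtain ⟨n, hn⟩ := h2el (c : ↥L) c.1.2
        ((hcz _ c.1.2).mpr (Subgroup.mem_centralizer_singleton_iff.mp c.2))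
      exact ⟨n, Subtype.ext (Subtype.ext hn)⟩
    · rw [hP]
      intro x hx
      exact Subgroup.mem_centralizer_singleton_iff.mpr ((hcz _ x.2).mp (hzS.2 _ hx))
  have hbig : ¬ (∀ c ∈ L, c * z = z * c → c = 1 ∨ c⁻¹ = z₁) := by
    intro hsmall
    have hmemP : ∀ x : ↥L, x ∈ (P : Subgroup ↥L) ↔ (x : G) * z = z * (x : G) := fun x => by
      rw [hPC, Subgroup.mem_subgroupOf, Subgroup.mem_centralizer_singleton_iff, hcz _ x.2]
    have hz₁P : (⟨z₁, hz₁⟩ : ↥L) ∈ (P : Subgroup ↥L) := (hmemP _).mpr ((hcz z₁ hz₁).mpr rfl)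
    have hcard : Nat.card (P : Subgroup ↥L) = 2 := by
      refine Nat.card_eq_two_iff.mpr ⟨1, ⟨_, hz₁P⟩, ?_, Set.eq_univ_of_forall fun x => ?_⟩
      · exact fun e => hz₁ne (congrArg (fun w : (P : Subgroup ↥L) => ((w : ↥L) : G)) e).symm
      · rcases hsmall _ x.1.2 ((hmemP _).mp x.2) with e | e
        · exact Or.inl (Subtype.ext (Subtype.ext e))
        · refine Or.inr (Subtype.ext (Subtype.ext ?_))
          show ((x : ↥L) : G) = z₁
          rcases hsmall z₁ hz₁ ((hmemP _).mp hz₁P) with e' | e'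
          · exact absurd e' hz₁ne
          · rw [← inv_inv ((x : ↥L) : G), e, e']
    have heven : Even (Nat.card ↥L) := even_iff_two_dvd.mpr
      (hcard ▸ Subgroup.card_subgroup_dvd_card _)
    obtain ⟨H, hH⟩ := S0219.result heven P (isCyclic_of_prime_card (p := 2) hcard)
    haveI : H.Normal := Subgroup.normal_of_index_eq_two hH
    rcases hLsimple.eq_bot_or_eq_top_of_normal H inferInstance with e | e
    · rw [e, Subgroup.index_bot] at hH
      haveI : IsCyclic ↥L := isCyclic_of_prime_card (p := 2) hH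
      exact hLna ⟨⟨fun a b => IsCyclic.commGroup.mul_comm a b⟩⟩
    · rw [e, Subgroup.index_top] at hH; omega
  -- only two conjugates
  have hu2 : cnj (cnj L u) u = L := by
    rw [cnj_cnj]
    refine cnj_eq_self_of_mem_normalizer (hMLn ?_)
    rcases hpair (u * u) (by
      rw [← hZ]
      exact ⟨(⟨u, hu⟩ : ↥Q) ^ 2, hQ.1.1.2.1 ▸ H24.pow_mem_frattini hQ.1.1.1 _,
        by simp [pow_two]⟩) with e | e <;> rw [e]
    exacts [one_mem _, hzM]
  have htwo : ∀ g : G, cnj L g = L ∨ cnj L g = cnj L u := by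
    intro g
    obtain ⟨v, hv, e⟩ := horb g
    rw [e]
    by_contra hcon
    push Not at hcon
    obtain ⟨hv1, hv2⟩ := hcon
    apply hbig
    intro c hc hcz'
    set d := u * c⁻¹ * u⁻¹ with hd
    have hdL : d ∈ cnj L u := hdK c hc
    have hvv : v * v ∈ M := by
      rcases hpair (v * v) (by
        rw [← hZ]
        exact ⟨(⟨v, hv⟩ : ↥Q) ^ 2, hQ.1.1.2.1 ▸ H24.pow_mem_frattini hQ.1.1.1 _,
          by simp [pow_two]⟩) with e | e <;> rw [e]
      exacts [one_mem _, hzM]
    have hvu : cnj (cnj L u) v ≠ L := by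
      intro e
      apply hv2
      calc cnj L v = cnj (cnj (cnj L u) v) v := by rw [e]
        _ = cnj (cnj L u) (v * v) := cnj_cnj _ _ _
        _ = cnj L u := cnj_eq_self_of_mem_normalizer (hMg u hvv)
    have hk' : (v * c * v⁻¹) * (v * d * v⁻¹) * d⁻¹ ∈ K := by
      refine mul_mem (mul_mem (hleK v hv1 ⟨c, hc, rfl⟩) ?_) (inv_mem (huK hdL))
      refine hleK (v * u) (by rwa [← cnj_cnj]) ?_
      rw [← cnj_cnj]
      exact ⟨d, hdL, rfl⟩
    have hq := hdq c hc hcz'
    have hcomm : v * (c * d) * v⁻¹ * (c * d)⁻¹ ∈ Subgroup.zpowers z := by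
      rw [← hZ]
      exact ⟨_, commutator_mem_center hQ.1 (⟨v, hv⟩ : ↥Q) ⟨c * d, hq⟩, rfl⟩
    set k' := (v * c * v⁻¹) * (v * d * v⁻¹) * d⁻¹ with hk'def
    have hkey : v * (c * d) * v⁻¹ * (c * d)⁻¹ = c⁻¹ * k' := by
      rw [hLK k' hk' c⁻¹ (inv_mem hc), hk'def]; group
    rw [hkey] at hcomm
    rcases hpair _ hcomm with e | e
    · left
      have := factor_unique hLKd (inv_mem hc) (one_mem _) hk' (one_mem _) (e.trans (one_mul 1).symm)
      exact inv_eq_one.mp this
    · right
      exact factor_unique hLKd (inv_mem hc) hz₁ hk' hk₁ (e.trans hzk)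
  have hKeq : K = cnj L u := by
    refine le_antisymm (iSup_le fun g => ?_) huK
    exact ((htwo g.1).resolve_left g.2).le
  have hsupM : L ⊔ cnj L u = M := by
    refine le_antisymm (sup_le hLM (hgM u)) ?_
    conv_lhs => rw [hgen]
    refine iSup_le fun g => ?_
    rcases htwo g with e | e
    · exact e.le.trans le_sup_left
    · exact e.le.trans le_sup_right
  rw [hKeq] at hLKd hk₁ hLK
  have hk₁eq : k₁ = u * z₁ * u⁻¹ := by
    have h1 : u * k₁ * u⁻¹ ∈ L := hu2 ▸ ⟨k₁, hk₁, rfl⟩
    have h2 : u * z₁ * u⁻¹ ∈ cnj L u := ⟨z₁, hz₁, rfl⟩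
    have e : z₁ * k₁ = (u * k₁ * u⁻¹) * (u * z₁ * u⁻¹) := by
      rw [hLK _ h2 _ h1]
      calc z₁ * k₁ = z := hzk.symm
        _ = u * z * u⁻¹ := by rw [hzc u hu, mul_inv_cancel_right]
        _ = (u * z₁ * u⁻¹) * (u * k₁ * u⁻¹) := by rw [hzk]; group
    have e' := factor_unique hLKd hz₁ h1 hk₁ h2 e
    rw [← e'] at e
    exact mul_left_cancel e
  have hcommR : ∀ c ∈ L, ∀ d ∈ L, c * z = z * c → d * z = z * d →
      (c * d * c⁻¹ * d⁻¹ ∈ Subgroup.zpowers z₁ ∧ c * c ∈ Subgroup.zpowers z₁) := by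
    intro c hc d hd hcz' hdz
    have hfin : ∀ l ∈ L, ∀ k ∈ cnj L u, l * k ∈ Subgroup.zpowers z → l ∈ Subgroup.zpowers z₁ := by
      intro l hl k hk h
      rcases hpair _ h with e | e
      · rw [factor_unique hLKd hl (one_mem _) hk (one_mem _) (e.trans (one_mul 1).symm)]
        exact one_mem _
      · rw [factor_unique hLKd hl hz₁ hk hk₁ (e.trans hzk)]
        exact Subgroup.mem_zpowers _
    set c' := u * c⁻¹ * u⁻¹ with hc'
    set d' := u * d⁻¹ * u⁻¹ with hd'
    have hcK : c' ∈ cnj L u := hdK c hc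
    have hdK' : d' ∈ cnj L u := hdK d hd
    constructor
    · refine hfin _ (mul_mem (mul_mem (mul_mem hc hd) (inv_mem hc)) (inv_mem hd))
        (c' * d' * c'⁻¹ * d'⁻¹) (mul_mem (mul_mem (mul_mem hcK hdK') (inv_mem hcK)) (inv_mem hdK')) ?_
      have h := commutator_mem_center hQ.1 (⟨_, hdq c hc hcz'⟩ : ↥Q) ⟨_, hdq d hd hdz⟩
      rw [← hZ]
      refine ⟨_, h, ?_⟩
      show (c * c') * (d * d') * (c * c')⁻¹ * (d * d')⁻¹ = _
      calc (c * c') * (d * d') * (c * c')⁻¹ * (d * d')⁻¹
          = c * (c' * d) * (d' * c'⁻¹) * (c⁻¹ * d'⁻¹) * d⁻¹ := by group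
        _ = c * (d * c') * (d' * c'⁻¹) * (d'⁻¹ * c⁻¹) * d⁻¹ := by
            rw [← hLK c' hcK d hd, hLK d'⁻¹ (inv_mem hdK') c⁻¹ (inv_mem hc)]
        _ = (c * d) * (c' * d' * c'⁻¹ * d'⁻¹) * (c⁻¹ * d⁻¹) := by group
        _ = (c * d) * ((c⁻¹ * d⁻¹) * (c' * d' * c'⁻¹ * d'⁻¹)) := by
            rw [mul_assoc (c * d), ← hLK _
              (mul_mem (mul_mem (mul_mem hcK hdK') (inv_mem hcK)) (inv_mem hdK'))
              _ (mul_mem (inv_mem hc) (inv_mem hd))]
        _ = c * d * c⁻¹ * d⁻¹ * (c' * d' * c'⁻¹ * d'⁻¹) := by group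
    · refine hfin _ (mul_mem hc hc) (c' * c') (mul_mem hcK hcK) ?_
      rw [← hZ]
      refine ⟨(⟨_, hdq c hc hcz'⟩ : ↥Q) ^ 2, hQ.1.1.2.1 ▸ H24.pow_mem_frattini hQ.1.1.1 _, ?_⟩
      show ((⟨_, hdq c hc hcz'⟩ : ↥Q) ^ 2 : ↥Q).1 = _
      rw [SubmonoidClass.coe_pow, pow_two]
      calc c * c' * (c * c') = c * (c' * c) * c' := by group
        _ = c * (c * c') * c' := by rw [hLK c' hcK c hc]
        _ = c * c * (c' * c') := by group
  refine ⟨L, u, hu, hLsimple, hLna, hLKd, fun x hx y hy => hLK y hy x hx, hsupM,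
    z₁, hz₁, hzk.trans (by rw [hk₁eq]), ⟨P, hPC, ?_⟩, ?_⟩
  · set f := (L.subtype).comp (P : Subgroup ↥L).subtype
    refine Subgroup.map_le_iff_le_comap.mpr ?_
    have hin : ∀ x : (P : Subgroup ↥L), f x ∈ L ∧ f x * z = z * f x := fun x => by
      refine ⟨x.1.2, (hcz _ x.1.2).mpr ?_⟩
      have hx : (x : ↥L) ∈ (Subgroup.centralizer ({z₁} : Set G)).subgroupOf L := hPC ▸ x.2
      exact Subgroup.mem_centralizer_singleton_iff.mp hx
    refine H24.frattini_le_of (p := 2) _ ?_ ?_
    · rw [commutator_def, Subgroup.commutator_le]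
      intro x _ y _
      rw [Subgroup.mem_comap, map_commutatorElement, commutatorElement_def]
      exact (hcommR _ (hin x).1 _ (hin y).1 (hin x).2 (hin y).2).1
    · intro x
      rw [Subgroup.mem_comap, map_pow, pow_two]
      exact (hcommR _ (hin x).1 _ (hin x).1 (hin x).2 (hin x).2).2
  · intro hQO2
    apply hbig
    intro c hc hcz'
    set C := Subgroup.centralizer ({z} : Set G) with hCdef
    set J := M.subgroupOf C
    have hJn : J.Normal := inferInstance
    have hJ2 : IsPGroup 2 ↥J := by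
      rintro ⟨⟨x, hxC⟩, hxM⟩
      have hxM' : x ∈ L ⊔ cnj L u := hsupM.symm ▸ hxM
      have hLn : cnj L u ≤ Subgroup.normalizer (L : Set G) := (hgM u).trans hMLn
      obtain ⟨a, ha, b, hb, e⟩ : ∃ a ∈ L, ∃ b ∈ cnj L u, x = a * b := by
        rw [← SetLike.mem_coe, Subgroup.coe_mul_of_right_le_normalizer_left] at hxM'
        · obtain ⟨a, ha, b, hb, e⟩ := hxM'
          exact ⟨a, ha, b, hb, e.symm⟩
        · exact hLn
      subst e
      have hxz : a * b * z = z * (a * b) := Subgroup.mem_centralizer_singleton_iff.mp hxC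
      have haz : a * z = z * a := by
        refine (hcz a ha).mpr (factor_unique hLKd (mul_mem ha hz₁) (mul_mem hz₁ ha)
          (mul_mem hb hk₁) (mul_mem hk₁ hb) ?_)
        calc a * z₁ * (b * k₁) = a * (z₁ * b) * k₁ := by group
          _ = a * b * z := by rw [hLK b hb z₁ hz₁, hzk]; group
          _ = z * (a * b) := hxz
          _ = z₁ * (k₁ * a) * b := by rw [hzk]; group
          _ = z₁ * a * (k₁ * b) := by rw [← hLK k₁ hk₁ a ha]; group
      have hbz : b * z = z * b := by
        calc b * z = a⁻¹ * (a * b * z) := by group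
          _ = a⁻¹ * (z * (a * b)) := by rw [hxz]
          _ = a⁻¹ * (z * a) * b := by group
          _ = a⁻¹ * (a * z) * b := by rw [haz]
          _ = z * b := by group
      have hb' : u * b * u⁻¹ ∈ L := hu2 ▸ ⟨b, hb, rfl⟩
      have hbz' : u * b * u⁻¹ * z = z * (u * b * u⁻¹) := by
        have huz : u⁻¹ * z = z * u⁻¹ := hzc _ (inv_mem hu)
        calc u * b * u⁻¹ * z = u * b * (u⁻¹ * z) := by group
          _ = u * (b * z) * u⁻¹ := by rw [huz]; group
          _ = u * (z * b) * u⁻¹ := by rw [hbz]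
          _ = (u * z) * b * u⁻¹ := by group
          _ = z * (u * b * u⁻¹) := by rw [hzc u hu]; group
      obtain ⟨n, hn⟩ := h2el a ha haz
      obtain ⟨m, hm⟩ := h2el _ hb' hbz'
      rw [conj_pow, conj_eq_one_iff] at hm
      refine ⟨n + m, Subtype.ext (Subtype.ext ?_)⟩
      show (a * b) ^ 2 ^ (n + m) = 1
      have hab : Commute a b := hLK b hb a ha
      rw [hab.mul_pow, pow_add, pow_mul, hn, one_pow, one_mul,
        mul_comm (2 ^ n), pow_mul, hm, one_pow]
    have hcQ : c ∈ Q := by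
      rw [hQO2]
      exact ⟨⟨c, Subgroup.mem_centralizer_singleton_iff.mpr hcz'⟩, H19.le_pCore hJn hJ2 (hLM hc), rfl⟩
    have h := commutator_mem_center hQ.1 (⟨c, hcQ⟩ : ↥Q) ⟨u, hu⟩
    have hh : c * (u * c⁻¹ * u⁻¹) ∈ Subgroup.zpowers z := by
      rw [← hZ]
      exact ⟨_, h, by simp [commutatorElement_def, mul_assoc]⟩
    rcases hpair _ hh with e | e
    · exact Or.inl (factor_unique hLKd hc (one_mem _) (hdK c hc) (one_mem _) (e.trans (one_mul 1).symm))
    · right
      -- `c = z₁`, an involution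
      have e1 := factor_unique hLKd hc hz₁ (hdK c hc) hk₁ (e.trans hzk)
      subst e1
      have h2 : c * c = 1 := by
        have hzz : z * z = 1 := by rw [← pow_two, ← hz, pow_orderOf_eq_one]
        refine factor_unique hLKd (mul_mem hc hc) (one_mem _) (mul_mem hk₁ hk₁) (one_mem _) ?_
        calc c * c * (k₁ * k₁) = c * (c * k₁) * k₁ := by group
          _ = c * (k₁ * c) * k₁ := by rw [hLK k₁ hk₁ c hc]
          _ = z * z := by rw [hzk]; group
          _ = 1 * 1 := by rw [hzz, one_mul]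
      exact inv_eq_of_mul_eq_one_right h2

end Cfsg.Agent.H18
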