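import Mathlib
import Cfsg.Agent.H18.GaussPoisson

/-!
The theta series of an even unimodular lattice of rank 24 as a modular form of level one.
-/

set_option autoImplicit false

noncomputable section

open Matrix UpperHalfPlane ModularForm MatrixGroups SlashInvariantForm
open Complex
open scoped Real

namespace Cfsg.Agent.H18.LTheta

open Cfsg.Agent.H18.Gauss (qf rv gauss)

/-- The quadratic function of an integral Gram matrix. -/
def Q (B : Matrix (Fin 24) (Fin 24) ℤ) (x : Fin 24 → ℤ) : ℤ := x ⬝ᵥ (B *ᵥ x)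

/-- An even unimodular positive Gram matrix of rank 24. -/
structure Even24 (B : Matrix (Fin 24) (Fin 24) ℤ) : Prop where
  symm : B.IsSymm
  pos : ∀ x : Fin 24 → ℤ, x ≠ 0 → 0 < Q B x
  even : ∀ x : Fin 24 → ℤ, (2 : ℤ) ∣ Q B x
  det : B.det = 1

variable {B : Matrix (Fin 24) (Fin 24) ℤ}

/-- The real Gram matrix. -/
def realGram (B : Matrix (Fin 24) (Fin 24) ℤ) : Matrix (Fin 24) (Fin 24) ℝ :=
  (Int.castRingHom ℝ).mapMatrix B

theorem qf_realGram (x : Fin 24 → ℤ) : qf (realGram B) (rv x) = (Q B x : ℝ) := by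
  simp [qf, Q, realGram, rv, dotProduct, mulVec, Finset.mul_sum]

theorem Even24.nonneg (h : Even24 B) (x : Fin 24 → ℤ) : 0 ≤ Q B x := by
  by_cases hx : x = 0
  · simp [hx, Q]
  · exact (h.pos x hx).le

theorem qf_smul (P : Matrix (Fin 24) (Fin 24) ℝ) (c : ℝ) (v : Fin 24 → ℝ) :
    qf P (c • v) = c * c * qf P v := by
  simp only [qf, mulVec_smul, dotProduct_smul, smul_dotProduct, smul_eq_mul]
  ring

theorem exists_clear_den (q : Fin 24 → ℚ) : ∃ (N : ℕ) (z : Fin 24 → ℤ),
    0 < N ∧ rv z = (N : ℝ) • (fun i => (q i : ℝ)) := by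
  refine ⟨∏ i, (q i).den, fun i => (q i).num * (((∏ j, (q j).den) / (q i).den : ℕ) : ℤ),
    Finset.prod_pos fun i _ => (q i).den_pos, funext fun i => ?_⟩
  have hdvd : (q i).den ∣ ∏ j, (q j).den :=
    Finset.dvd_prod_of_mem (fun j => (q j).den) (Finset.mem_univ i)
  have hd0 : ((q i).den : ℝ) ≠ 0 := by exact_mod_cast (q i).den_nz
  generalize hN : ∏ j, (q j).den = N at hdvd ⊢
  simp only [rv, Int.cast_mul, Int.cast_natCast, Nat.cast_div hdvd hd0, Pi.smul_apply,
    smul_eq_mul, Rat.cast_def]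
  field_simp

theorem Even24.qf_nonneg (h : Even24 B) (v : Fin 24 → ℝ) : 0 ≤ qf (realGram B) v := by
  have hd : DenseRange (Pi.map fun (_ : Fin 24) (r : ℚ) => (r : ℝ)) :=
    DenseRange.piMap fun _ => Rat.denseRange_cast
  refine hd.induction_on v (isClosed_le continuous_const (Gauss.continuous_qf _)) fun q => ?_
  obtain ⟨N, z, hN, hz⟩ := exists_clear_den q
  have hz2 : 0 ≤ qf (realGram B) (rv z) := by
    rw [qf_realGram]; exact_mod_cast h.nonneg z
  rw [hz, qf_smul] at hz2
  have hN0 : (0 : ℝ) < (N : ℝ) * N := by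
    have : (0 : ℝ) < N := Nat.cast_pos.2 hN
    positivity
  exact (mul_nonneg_iff_of_pos_left hN0).1 hz2

theorem Even24.factor (h : Even24 B) : ∃ R S : Matrix (Fin 24) (Fin 24) ℝ,
    realGram B = Rᵀ * R ∧ R * S = 1 ∧ S * R = 1 ∧ |S.det| = 1 := by
  have hH : (realGram B).IsHermitian := by
    ext i j
    simp [realGram, h.symm.apply i j]
  have hP : (realGram B).PosSemidef :=
    .of_dotProduct_mulVec_nonneg hH fun v => by simpa [qf] using h.qf_nonneg v
  let U : Matrix (Fin 24) (Fin 24) ℝ := hH.eigenvectorUnitary.1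
  let R := Matrix.diagonal (fun i => Real.sqrt (hH.eigenvalues i)) * Uᵀ
  have hR : realGram B = Rᵀ * R := by
    simp only [R, Matrix.transpose_mul, Matrix.transpose_transpose, Matrix.diagonal_transpose]
    rw [Matrix.mul_assoc, ← Matrix.mul_assoc (Matrix.diagonal _), Matrix.diagonal_mul_diagonal]
    conv_lhs => rw [hH.spectral_theorem]
    simp only [Unitary.conjStarAlgAut_apply]
    rw [← Matrix.mul_assoc]
    congr 2
    · congr 1
      funext i
      simpa using (Real.mul_self_sqrt (hP.eigenvalues_nonneg i)).symm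
  have hdR : R.det * R.det = 1 := by
    have := congrArg Matrix.det hR
    rw [Matrix.det_mul, Matrix.det_transpose, realGram, ← RingHom.map_det, h.det, map_one] at this
    exact this.symm
  have hu : IsUnit R.det := IsUnit.of_mul_eq_one _ hdR
  refine ⟨R, R⁻¹, hR, Matrix.mul_nonsing_inv _ hu, Matrix.nonsing_inv_mul _ hu, ?_⟩
  rw [Matrix.det_nonsing_inv, Ring.inverse_eq_inv, abs_inv]
  rw [show |R.det| = 1 from by
    have h1 : |R.det| ^ 2 = 1 := by rw [sq_abs, sq, hdR]
    nlinarith [abs_nonneg R.det], inv_one]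

/-- Multiplication by the Gram matrix on integer vectors. -/
def Even24.dualEquiv (h : Even24 B) : (Fin 24 → ℤ) ≃ (Fin 24 → ℤ) where
  toFun k := B *ᵥ k
  invFun k := B.adjugate *ᵥ k
  left_inv k := by simp only [mulVec_mulVec, Matrix.adjugate_mul, h.det, one_smul, one_mulVec]
  right_inv k := by simp only [mulVec_mulVec, Matrix.mul_adjugate, h.det, one_smul, one_mulVec]

/-- The theta series. -/
def theta (B : Matrix (Fin 24) (Fin 24) ℤ) (w : ℂ) : ℂ :=
  ∑' x : Fin 24 → ℤ, cexp (π * Complex.I * w * (Q B x : ℂ))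

theorem exp_eq_gauss (w : ℂ) (x : Fin 24 → ℤ) :
    cexp (π * Complex.I * w * (Q B x : ℂ)) = gauss (realGram B) (-Complex.I * w) (rv x) := by
  rw [gauss, qf_realGram]
  congr 1
  push_cast
  ring

theorem Even24.summable (h : Even24 B) {w : ℂ} (hw : 0 < w.im) :
    Summable fun x : Fin 24 → ℤ => cexp (π * Complex.I * w * (Q B x : ℂ)) := by
  obtain ⟨R, S, hR, -, hSR, -⟩ := h.factor
  have := Gauss.summable_gauss hSR (t := -Complex.I * w) (by simpa using hw) 0
  simp only [zero_add, ← hR] at this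
  simpa only [exp_eq_gauss] using this

theorem Even24.theta_inversion (h : Even24 B) {w : ℂ} (hw : 0 < w.im) :
    theta B w = (w ^ 12)⁻¹ * theta B (-w)⁻¹ := by
  obtain ⟨R, S, hR, hRS, hSR, hdet⟩ := h.factor
  have ht : 0 < (-Complex.I * w).re := by simpa using hw
  have hmain := Gauss.tsum_gauss_eq hRS hSR ht
  rw [← hR, hdet] at hmain
  have hd : ∀ k : Fin 24 → ℤ,
      gauss (S * Sᵀ) (1 / (-Complex.I * w)) (rv (h.dualEquiv k)) =
        gauss (realGram B) (1 / (-Complex.I * w)) (rv k) := by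
    intro k
    unfold gauss
    congr 3
    have hk : rv (h.dualEquiv k) = realGram B *ᵥ rv k := by
      funext i
      simp [rv, Even24.dualEquiv, realGram, mulVec, dotProduct]
    have h2 := Gauss.qf_transpose_mul Sᵀ (realGram B *ᵥ rv k)
    rw [Matrix.transpose_transpose] at h2
    have hT : Sᵀ * Rᵀ = 1 := by rw [← Matrix.transpose_mul, hRS, Matrix.transpose_one]
    rw [hk, h2, hR, Gauss.qf_transpose_mul, mulVec_mulVec, ← Matrix.mul_assoc, hT, Matrix.one_mul]
  have h1 : theta B w = ∑' x : Fin 24 → ℤ, gauss (realGram B) (-Complex.I * w) (rv x) :=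
    tsum_congr fun x => exp_eq_gauss w x
  rw [h1, hmain, ← h.dualEquiv.tsum_eq fun m => gauss (S * Sᵀ) (1 / (-Complex.I * w)) (rv m)]
  simp only [hd, Complex.ofReal_one, one_mul]
  have hw0 : w ≠ 0 := fun h0 => by simp [h0] at hw
  congr 1
  · rw [show (((24 : ℕ) : ℂ) / 2) = ((12 : ℕ) : ℂ) by norm_num, Complex.cpow_natCast, div_pow,
      one_pow, mul_pow, one_div]
    congr 1
    rw [neg_pow, show Complex.I ^ 12 = 1 by rw [show (12 : ℕ) = 4 * 3 by norm_num, pow_mul, I_pow_four,
      one_pow]]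
    norm_num
  · refine tsum_congr fun x => ?_
    rw [exp_eq_gauss]
    congr 1
    field_simp
    simp [I_sq]

theorem Even24.theta_add_one (h : Even24 B) (w : ℂ) : theta B (1 + w) = theta B w := by
  refine tsum_congr fun x => ?_
  obtain ⟨c, hc⟩ := h.even x
  rw [hc, show (π : ℂ) * Complex.I * (1 + w) * ((2 * c : ℤ) : ℂ) =
    π * Complex.I * w * ((2 * c : ℤ) : ℂ) + (c : ℂ) * (2 * π * Complex.I) by push_cast; ring,
    Complex.exp_add, Complex.exp_int_mul_two_pi_mul_I, mul_one]

theorem Even24.norm_term (h : Even24 B) {ε : ℝ} {w : ℂ} (hw : ε ≤ w.im) (x : Fin 24 → ℤ) :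
    ‖cexp (π * Complex.I * w * (Q B x : ℂ))‖ ≤ Real.exp (-(π * ε) * Q B x) := by
  rw [Complex.norm_exp]
  apply Real.exp_le_exp.2
  have h0 : (0 : ℝ) ≤ Q B x := by exact_mod_cast h.nonneg x
  have := mul_le_mul_of_nonneg_right (mul_le_mul_of_nonneg_left hw Real.pi_pos.le) h0
  simp
  linarith

theorem Even24.summable_real (h : Even24 B) {ε : ℝ} (hε : 0 < ε) :
    Summable fun x : Fin 24 → ℤ => Real.exp (-(π * ε) * Q B x) := by
  refine ((h.summable (w := (ε : ℂ) * Complex.I) (by simpa using hε)).norm).congr fun x => ?_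
  rw [Complex.norm_exp]
  simp

theorem Even24.differentiableOn (h : Even24 B) :
    DifferentiableOn ℂ (theta B) {w : ℂ | 0 < w.im} := by
  intro w hw
  have hU : IsOpen {z : ℂ | w.im / 2 < z.im} := isOpen_lt continuous_const Complex.continuous_im
  have hd : DifferentiableOn ℂ (theta B) {z : ℂ | w.im / 2 < z.im} := by
    refine Complex.differentiableOn_tsum_of_summable_norm (h.summable_real (half_pos hw))
      (fun x => ?_) hU (fun x z hz => h.norm_term (le_of_lt hz) x)
    fun_prop
  exact (hd.differentiableAt (hU.mem_nhds (show w.im / 2 < w.im from half_lt_self hw))).differentiableWithinAt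

theorem Even24.finite_level (h : Even24 B) (m : ℤ) : {x : Fin 24 → ℤ | Q B x = m}.Finite := by
  have hs := (h.summable_real one_pos).tendsto_cofinite_zero
  have hev := hs.eventually (gt_mem_nhds (Real.exp_pos (-(π * 1) * m)))
  rw [Filter.eventually_cofinite] at hev
  refine hev.subset fun x hx => ?_
  simp only [Set.mem_ofPred_eq] at hx ⊢
  rw [hx]
  exact lt_irrefl _

/-- The number of lattice vectors of norm twice `m`. -/
def rep (B : Matrix (Fin 24) (Fin 24) ℤ) (m : ℕ) : ℕ :=
  {x : Fin 24 → ℤ | Q B x = 2 * (m : ℤ)}.ncard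

theorem Even24.hasSum_rep (h : Even24 B) (τ : ℍ) :
    HasSum (fun m => (rep B m : ℂ) • Function.Periodic.qParam 1 τ ^ m) (theta B τ) := by
  classical
  let e : (Fin 24 → ℤ) → ℕ := fun x => (Q B x / 2).toNat
  have hset : ∀ m : ℕ, {x | e x = m} = {x : Fin 24 → ℤ | Q B x = 2 * (m : ℤ)} := by
    intro m
    ext x
    obtain ⟨c, hc⟩ := h.even x
    have := h.nonneg x
    simp only [Set.mem_ofPred_eq, e]
    omega
  have hfin : ∀ m : ℕ, {x | e x = m}.Finite := fun m => hset m ▸ h.finite_level _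
  have hs := (Equiv.sigmaFiberEquiv e).hasSum_iff.2 (h.summable τ.im_pos).hasSum
  refine hs.sigma fun m => ?_
  haveI : Fintype {x // e x = m} := (hfin m).fintype
  have hval : ∀ x : {x // e x = m}, cexp (π * Complex.I * (τ : ℂ) * (Q B x.1 : ℂ)) =
      Function.Periodic.qParam 1 τ ^ m := by
    intro x
    have hx : Q B x.1 = 2 * (m : ℤ) := (Set.ext_iff.1 (hset m) x.1).1 x.2
    rw [hx, Function.Periodic.qParam, ← Complex.exp_nat_mul]
    congr 1
    push_cast
    ring
  have hsum := hasSum_fintype fun x : {x // e x = m} => cexp (π * Complex.I * (τ : ℂ) * (Q B x.1 : ℂ))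
  simp only [hval, Finset.sum_const, Finset.card_univ, nsmul_eq_mul] at hsum
  convert hsum using 1
  · funext x
    exact hval x
  · rw [smul_eq_mul, rep, ← hset m, ← Nat.card_coe_set_eq, ← Nat.card_eq_fintype_card]
    rfl

theorem Even24.slash_S (h : Even24 B) :
    (fun τ : ℍ => theta B τ) ∣[(12 : ℤ)] ModularGroup.S = fun τ : ℍ => theta B τ := by
  funext τ
  rw [SlashInvariantForm.slash_S_apply]
  rw [h.theta_inversion τ.im_pos, mul_comm]
  congr 1

set_option backward.isDefEq.respectTransparency.types false in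
theorem Even24.slash_T (h : Even24 B) :
    (fun τ : ℍ => theta B τ) ∣[(12 : ℤ)] ModularGroup.T = fun τ : ℍ => theta B τ := by
  funext τ
  rw [SL_slash_apply, denom, modular_T_smul, ModularGroup.T]
  simp [h.theta_add_one]

/-- The theta series as a modular form. -/
def Even24.form (h : Even24 B) : ModularForm 𝒮ℒ 12 where
  toFun τ := theta B τ
  slash_action_eq' A hA := by
    obtain ⟨A, rfl⟩ := hA
    exact slash_action_generators_SL2Z h.slash_S h.slash_T A
  holo' := by
    rw [UpperHalfPlane.mdifferentiable_iff]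
    refine h.differentiableOn.congr fun z hz => ?_
    simp [ofComplex_apply_of_im_pos hz]
  bdd_at_cusps' hc := by
    rw [Subgroup.IsArithmetic.isCusp_iff_isCusp_SL2Z] at hc
    rw [OnePoint.isBoundedAt_iff_forall_SL2Z hc]
    intro γ _
    rw [slash_action_generators_SL2Z h.slash_S h.slash_T]
    exact isBoundedAtImInfty_of_hasSum_qExpansion one_pos h.hasSum_rep

theorem Even24.coeff_form (h : Even24 B) (m : ℕ) :
    (qExpansion 1 h.form).coeff m = rep B m :=
  (ModularFormClass.qExpansion_coeff_unique (f := h.form) one_pos one_mem_strictPeriods_SL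
    (c := fun m => (rep B m : ℂ)) h.hasSum_rep m).symm

theorem rep_zero (h : Even24 B) : rep B 0 = 1 := by
  rw [rep, show {x : Fin 24 → ℤ | Q B x = 2 * ((0 : ℕ) : ℤ)} = {0} from ?_, Set.ncard_singleton]
  ext x
  simp only [Set.mem_ofPred_eq, Set.mem_singleton_iff, Nat.cast_zero, mul_zero]
  refine ⟨fun hx => by_contra fun hne => (h.pos x hne).ne' hx, fun hx => by simp [hx, Q]⟩

/-- Coefficients of the fourth Eisenstein series. -/
def e4 : ℕ → ℕ
  | 0 => 1
  | m => 240 * ArithmeticFunction.sigma 3 m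

theorem E4_coeff (m : ℕ) : (qExpansion 1 E₄).coeff m = e4 m := by
  have h1 := E₄_qExpansion_coeff_one
  rw [EisensteinSeries.E_qExpansion_coeff (by norm_num) ⟨2, rfl⟩] at h1 ⊢
  rcases m with _ | m
  · simp [e4]
  · simp only [one_ne_zero, ↓reduceIte, Nat.add_one_ne_zero] at h1 ⊢
    rw [show ArithmeticFunction.sigma (4 - 1) 1 = 1 from by simp, Nat.cast_one, mul_one] at h1
    rw [h1]
    simp [e4]

/-- Coefficients of the sixth Eisenstein series. -/
def e6 : ℕ → ℤ
  | 0 => 1
  | m => -504 * (ArithmeticFunction.sigma 5 m : ℤ)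

theorem E6_coeff (m : ℕ) : (qExpansion 1 E₆).coeff m = e6 m := by
  have h1 := E₆_qExpansion_coeff_one
  rw [EisensteinSeries.E_qExpansion_coeff (by norm_num) ⟨3, rfl⟩] at h1 ⊢
  rcases m with _ | m
  · simp [e6]
  · simp only [one_ne_zero, ↓reduceIte, Nat.add_one_ne_zero] at h1 ⊢
    rw [show ArithmeticFunction.sigma (6 - 1) 1 = 1 from by simp, Nat.cast_one, mul_one] at h1
    rw [h1]
    simp [e6]

/-- The combination of Eisenstein series with the same first two coefficients. -/
def model : ModularForm 𝒮ℒ 12 :=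
  (7 / 12 : ℂ) • ModularForm.mcast (by decide) (E₄.pow 3) +
    (5 / 12 : ℂ) • ModularForm.mcast (by decide) (E₆.pow 2)

theorem model_coeff (m : ℕ) : (qExpansion 1 model).coeff m =
    (7 / 12 : ℂ) * ((qExpansion 1 E₄) * (qExpansion 1 E₄) * (qExpansion 1 E₄)).coeff m +
      (5 / 12 : ℂ) * ((qExpansion 1 E₆) * (qExpansion 1 E₆)).coeff m := by
  rw [model, FunLike.coe_add, ModularForm.qExpansion_add one_pos one_mem_strictPeriods_SL,
    FunLike.coe_smul, FunLike.coe_smul,
    ModularForm.qExpansion_smul one_pos one_mem_strictPeriods_SL,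
    ModularForm.qExpansion_smul one_pos one_mem_strictPeriods_SL, coe_mcast, coe_mcast,
    ModularForm.qExpansion_pow one_pos one_mem_strictPeriods_SL,
    ModularForm.qExpansion_pow one_pos one_mem_strictPeriods_SL, map_add,
    PowerSeries.coeff_smul, PowerSeries.coeff_smul, smul_eq_mul, smul_eq_mul]
  ring_nf

theorem rep_eq (h : Even24 B) (h2 : ∀ x, Q B x ≠ 2) :
    rep B 2 = 196560 ∧ rep B 3 = 16773120 ∧ rep B 4 = 398034000 := by
  have hr1 : rep B 1 = 0 := by
    rw [rep, show {x : Fin 24 → ℤ | Q B x = 2 * ((1 : ℕ) : ℤ)} = ∅ from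
      Set.eq_empty_iff_forall_notMem.2 fun x hx => h2 x (by simpa using hx), Set.ncard_empty]
  have hq : ∀ m, (qExpansion 1 (h.form - model)).coeff m =
      (rep B m : ℂ) - (qExpansion 1 model).coeff m := fun m => by
    rw [ModularForm.qExpansion_sub one_pos one_mem_strictPeriods_SL, map_sub,
      h.coeff_form]
  have h01 : ∀ m < 2, (qExpansion 1 (h.form - model)).coeff m = 0 := by
    intro m hm
    rw [hq, model_coeff]
    interval_cases m
    · norm_num [rep_zero h, PowerSeries.coeff_mul, Finset.Nat.antidiagonal_succ, E4_coeff, E6_coeff,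
        e4, e6, -PowerSeries.coeff_zero_eq_constantCoeff]
    · norm_num [hr1, PowerSeries.coeff_mul, Finset.Nat.antidiagonal_succ, E4_coeff, E6_coeff,
        e4, e6, -PowerSeries.coeff_zero_eq_constantCoeff]
  have hz : (h.form - model : ModularForm 𝒮ℒ 12) = 0 := by
    refine sturm_bound_levelOne_nat (k := 12) ?_
    exact lt_of_lt_of_le (by norm_num) (PowerSeries.nat_le_order _ 2 h01)
  have hc : ∀ m, (rep B m : ℂ) = (qExpansion 1 model).coeff m := by
    intro m
    have := hq m
    rw [← FunLike.coe_sub, hz] at this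
    simp [qExpansion_zero] at this
    exact sub_eq_zero.1 this.symm
  have s : ∀ k m, ArithmeticFunction.sigma k m = ∑ d ∈ m.divisors, d ^ k :=
    fun k m => ArithmeticFunction.sigma_apply
  have hd2 : Nat.divisors 2 = {1, 2} := by decide
  have hd3 : Nat.divisors 3 = {1, 3} := by decide
  have hd4 : Nat.divisors 4 = {1, 2, 4} := by decide
  refine ⟨?_, ?_, ?_⟩
  all_goals
    refine Nat.cast_injective (R := ℂ) ?_
    rw [hc, model_coeff]
    norm_num [PowerSeries.coeff_mul, Finset.Nat.antidiagonal_succ, E4_coeff, E6_coeff, e4, e6, s,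
      hd2, hd3, hd4, -PowerSeries.coeff_zero_eq_constantCoeff]

end Cfsg.Agent.H18.LTheta
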