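import Mathlib
import Cfsg.Prelude.Def_AxialAlgebras

/-! Majorana axes: transport by automorphisms and decomposition along the eigenspaces. -/

set_option autoImplicit false

namespace Cfsg.Agent.H18

open Cfsg.Axial

variable {V : Type*} [AddCommGroup V] [Module ℝ V]

lemma map_eigen {mul : V →ₗ[ℝ] V →ₗ[ℝ] V} {φ : V ≃ₗ[ℝ] V} (hφ : ∀ u v, φ (mul u v) = mul (φ u) (φ v))
    (a : V) (c : ℝ) : (eigen mul a c).map φ.toLinearMap = eigen mul (φ a) c := by
  ext v
  simp only [Submodule.mem_map, eigen, Module.End.mem_eigenspace_iff, LinearEquiv.coe_coe]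
  constructor
  · rintro ⟨u, hu, rfl⟩
    rw [← hφ, hu, map_smul]
  · intro h
    refine ⟨φ.symm v, φ.injective ?_, by simp⟩
    rw [hφ, map_smul]; simpa using h

lemma map_eigenSum {mul : V →ₗ[ℝ] V →ₗ[ℝ] V} {φ : V ≃ₗ[ℝ] V} (hφ : ∀ u v, φ (mul u v) = mul (φ u) (φ v))
    (a : V) (S : Set ℝ) : (eigenSum mul a S).map φ.toLinearMap = eigenSum mul (φ a) S := by
  simp only [eigenSum, Submodule.map_iSup, map_eigen hφ]

/-- An automorphism carries a Majorana pair to the conjugate pair. -/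
lemma isMajoranaPair_conj {mul : V →ₗ[ℝ] V →ₗ[ℝ] V} {B : LinearMap.BilinForm ℝ V} {μ φ : V ≃ₗ[ℝ] V}
    {a : V} (hφ : ∀ u v, φ (mul u v) = mul (φ u) (φ v)) (hc : φ * μ = μ * φ)
    (h : IsMajoranaPair mul B μ a) : IsMajoranaPair mul B μ (φ a) := by
  obtain ⟨h1, h2, ⟨⟨ha, haa, htop, hlaw⟩, hprim⟩, hfix, hneg⟩ := h
  have hc' : ∀ v, φ (μ v) = μ (φ v) := fun v => DFunLike.congr_fun hc v
  refine ⟨h1, h2, ⟨⟨?_, by rw [← hφ, haa], ?_, ?_⟩, ?_⟩, ?_, ?_⟩
  · simpa using ha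
  · rw [← map_eigenSum hφ, htop, Submodule.map_top, LinearMap.range_eq_top]
    exact φ.surjective
  · intro c hc d hd u hu v hv
    rw [← map_eigen hφ] at hu hv
    obtain ⟨u', hu', rfl⟩ := hu
    obtain ⟨v', hv', rfl⟩ := hv
    rw [← map_eigenSum hφ]
    exact ⟨mul u' v', hlaw c hc d hd u' hu' v' hv', hφ u' v'⟩
  · rw [← map_eigen hφ, hprim, Submodule.map_span, Set.image_singleton]
    rfl
  · intro v hv
    rw [← map_eigenSum hφ] at hv
    obtain ⟨u, hu, rfl⟩ := hv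
    show μ (φ u) = φ u
    rw [← hc']; exact congrArg φ (hfix u hu)
  · intro v hv
    rw [← map_eigen hφ] at hv
    obtain ⟨u, hu, rfl⟩ := hv
    show μ (φ u) = -φ u
    rw [← hc', ← map_neg]; exact congrArg φ (hneg u hu)

/-- A vector fixed by the involution of an axis `a` is `γ • a + t + s` with `a t = 0`, `a s = s / 4`. -/
lemma fixed_decomp {mul : V →ₗ[ℝ] V →ₗ[ℝ] V} {B : LinearMap.BilinForm ℝ V} {μ : V ≃ₗ[ℝ] V} {a v : V}
    (hV : IsMajoranaAmbient mul B) (h : IsMajoranaPair mul B μ a) (hn : B a a = 1) (hv : μ v = v) :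
    ∃ t s, mul a t = 0 ∧ mul a s = (1 / 4 : ℝ) • s ∧ v = B a v • a + t + s := by
  obtain ⟨-, -, ⟨⟨-, haa, htop, -⟩, hprim⟩, hfix, hneg⟩ := h
  have hdec : v ∈ eigenSum mul a majoranaSpectrum := htop ▸ Submodule.mem_top
  have hS : eigenSum mul a majoranaSpectrum =
      eigenSum mul a {1, 0, 1 / 4} ⊔ eigen mul a (1 / 32) := by
    simp only [eigenSum, majoranaSpectrum, iSup_insert, iSup_singleton, sup_assoc]
  rw [hS, Submodule.mem_sup] at hdec
  obtain ⟨p, hp, q, hq, rfl⟩ := hdec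
  have hq0 : q = 0 := by
    have h1 : μ p = p := hfix p hp
    have h2 : μ q = -q := hneg q hq
    rw [map_add, h1, h2] at hv
    have h3 : q + q = 0 := by linear_combination (norm := module) (-1 : ℝ) • hv
    rw [← two_smul ℝ] at h3
    exact (smul_eq_zero.mp h3).resolve_left (by norm_num)
  subst hq0
  rw [add_zero] at hv ⊢
  simp only [eigenSum, iSup_insert, iSup_singleton, Submodule.mem_sup] at hp
  obtain ⟨x, hx, -, ⟨t, ht, s, hs, rfl⟩, rfl⟩ := hp
  rw [hprim, Submodule.mem_span_singleton] at hx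
  obtain ⟨γ, rfl⟩ := hx
  rw [eigen, Module.End.mem_eigenspace_iff] at ht hs
  rw [zero_smul] at ht
  have ht0 : B a t = 0 := by
    have h := hV.2.2.2.1 a a t
    rwa [ht, map_zero, haa, eq_comm] at h
  have hs0 : B a s = 0 := by
    have h := hV.2.2.2.1 a a s
    rw [hs, haa, map_smul, smul_eq_mul] at h
    linarith
  have hγ : B a (γ • a + (t + s)) = γ := by
    rw [map_add, map_add, map_smul, ht0, hs0, hn]; simp
  exact ⟨t, s, ht, hs, by rw [hγ, add_assoc]⟩

lemma monsterLaw_values :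
    monsterLaw (1 / 4 : ℝ) (1 / 32) 0 0 = {0} ∧ monsterLaw (1 / 4 : ℝ) (1 / 32) 0 (1 / 4) = {1 / 4} ∧
      monsterLaw (1 / 4 : ℝ) (1 / 32) (1 / 4) (1 / 4) = {1, 0} := by
  refine ⟨?_, ?_, ?_⟩ <;> unfold monsterLaw <;> norm_num

/-- The eigenvalue `1/4` does not meet the sum of the eigenspaces for `1` and `0`. -/
lemma eigen_quarter_disjoint {mul : V →ₗ[ℝ] V →ₗ[ℝ] V} {a : V} {v x y : V}
    (hv : mul a v = (1 / 4 : ℝ) • v) (hx : mul a x = x) (hy : mul a y = 0) (h : v = x + y) : v = 0 := by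
  have h1 : (1 / 4 : ℝ) • v = x := by rw [← hv, h, map_add, hx, hy, add_zero]
  have h2 : (1 / 4 : ℝ) • x = x := by
    conv_rhs => rw [← hx, ← h1, map_smul, hv, h1]
  have h3 : x = 0 := by
    have : (-3 / 4 : ℝ) • x = 0 := by linear_combination (norm := module) (1 : ℝ) • h2
    exact (smul_eq_zero.mp this).resolve_left (by norm_num)
  rw [h3] at h1
  exact (smul_eq_zero.mp h1).resolve_left (by norm_num)

end Cfsg.Agent.H18
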