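import Cfsg.Agent.H18.TransvectionLarge
import Cfsg.Agent.H12.TransCent
import Cfsg.Agent.H11.OctadStab
import Cfsg.Agent.H51.Basic

/-! The centralizer of an octad involution in the largest Mathieu group. -/

set_option autoImplicit false

namespace Cfsg.Agent.H18

open scoped Pointwise

/-- Extraspecial groups are preserved by isomorphisms. -/
theorem extraspecial_of_equiv' {A B : Type*} [Group A] [Group B] (e : A ≃* B) {p : ℕ}
    (h : Cfsg.IsExtraspecial p A) : Cfsg.IsExtraspecial p B := by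
  obtain ⟨⟨hp, hfr, hcom⟩, hcard⟩ := h
  have hcen : (Subgroup.center A).map e.toMonoidHom = Subgroup.center B := by
    ext v
    constructor
    · rintro ⟨u, hu, rfl⟩
      refine Subgroup.mem_center_iff.mpr fun w => ?_
      obtain ⟨w', rfl⟩ := e.surjective w
      exact (map_mul e _ _).symm.trans
        ((congrArg e (Subgroup.mem_center_iff.mp hu w')).trans (map_mul e _ _))
    · intro hv
      obtain ⟨u, rfl⟩ := e.surjective v
      refine ⟨u, Subgroup.mem_center_iff.mpr fun w => e.injective ?_, rfl⟩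
      rw [map_mul, map_mul]
      exact Subgroup.mem_center_iff.mp hv (e w)
  refine ⟨⟨hp.of_equiv e, ?_, ?_⟩, ?_⟩
  · rw [← hcen, ← hfr]
    apply le_antisymm
    · intro v hv
      obtain ⟨u, rfl⟩ := e.surjective v
      refine ⟨u, ?_, rfl⟩
      have := frattini_le_comap_frattini_of_surjective (φ := e.symm.toMonoidHom) e.symm.surjective hv
      have h' : e.symm (e u) ∈ frattini A := this
      rwa [e.symm_apply_apply] at h'
    · rw [Subgroup.map_le_iff_le_comap]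
      exact frattini_le_comap_frattini_of_surjective (φ := e.toMonoidHom) e.surjective
  · rw [← hcen, ← hcom, commutator_def, commutator_def, Subgroup.map_commutator,
      Subgroup.map_top_of_surjective _ e.surjective]
  · rw [← hcen, Subgroup.card_map_of_injective e.injective, hcard]

open H12 in
/-- The isomorphism for the representative of the class. -/
theorem cent_rep2A_iso (s : Matrix.SpecialLinearGroup (Fin 5) (ZMod 2))
    (hs : (s : Matrix (Fin 5) (Fin 5) (ZMod 2)) = Matrix.transvection 0 1 1) (z : ↥Cfsg.M24)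
    (hz : (z : Equiv.Perm Cfsg.GolayPt) = permOf rep2A) :
    Nonempty (↥(Subgroup.centralizer ({z} : Set Cfsg.M24)) ≃*
      ↥(Subgroup.centralizer ({s} : Set (Matrix.SpecialLinearGroup (Fin 5) (ZMod 2))))) := by
  have hcomm : ∀ g : ↥(Subgroup.centralizer ({z} : Set Cfsg.M24)),
      ((g : Cfsg.M24) : Equiv.Perm Cfsg.GolayPt) * permOf rep2A =
        permOf rep2A * ((g : Cfsg.M24) : Equiv.Perm Cfsg.GolayPt) :=
    fun g => hz ▸ congrArg Subtype.val (Subgroup.mem_centralizer_singleton_iff.mp g.2)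
  have haff := fun g : ↥(Subgroup.centralizer ({z} : Set Cfsg.M24)) => cent_isAff g.1.2 (hcomm g)
  let φ : ↥(Subgroup.centralizer ({z} : Set Cfsg.M24)) →*
      ↥(Subgroup.centralizer ({s} : Set (Matrix.SpecialLinearGroup (Fin 5) (ZMod 2)))) :=
    MonoidHom.mk' (fun g => ⟨⟨centMat g.1.1, centMat_det g.1.2 (hcomm g)⟩,
      Subgroup.mem_centralizer_singleton_iff.mpr (Subtype.ext (by
        show centMat g.1.1 * (s : Matrix (Fin 5) (Fin 5) (ZMod 2)) =
          (s : Matrix (Fin 5) (Fin 5) (ZMod 2)) * centMat g.1.1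
        rw [hs]
        exact centMat_comm (haff g)))⟩)
      (fun g h => Subtype.ext (Subtype.ext (centMat_mul (haff g) (haff h))))
  have hinj : Function.Injective φ := by
    rw [injective_iff_map_eq_one]
    intro g hg
    have hM : centMat g.1.1 = 1 := congrArg (fun x => x.1.1) hg
    have h1 : ((g : Cfsg.M24) : Equiv.Perm Cfsg.GolayPt) = 1 := by
      refine cent_eq_one g.1.2 (hcomm g) fun i hi => ?_
      have h := centMat_mulVec (haff g) hi
      rw [hM, Matrix.one_mulVec] at h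
      exact (affVec_inj i hi _ (haff g i hi).1.1 (congrFun h)).symm
    exact Subtype.ext (Subtype.ext h1)
  have hle := Nat.card_le_card_of_injective φ hinj
  have h1 := card_centralizer_transvection s hs
  have h2 := cent2A_card_ge z hz
  exact ⟨MulEquiv.ofBijective φ
    ((Nat.bijective_iff_injective_and_card φ).mpr ⟨hinj, by omega⟩)⟩

open H12 H11 in
/-- The centralizer of an octad involution. -/
theorem octad_involution_large (z : ↥Cfsg.M24) (hz : orderOf z = 2)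
    (hfix : fixPts (z : Equiv.Perm Cfsg.GolayPt) ∈ Cfsg.octads) (Q : Subgroup ↥Cfsg.M24)
    (hQ : Q = (Cfsg.pCore 2 ↥(Subgroup.centralizer ({z} : Set ↥Cfsg.M24))).map
      (Subgroup.centralizer ({z} : Set ↥Cfsg.M24)).subtype) :
    Cfsg.IsExtraspecial 2 ↥Q ∧ Nat.card ↥Q = 2 ^ 7 ∧
    (∃ E : Subgroup ↥Cfsg.M24, E ≤ Q ∧ Cfsg.IsElementaryAbelian 2 E ∧ Nat.card ↥E = 2 ^ 4) ∧
    Cfsg.IsLargeExtraspecial Q ∧ ∃ K : Subgroup ↥Cfsg.M24,
      K ≤ Subgroup.centralizer ({z} : Set ↥Cfsg.M24) ∧ Q ⊓ K = ⊥ ∧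
      Q ⊔ K = Subgroup.centralizer ({z} : Set ↥Cfsg.M24) ∧
      Nonempty (↥K ≃* Matrix.SpecialLinearGroup (Fin 3) (ZMod 2)) := by
  have : Fact (Nat.Prime 2) := ⟨Nat.prime_two⟩
  have hz1 : z ≠ 1 := by intro h; rw [h, orderOf_one] at hz; omega
  have hO8 : (fixPts (z : Equiv.Perm Cfsg.GolayPt)).card = 8 := hfix.2
  have class2A : ∀ y : ↥Cfsg.M24, orderOf y = 2 → (fixPts (y : Equiv.Perm Cfsg.GolayPt)).Nonempty →
      ((fixPts (y : Equiv.Perm Cfsg.GolayPt)).card = 8 ∧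
        ∃ k : ↥Cfsg.M24, (k⁻¹ * y * k : ↥Cfsg.M24).1 = permOf rep2A) := by
    intro y hy hne
    rcases involution_cases y.2 (by rw [Subgroup.orderOf_coe]; exact hy) with ⟨h, k, hk, hyk⟩ | ⟨h, -⟩
    · refine ⟨h.2, ⟨k, hk⟩, ?_⟩
      simp only [Subgroup.coe_mul, InvMemClass.coe_inv, hyk]
      group
    · rw [h] at hne; exact absurd hne Finset.not_nonempty_empty
  obtain ⟨-, k, hk⟩ := class2A z hz (Finset.card_pos.mp (by omega))
  obtain ⟨s, hs⟩ : ∃ s : Matrix.SpecialLinearGroup (Fin 5) (ZMod 2),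
      (s : Matrix (Fin 5) (Fin 5) (ZMod 2)) = Matrix.transvection 0 1 1 :=
    ⟨Trans.tz 3, Trans.tz_val⟩
  set Cz := Subgroup.centralizer ({z} : Set ↥Cfsg.M24) with hCz
  set Cs := Subgroup.centralizer ({s} : Set (Matrix.SpecialLinearGroup (Fin 5) (ZMod 2))) with hCs
  obtain ⟨e0⟩ := cent_rep2A_iso s hs (k⁻¹ * z * k) hk
  have hmap : Cz.map (MulAut.conj k⁻¹).toMonoidHom =
      Subgroup.centralizer ({k⁻¹ * z * k} : Set ↥Cfsg.M24) := by
    ext x
    simp only [Subgroup.mem_map, hCz, Subgroup.mem_centralizer_singleton_iff,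
      MulEquiv.coe_toMonoidHom, MulAut.conj_apply, inv_inv]
    constructor
    · rintro ⟨y, hy, rfl⟩
      calc k⁻¹ * y * k * (k⁻¹ * z * k) = k⁻¹ * (y * z) * k := by group
        _ = k⁻¹ * z * k * (k⁻¹ * y * k) := by rw [hy]; group
    · intro hx
      refine ⟨k * x * k⁻¹, ?_, by group⟩
      calc k * x * k⁻¹ * z = k * (x * (k⁻¹ * z * k)) * k⁻¹ := by group
        _ = z * (k * x * k⁻¹) := by rw [hx]; group
  let e : ↥Cz ≃* ↥Cs :=
    ((MulAut.conj k⁻¹).subgroupMap Cz).trans ((MulEquiv.subgroupCongr hmap).trans e0)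
  obtain ⟨hsE, hsC, ⟨Es, hEs, hEse, hEsc⟩, hsL, Ks, hKs, hQKi, hQKs, ⟨eK⟩⟩ :=
    transvection_large 3 (by norm_num) s hs _ rfl
  set Qs := (Cfsg.pCore 2 ↥Cs).map Cs.subtype with hQs
  let φ : ↥Cs →* ↥Cfsg.M24 := Cz.subtype.comp e.symm.toMonoidHom
  have hφi : Function.Injective φ := Cz.subtype_injective.comp e.symm.injective
  have hφr : ∀ H : Subgroup ↥Cs, H.map φ ≤ Cz := by
    rintro H - ⟨x, -, rfl⟩
    exact (e.symm x).2
  have hsub : Qs.subgroupOf Cs = Cfsg.pCore 2 ↥Cs :=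
    Subgroup.comap_map_eq_self_of_injective Cs.subtype_injective _
  have hQsC : Qs ≤ Cs := Subgroup.map_subtype_le _
  have hTQ : (Qs.subgroupOf Cs).map φ = Q := by
    rw [hsub, hQ, ← Subgroup.map_map, H51.pCore_map_equiv 2 e.symm]
  let eQ : ↥Qs ≃* ↥Q := (Subgroup.subgroupOfEquivOfLe hQsC).symm.trans
    (((Qs.subgroupOf Cs).equivMapOfInjective φ hφi).trans (MulEquiv.subgroupCongr hTQ))
  have hext : Cfsg.IsExtraspecial 2 ↥Q := extraspecial_of_equiv' eQ hsE
  have hcard : Nat.card ↥Q = 2 ^ 7 := by rw [← Nat.card_congr eQ.toEquiv, hsC]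
  have hQC : Q ≤ Cz := hQ ▸ Subgroup.map_subtype_le _
  have hQn : Cz ≤ Subgroup.normalizer (Q : Set ↥Cfsg.M24) := by
    intro a ha
    refine Subgroup.mem_normalizer_fintype fun q hq => ?_
    rw [hQ] at hq ⊢
    obtain ⟨x, hx, rfl⟩ := Subgroup.mem_map.mp hq
    exact Subgroup.mem_map.mpr ⟨⟨a, ha⟩ * x * (⟨a, ha⟩ : ↥Cz)⁻¹,
      (Cfsg.pCore_normal 2 ↥Cz).conj_mem x hx _, rfl⟩
  -- the pointwise stabilizer of the octad
  set O := fixPts (z : Equiv.Perm Cfsg.GolayPt) with hO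
  let F : Subgroup ↥Cfsg.M24 := (fixM24 O).subgroupOf Cfsg.M24
  have hzF : z ∈ F := mem_fixM24.mpr ⟨z.2, fun x hx => (Finset.mem_filter.mp hx).2⟩
  have hFsq : ∀ a ∈ F, a * a = 1 := fun a ha => Subtype.ext (mul_self_of_mem_fixM24 hfix ha)
  have hFcomm : ∀ a ∈ F, ∀ b ∈ F, a * b = b * a := by
    intro a ha b hb
    have h1 := hFsq _ (F.mul_mem ha hb)
    rw [← inv_eq_of_mul_eq_one_right h1, mul_inv_rev, inv_eq_of_mul_eq_one_right (hFsq a ha),
      inv_eq_of_mul_eq_one_right (hFsq b hb)]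
  have hFC : F ≤ Cz := fun a ha =>
    Subgroup.mem_centralizer_singleton_iff.mpr (hFcomm a ha z hzF)
  have hFQ : F ≤ Q := by
    have hn : (F.subgroupOf Cz).Normal := ⟨fun x hx g => by
      have hg : (g.1 : Equiv.Perm Cfsg.GolayPt) • O = O := by
        rw [hO, ← fixPts_conj]
        congr 1
        have := congrArg Subtype.val (Subgroup.mem_centralizer_singleton_iff.mp g.2)
        simp only [Subgroup.coe_mul] at this
        rw [this, mul_inv_cancel_right]
      show (g.1.1 * x.1.1 * g.1.1⁻¹) ∈ fixM24 O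
      have h := conj_mem_fixM24 (o := O) g.1.2 hx
      rwa [hg] at h⟩
    have hp : IsPGroup 2 ↥(F.subgroupOf Cz) := fun x => ⟨1, by
      apply Subtype.ext
      apply Subtype.ext
      simpa [pow_two] using hFsq _ x.2⟩
    have hle : F.subgroupOf Cz ≤ Cfsg.pCore 2 ↥Cz := le_sSup ⟨hn, hp⟩
    intro a ha
    rw [hQ]
    exact ⟨⟨a, hFC ha⟩, hle ha, rfl⟩
  have hcent : Subgroup.centralizer (Q : Set ↥Cfsg.M24) =
      (Subgroup.center ↥Q).map Q.subtype := by
    refine le_antisymm (fun x hx => ?_) ?_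
    · have hxC : x ∈ Cz := Subgroup.mem_centralizer_singleton_iff.mpr (hx z (hFQ hzF)).symm
      have hxs : (e ⟨x, hxC⟩ : Matrix.SpecialLinearGroup (Fin 5) (ZMod 2)) ∈
          Subgroup.centralizer (Qs : Set (Matrix.SpecialLinearGroup (Fin 5) (ZMod 2))) := by
        rintro q hq
        have h1 : φ ⟨q, hQsC hq⟩ ∈ Q := hTQ ▸ ⟨⟨q, hQsC hq⟩, hq, rfl⟩
        have h2 : (e.symm ⟨q, hQsC hq⟩ : ↥Cz) * ⟨x, hxC⟩ = ⟨x, hxC⟩ * e.symm ⟨q, hQsC hq⟩ :=
          Subtype.ext (hx _ h1)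
        have h3 := congrArg e h2
        rw [map_mul, map_mul, e.apply_symm_apply] at h3
        exact congrArg Subtype.val h3
      rw [hsL.2.1] at hxs
      obtain ⟨w, -, hw⟩ := hxs
      have hxQ : x ∈ Q := by
        have h1 : φ (e ⟨x, hxC⟩) ∈ Q := hTQ ▸ ⟨e ⟨x, hxC⟩,
          show (e ⟨x, hxC⟩ : Matrix.SpecialLinearGroup (Fin 5) (ZMod 2)) ∈ Qs from hw ▸ w.2, rfl⟩
        have h2 : φ (e ⟨x, hxC⟩) = x := by simp [φ]
        rwa [h2] at h1
      exact ⟨⟨x, hxQ⟩, Subgroup.mem_center_iff.mpr fun y => Subtype.ext (hx y y.2), rfl⟩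
    · rintro - ⟨x, hx, rfl⟩ y hy
      exact congrArg Subtype.val (Subgroup.mem_center_iff.mp hx ⟨y, hy⟩)
  obtain ⟨z', -, -, -, hmem⟩ := centerMap_eq_pair Q hext
  have hzZ : z ∈ (Subgroup.center ↥Q).map Q.subtype :=
    ⟨⟨z, hFQ hzF⟩, Subgroup.mem_center_iff.mpr fun y => Subtype.ext
      (Subgroup.mem_centralizer_singleton_iff.mp (hQC y.2)), rfl⟩
  have hzz : z = z' := ((hmem _).mp hzZ).resolve_left hz1
  -- a second conjugate
  obtain ⟨b, hbF, hb1, hbz⟩ : ∃ b ∈ F, b ≠ 1 ∧ b ≠ z := by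
    by_contra hc
    push Not at hc
    have h16 : Nat.card ↥F = 16 := by
      rw [Nat.card_congr (Subgroup.subgroupOfEquivOfLe (inf_le_left)).toEquiv]
      exact card_fixM24 hfix
    have hsub : (F : Set ↥Cfsg.M24) ⊆ {1, z} := fun a ha => by
      by_cases h : a = 1
      · exact Or.inl h
      · exact Or.inr (hc a ha h)
    have h2 := Set.ncard_le_ncard hsub (Set.toFinite _)
    rw [Set.ncard_pair hz1.symm] at h2
    rw [← Nat.card_coe_set_eq] at h2
    have : Nat.card ↥(F : Set ↥Cfsg.M24) = 16 := h16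
    omega
  have hb2 : orderOf b = 2 := orderOf_eq_prime (by rw [pow_two]; exact hFsq b hbF) hb1
  obtain ⟨-, k', hk'⟩ := class2A b hb2 <| by
    obtain ⟨x, hx⟩ := Finset.card_pos.mp (show 0 < O.card by omega)
    exact ⟨x, Finset.mem_filter.mpr ⟨Finset.mem_univ _, (mem_fixM24.mp hbF).2 x hx⟩⟩
  let g : ↥Cfsg.M24 := k' * k⁻¹
  have hgb : g * z * g⁻¹ = b := by
    have hkk : k'⁻¹ * b * k' = k⁻¹ * z * k := Subtype.ext (hk'.trans hk.symm)
    calc g * z * g⁻¹ = k' * (k⁻¹ * z * k) * k'⁻¹ := by simp only [g]; group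
      _ = b := by rw [← hkk]; group
  refine ⟨hext, hcard, ⟨(Es.subgroupOf Cs).map φ, ?_, ⟨⟨⟨?_⟩⟩, ?_⟩, ?_⟩, ?_,
    (Ks.subgroupOf Cs).map φ, hφr _, ?_, ?_, ⟨?_⟩⟩
  · rw [← hTQ]
    exact Subgroup.map_mono (Subgroup.comap_mono hEs)
  · rintro ⟨-, x, hx, rfl⟩ ⟨-, y, hy, rfl⟩
    apply Subtype.ext
    show φ x * φ y = φ y * φ x
    rw [← map_mul, ← map_mul]
    refine congrArg φ (Subtype.ext ?_)
    have h := congrArg Subtype.val (hEse.1.is_comm.comm (⟨x.1, hx⟩ : ↥Es) ⟨y.1, hy⟩)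
    exact h
  · rintro - ⟨x, hx, rfl⟩
    rw [← map_pow, show x ^ 2 = 1 from Subtype.ext (by simpa using hEse.2 x.1 hx), map_one]
  · rw [← Nat.card_congr ((Es.subgroupOf Cs).equivMapOfInjective φ hφi).toEquiv,
      Nat.card_congr (Subgroup.subgroupOfEquivOfLe (hEs.trans hQsC)).toEquiv, hEsc]
  · refine (S5422.result Q hext hcent ?_ 3 (by norm_num) hcard g ?_ ?_).2.2
    · exact fun a ha => hQn (Subgroup.mem_centralizer_singleton_iff.mpr (ha z hzZ).symm)
    · intro hg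
      rcases (hmem _).mp ((Subgroup.mem_normalizer_iff.mp hg _).mp hzZ) with h | h
      · exact hz1 (conj_eq_one_iff.mp h)
      · rw [hgb, ← hzz] at h; exact hbz h
    · rintro - ⟨w, hw, rfl⟩
      rcases (hmem w).mp hw with h | h
      · rw [h, map_one]; exact one_mem _
      · rw [h, ← hzz]
        show g * z * g⁻¹ ∈ Q
        rw [hgb]; exact hFQ hbF
  · rw [← hTQ, ← Subgroup.map_inf _ _ _ hφi]
    have : Qs.subgroupOf Cs ⊓ Ks.subgroupOf Cs = ⊥ := by
      show Qs.comap Cs.subtype ⊓ Ks.comap Cs.subtype = ⊥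
      rw [← Subgroup.comap_inf, hQKi]
      exact MonoidHom.ker_eq_bot_iff _ |>.mpr Cs.subtype_injective
    rw [this, Subgroup.map_bot]
  · rw [← hTQ, ← Subgroup.map_sup, ← Subgroup.subgroupOf_sup hQsC hKs, hQKs, Subgroup.subgroupOf_self]
    refine le_antisymm (hφr _) fun x hx => ⟨e ⟨x, hx⟩, trivial, by simp [φ]⟩
  · exact ((Ks.subgroupOf Cs).equivMapOfInjective φ hφi).symm.trans
      ((Subgroup.subgroupOfEquivOfLe hKs).trans eK)

end Cfsg.Agent.H18
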