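import Cfsg.Agent.H19.Cores
import Cfsg.Agent.H24.PGroupBasic
import Cfsg.Agent.H22.Fusion
import Cfsg.Agent.H49.Homs
import Cfsg.Agent.S0111
import Cfsg.Agent.S0215

/-! An involution centralizer which is a Sylow 2-subgroup with Frattini subgroup generated by the
involution, in a simple group. -/

set_option autoImplicit false

namespace Cfsg.Agent.H18

open scoped commutatorElement

variable {G : Type*} [Group G] [Finite G]

/-- The centralizer of `z` is a Sylow 2-subgroup with commutators and squares in `{1, z}`. -/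
structure SmallPhi (R : Sylow 2 G) (z : G) : Prop where
  zz : z * z = 1
  zne : z ≠ 1
  mem : ∀ x : G, x ∈ R ↔ x * z = z * x
  comm : ∀ x ∈ R, ∀ y ∈ R, x * y * x⁻¹ * y⁻¹ = 1 ∨ x * y * x⁻¹ * y⁻¹ = z
  sq : ∀ x ∈ R, x * x = 1 ∨ x * x = z
  gen : ∃ x ∈ R, ∃ y ∈ R, x * y * x⁻¹ * y⁻¹ = z ∨ x * x = z

namespace SmallPhi

variable {R : Sylow 2 G} {z : G} (o : SmallPhi R z)
include o

theorem z_mem : z ∈ R := (o.mem z).mpr rfl

/-- An element of `R` which is central in `R`. -/
theorem comm_z {x : G} (hx : x ∈ R) : x * z = z * x := (o.mem x).mp hx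

theorem norm_fix {n : G} (hn : n ∈ Subgroup.normalizer ((R : Subgroup G) : Set G)) :
    n * z * n⁻¹ = z := by
  have hc : ∀ a ∈ R, n * a * n⁻¹ ∈ R := fun a ha => (Subgroup.mem_normalizer_iff.mp hn a).mp ha
  obtain ⟨x, hx, y, hy, h | h⟩ := o.gen
  · have e : n * z * n⁻¹ = (n * x * n⁻¹) * (n * y * n⁻¹) * (n * x * n⁻¹)⁻¹ * (n * y * n⁻¹)⁻¹ := by
      rw [← h]; group
    rcases o.comm _ (hc x hx) _ (hc y hy) with e' | e'
    · exact absurd (conj_eq_one_iff.mp (e.trans e')) o.zne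
    · exact e.trans e'
  · have e : n * z * n⁻¹ = (n * x * n⁻¹) * (n * x * n⁻¹) := by rw [← h]; group
    rcases o.sq _ (hc x hx) with e' | e'
    · exact absurd (conj_eq_one_iff.mp (e.trans e')) o.zne
    · exact e.trans e'

/-- Conjugate central elements of `R` are equal. -/
theorem central_fusion {a : G} (ha : a ∈ Subgroup.centralizer ((R : Subgroup G) : Set G)) (g : G)
    (hb : g * a * g⁻¹ ∈ Subgroup.centralizer ((R : Subgroup G) : Set G)) : g * a * g⁻¹ = a := by
  have : Fact (Nat.Prime 2) := ⟨Nat.prime_two⟩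
  obtain ⟨n, hn, he⟩ := H22.burnside_fusion_central R ha g hb
  have hnR : n ∈ (R : Subgroup G) := (o.mem n).mpr (mul_inv_eq_iff_eq_mul.mp (o.norm_fix hn))
  rw [← he, ha n hnR, mul_inv_cancel_right]

/-- The other conjugates of `z` in `R` are not central. -/
theorem noncentral {g : G} (ht : g * z * g⁻¹ ∈ R) (htz : g * z * g⁻¹ ≠ z) :
    ∃ u ∈ R, u * (g * z * g⁻¹) * u⁻¹ = z * (g * z * g⁻¹) := by
  by_contra hcon
  push Not at hcon
  refine htz (o.central_fusion (fun x hx => (o.mem x).mp hx) g fun x hx => ?_)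
  rcases o.comm x hx _ ht with e | e
  · rwa [mul_inv_eq_one, mul_inv_eq_iff_eq_mul] at e
  · exact absurd (mul_inv_eq_iff_eq_mul.mp e) (hcon x hx)

theorem mem_conj {g x : G} (hx : x * (g * z * g⁻¹) = (g * z * g⁻¹) * x) : g⁻¹ * x * g ∈ R := by
  refine (o.mem _).mpr ?_
  calc g⁻¹ * x * g * z = g⁻¹ * (x * (g * z * g⁻¹)) * g := by group
    _ = g⁻¹ * (g * z * g⁻¹ * x) * g := by rw [hx]
    _ = z * (g⁻¹ * x * g) := by group

/-- Elements of `R` commuting with another conjugate are involutions. -/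
theorem sq_eq_one {g x : G} (htz : g * z * g⁻¹ ≠ z) (hx : x ∈ R)
    (hxt : x * (g * z * g⁻¹) = (g * z * g⁻¹) * x) : x * x = 1 := by
  rcases o.sq x hx with e | e
  · exact e
  exfalso
  have h : g⁻¹ * z * g = (g⁻¹ * x * g) * (g⁻¹ * x * g) := by rw [← e]; group
  rcases o.sq _ (o.mem_conj hxt) with e' | e'
  · apply o.zne
    have h2 := h.trans e'
    calc z = g * (g⁻¹ * z * g) * g⁻¹ := by group
      _ = 1 := by rw [h2]; group
  · apply htz
    have h2 := h.trans e'
    calc g * z * g⁻¹ = g * (g⁻¹ * z * g) * g⁻¹ := by rw [h2]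
      _ = z := by group

/-- The transvection in the conjugate of `R`. -/
theorem exists_v {g : G} (ht : g * z * g⁻¹ ∈ R) (htz : g * z * g⁻¹ ≠ z) :
    ∃ v, v * (g * z * g⁻¹) = (g * z * g⁻¹) * v ∧ v * z * v⁻¹ = z * (g * z * g⁻¹) ∧
      ∀ y, y * (g * z * g⁻¹) = (g * z * g⁻¹) * y →
        v * y * v⁻¹ * y⁻¹ = 1 ∨ v * y * v⁻¹ * y⁻¹ = g * z * g⁻¹ := by
  have hne : g⁻¹ * z * g⁻¹⁻¹ ≠ z := fun e => htz (by
    calc g * z * g⁻¹ = g * (g⁻¹ * z * g⁻¹⁻¹) * g⁻¹ := by rw [e]
      _ = z := by group)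
  have hm : g⁻¹ * z * g⁻¹⁻¹ ∈ R := by
    rw [inv_inv]; exact o.mem_conj (o.comm_z ht).symm
  obtain ⟨u, hu, hue⟩ := o.noncentral hm hne
  have hcv : (g * u * g⁻¹) * (g * z * g⁻¹) = (g * z * g⁻¹) * (g * u * g⁻¹) := by
    calc (g * u * g⁻¹) * (g * z * g⁻¹) = g * (u * z) * g⁻¹ := by group
      _ = g * (z * u) * g⁻¹ := by rw [o.comm_z hu]
      _ = (g * z * g⁻¹) * (g * u * g⁻¹) := by group
  refine ⟨g * u * g⁻¹, hcv, ?_, ?_⟩
  · calc g * u * g⁻¹ * z * (g * u * g⁻¹)⁻¹ = g * (u * (g⁻¹ * z * g⁻¹⁻¹) * u⁻¹) * g⁻¹ := by group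
      _ = (g * z * g⁻¹) * z := by rw [hue]; group
      _ = z * (g * z * g⁻¹) := o.comm_z ht
  · intro y hy
    have e : g * u * g⁻¹ * y * (g * u * g⁻¹)⁻¹ * y⁻¹ =
        g * (u * (g⁻¹ * y * g) * u⁻¹ * (g⁻¹ * y * g)⁻¹) * g⁻¹ := by group
    rcases o.comm u hu _ (o.mem_conj hy) with e' | e' <;> rw [e, e']
    · left; group
    · right; rfl

/-- Two other conjugates of `z` in `R` congruent modulo the centre differ by a power of `z`. -/
theorem coset {g g' : G} (ht : g * z * g⁻¹ ∈ R) (htz : g * z * g⁻¹ ≠ z)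
    (hζ : (g * z * g⁻¹) * (g' * z * g'⁻¹) ∈ Subgroup.centralizer ((R : Subgroup G) : Set G)) :
    g' * z * g'⁻¹ = g * z * g⁻¹ ∨ g' * z * g'⁻¹ = z * (g * z * g⁻¹) := by
  obtain ⟨u, hu, hut⟩ := o.noncentral ht htz
  obtain ⟨v, hvt, hvz, hv⟩ := o.exists_v ht htz
  set t := g * z * g⁻¹ with htdef
  set ζ := t * (g' * z * g'⁻¹) with hζdef
  have htt : t * t = 1 := o.sq_eq_one htz ht rfl
  have hzt : t * z = z * t := o.comm_z ht
  have hζt : ζ * t = t * ζ := (hζ t ht).symm
  have hzc : z ∈ Subgroup.centralizer ((R : Subgroup G) : Set G) := fun x hx => o.comm_z hx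
  have hzζ : ζ * z = z * ζ := (hζ z o.z_mem).symm
  -- choose `ε ∈ {ζ, ζ z}` fixed by `v`
  obtain ⟨ε, hεc, hvε, hε⟩ : ∃ ε ∈ Subgroup.centralizer ((R : Subgroup G) : Set G),
      v * ε * v⁻¹ = ε ∧ (ζ = ε ∨ ζ = ε * z) := by
    rcases hv ζ hζt with e | e
    · exact ⟨ζ, hζ, mul_inv_eq_one.mp e, Or.inl rfl⟩
    · refine ⟨ζ * z, mul_mem hζ hzc, ?_, Or.inr ?_⟩
      · have e' : v * ζ * v⁻¹ = t * ζ := mul_inv_eq_iff_eq_mul.mp e
        calc v * (ζ * z) * v⁻¹ = (v * ζ * v⁻¹) * (v * z * v⁻¹) := by group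
          _ = (t * ζ) * (z * t) := by rw [e', hvz]
          _ = (ζ * t) * (t * z) := by rw [hζt, hzt]
          _ = ζ * (t * t) * z := by group
          _ = ζ * z := by rw [htt, mul_one]
      · rw [mul_assoc, o.zz, mul_one]
  have huε : u * ε * u⁻¹ = ε := by rw [hεc u hu, mul_inv_cancel_right]
  have huz : u * z * u⁻¹ = z := by rw [o.comm_z hu, mul_inv_cancel_right]
  have hv1 : v * (z * ε) * v⁻¹ = z * t * ε := by
    calc v * (z * ε) * v⁻¹ = (v * z * v⁻¹) * (v * ε * v⁻¹) := by group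
      _ = z * t * ε := by rw [hvz, hvε]
  have hu1 : u * (z * t * ε) * u⁻¹ = t * ε := by
    calc u * (z * t * ε) * u⁻¹ = (u * z * u⁻¹) * (u * t * u⁻¹) * (u * ε * u⁻¹) := by group
      _ = z * (z * t) * ε := by rw [huz, hut, huε]
      _ = t * ε := by rw [← mul_assoc z, o.zz, one_mul]
  have hg' : g' * z * g'⁻¹ = t * ζ := by rw [hζdef, ← mul_assoc, htt, one_mul]
  have hεz : z * ε = z := by
    obtain ⟨k, hk⟩ : ∃ k, k * (z * ε) * k⁻¹ = g' * z * g'⁻¹ := by
      rcases hε with e | e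
      · refine ⟨u * v, ?_⟩
        calc u * v * (z * ε) * (u * v)⁻¹ = u * (v * (z * ε) * v⁻¹) * u⁻¹ := by group
          _ = g' * z * g'⁻¹ := by rw [hv1, hu1, hg', e]
      · refine ⟨v, ?_⟩
        have hεz' : ε * z = z * ε := (hεc z o.z_mem).symm
        rw [hv1, hg', e, hεz', ← mul_assoc t z ε, hzt]
    have h2 : (g'⁻¹ * k) * (z * ε) * (g'⁻¹ * k)⁻¹ = z := by
      calc (g'⁻¹ * k) * (z * ε) * (g'⁻¹ * k)⁻¹ = g'⁻¹ * (k * (z * ε) * k⁻¹) * g' := by group
        _ = z := by rw [hk]; group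
    have h3 := o.central_fusion (mul_mem hzc hεc) (g'⁻¹ * k) (by rw [h2]; exact hzc)
    exact h3.symm.trans h2
  have hε1 : ε = 1 := mul_eq_left.mp hεz
  rcases hε with e | e <;> rw [hg', e, hε1]
  · left; rw [mul_one]
  · right; rw [one_mul, hzt]

/-- Writing an element of `R` with respect to a transvection. -/
theorem mem_or {t u x : G} (ht : t ∈ R) (hu : u ∈ R) (hut : u * t * u⁻¹ = z * t) (hx : x ∈ R) :
    x * t = t * x ∨ u⁻¹ * x * t = t * (u⁻¹ * x) := by
  rcases o.comm x hx t ht with e | e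
  · left; rwa [mul_inv_eq_one, mul_inv_eq_iff_eq_mul] at e
  · right
    have h1 : x * t * x⁻¹ = z * t := mul_inv_eq_iff_eq_mul.mp e
    calc u⁻¹ * x * t = u⁻¹ * (x * t * x⁻¹) * x := by group
      _ = u⁻¹ * (u * t * u⁻¹) * x := by rw [h1, hut]
      _ = t * (u⁻¹ * x) := by group

/-- An element commuting with `t` is central in `R` or is so after multiplication by `t`. -/
theorem central_or {g u a : G} (ht : g * z * g⁻¹ ∈ R) (htz : g * z * g⁻¹ ≠ z) (hu : u ∈ R)
    (hut : u * (g * z * g⁻¹) * u⁻¹ = z * (g * z * g⁻¹)) (ha : a ∈ R)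
    (hat : a * (g * z * g⁻¹) = (g * z * g⁻¹) * a) :
    a ∈ Subgroup.centralizer ((R : Subgroup G) : Set G) ∨
      a * (g * z * g⁻¹) ∈ Subgroup.centralizer ((R : Subgroup G) : Set G) := by
  set t := g * z * g⁻¹ with htdef
  have htt : t * t = 1 := o.sq_eq_one htz ht rfl
  have key : ∀ b ∈ R, b * t = t * b → u * b = b * u →
      b ∈ Subgroup.centralizer ((R : Subgroup G) : Set G) := by
    intro b hb hbt hub x hx
    have hA : ∀ y ∈ R, y * t = t * y → y * b = b * y := by
      intro y hy hyt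
      have hyy := o.sq_eq_one htz hy hyt
      have hbb := o.sq_eq_one htz hb hbt
      have hyb : y * b * (y * b) = 1 := o.sq_eq_one htz (mul_mem hy hb) (by
        show y * b * t = t * (y * b)
        rw [mul_assoc, hbt, ← mul_assoc, hyt, mul_assoc])
      calc y * b = y * b * ((y * b * (y * b))⁻¹) := by rw [hyb, inv_one, mul_one]
        _ = b⁻¹ * y⁻¹ := by group
        _ = b * y := by rw [inv_eq_of_mul_eq_one_right hbb, inv_eq_of_mul_eq_one_right hyy]
    rcases o.mem_or ht hu hut hx with e | e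
    · exact hA x hx e
    · have h := hA _ (mul_mem (inv_mem hu) hx) e
      calc x * b = u * (u⁻¹ * x * b) := by group
        _ = (u * b) * (u⁻¹ * x) := by rw [h]; group
        _ = b * x := by rw [hub]; group
  rcases o.comm u hu a ha with e | e
  · left
    rw [mul_inv_eq_one, mul_inv_eq_iff_eq_mul] at e
    exact key a ha hat e
  · right
    have h1 : u * a * u⁻¹ = z * a := mul_inv_eq_iff_eq_mul.mp e
    refine key _ (mul_mem ha ht) (by rw [← mul_assoc t a t, ← hat]) ?_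
    calc u * (a * t) = (u * a * u⁻¹) * (u * t * u⁻¹) * u := by group
      _ = z * (a * z) * t * u := by rw [h1, hut]; group
      _ = a * t * u := by rw [o.comm_z ha, ← mul_assoc z, o.zz, one_mul]

/-- In a simple group the Sylow subgroup is dihedral of order 8. -/
theorem dihedral [IsSimpleGroup G] (hG : ¬ IsMulCommutative G) :
    Nonempty (↥(R : Subgroup G) ≃* DihedralGroup 4) := by
  classical
  haveI : Fact (Nat.Prime 2) := ⟨Nat.prime_two⟩
  have hord : ∀ {x : G}, x * x = 1 → x ≠ 1 → orderOf x = 2 := fun h h' =>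
    orderOf_eq_prime (by rw [pow_two, h]) h'
  have h2G : 2 ∣ Nat.card G := (hord o.zz o.zne) ▸ orderOf_dvd_natCard z
  -- some other conjugate of `z` lies in `R`
  obtain ⟨g, ht, htz⟩ : ∃ g, g * z * g⁻¹ ∈ R ∧ g * z * g⁻¹ ≠ z := by
    by_contra hcon
    push Not at hcon
    obtain ⟨N, hN, hodd, hc⟩ := S0215.result R z (hord o.zz o.zne) o.z_mem hcon
    rcases (IsSimpleGroup.eq_bot_or_eq_top_of_normal N hN) with e | e
    · subst e
      have hzc : z ∈ Subgroup.center G := Subgroup.mem_center_iff.mpr fun x => by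
        have := Subgroup.mem_bot.mp (hc x)
        rw [mul_inv_eq_one, mul_inv_eq_iff_eq_mul] at this
        exact this.symm
      rcases (IsSimpleGroup.eq_bot_or_eq_top_of_normal (Subgroup.center G) inferInstance) with e | e
      · exact o.zne (Subgroup.mem_bot.mp (e ▸ hzc))
      · exact hG (Subgroup.center_eq_top_iff.mp e)
    · subst e
      rw [Nat.card_congr Subgroup.topEquiv.toEquiv] at hodd
      exact (Nat.not_even_iff_odd.mpr hodd) (even_iff_two_dvd.mpr h2G)
  obtain ⟨u, hu, hut, huw⟩ : ∃ u ∈ R, u * (g * z * g⁻¹) * u⁻¹ = z * (g * z * g⁻¹) ∧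
      ((∃ k : G, u = k * z * k⁻¹) ∨
        ∀ k : G, k * z * k⁻¹ ∈ R → (k * z * k⁻¹) * (g * z * g⁻¹) = (g * z * g⁻¹) * (k * z * k⁻¹)) := by
    by_cases h : ∃ k : G, k * z * k⁻¹ ∈ R ∧
        (k * z * k⁻¹) * (g * z * g⁻¹) ≠ (g * z * g⁻¹) * (k * z * k⁻¹)
    · obtain ⟨k, hk, hne⟩ := h
      refine ⟨_, hk, ?_, Or.inl ⟨k, rfl⟩⟩
      rcases o.comm _ hk _ ht with e | e
      · rw [mul_inv_eq_one, mul_inv_eq_iff_eq_mul] at e
        exact absurd e hne
      · exact mul_inv_eq_iff_eq_mul.mp e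
    · push Not at h
      obtain ⟨u, hu, hut⟩ := o.noncentral ht htz
      exact ⟨u, hu, hut, Or.inr h⟩
  set t := g * z * g⁻¹ with htdef
  have ht1 : t ≠ 1 := fun e => o.zne (conj_eq_one_iff.mp e)
  have htt : t * t = 1 := o.sq_eq_one htz ht rfl
  have hzt : t * z = z * t := o.comm_z ht
  have huz : u * z = z * u := o.comm_z hu
  have hzc : z ∈ Subgroup.centralizer ((R : Subgroup G) : Set G) := fun x hx => o.comm_z hx
  have hut1 : ¬ u * t = t * u := fun e => o.zne (by
    rw [← mul_inv_eq_iff_eq_mul, hut] at e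
    exact mul_eq_right.mp e)
  by_cases hbig : ∀ e ∈ R, e ∈ Subgroup.centralizer ((R : Subgroup G) : Set G) → e = 1 ∨ e = z
  · -- order 8
    have h4 : ∃ A ∈ R, A * A = z ∧ t * A * t⁻¹ = A⁻¹ ∧ ∀ x ∈ R, x * t = t * x ∨ A⁻¹ * x * t = t * (A⁻¹ * x) := by
      have htu : t * u * t⁻¹ = z * u := by
        have e : u * t = z * t * u := mul_inv_eq_iff_eq_mul.mp hut
        calc t * u * t⁻¹ = (z * z) * t * u * t⁻¹ := by rw [o.zz, one_mul]
          _ = z * (z * t * u) * t⁻¹ := by group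
          _ = z * u := by rw [← e]; group
      rcases o.sq u hu with e | e
      · refine ⟨u * t, mul_mem hu ht, ?_, ?_, fun x hx => o.mem_or ht (mul_mem hu ht) ?_ hx⟩
        · calc u * t * (u * t) = (u * t * u⁻¹) * (u * u) * t := by group
            _ = z := by rw [hut, e, mul_one, mul_assoc, htt, mul_one]
        · rw [eq_inv_iff_mul_eq_one]
          calc t * (u * t) * t⁻¹ * (u * t) = t * (u * u) * t := by group
            _ = 1 := by rw [e, mul_one, htt]
        · calc u * t * t * (u * t)⁻¹ = u * t * u⁻¹ := by group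
            _ = z * t := hut
      · refine ⟨u, hu, e, ?_, fun x hx => o.mem_or ht hu hut hx⟩
        rw [eq_inv_iff_mul_eq_one, htu, mul_assoc, e, o.zz]
    obtain ⟨A, hA, hAA, htA, hor⟩ := h4
    have hA4 : orderOf A = 2 * 2 := by
      refine orderOf_eq_prime_pow (p := 2) (n := 1) ?_ ?_
      · rw [pow_one, pow_two, hAA]; exact o.zne
      · rw [show 2 ^ (1 + 1) = 2 * 2 from rfl, pow_mul, pow_two A, hAA, pow_two, o.zz]
    have htA' : t ∉ Subgroup.zpowers A := by
      intro h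
      obtain ⟨k, hk⟩ := h
      have hcomm : t * A = A * t := by
        rw [← hk]; exact ((Commute.refl A).zpow_left k).eq
      rw [mul_inv_eq_iff_eq_mul, hcomm] at htA
      have : A * A = 1 := by
        calc A * A = A * (A * t) * t⁻¹ := by group
          _ = 1 := by rw [htA]; group
      exact o.zne (hAA.symm.trans this)
    let φ := H49.dihHom (2 * 2) A t (by rw [← hA4]; exact pow_orderOf_eq_one A) htt htA
    have hmem : ∀ d, φ d ∈ (R : Subgroup G) := by
      rintro (i | i)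
      · exact pow_mem hA _
      · exact mul_mem ht (pow_mem hA _)
    let ψ := φ.codRestrict (R : Subgroup G) hmem
    have hinj : Function.Injective ψ := fun a b h =>
      H49.dihHom_injective hA4 htt htA htA' (congrArg Subtype.val h)
    let S : Finset G := {1, z, t, z * t, A, A * z, A * t, A * (z * t)}
    have hcard : Nat.card ↥(R : Subgroup G) ≤ 8 := by
      have hsub : ∀ x ∈ R, x ∈ S := by
        have hcomm_case : ∀ x ∈ R, x * t = t * x → x = 1 ∨ x = z ∨ x = t ∨ x = z * t := by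
          intro x hx hxt
          rcases o.central_or ht htz hu hut hx hxt with h | h
          · rcases hbig x hx h with e | e
            · exact Or.inl e
            · exact Or.inr (Or.inl e)
          · have hx' : x = x * t * t := by rw [mul_assoc, htt, mul_one]
            rcases hbig _ (mul_mem hx ht) h with e | e
            · exact Or.inr (Or.inr (Or.inl (by rw [hx', e, one_mul])))
            · exact Or.inr (Or.inr (Or.inr (by rw [hx', e])))
        intro x hx
        simp only [S, Finset.mem_insert, Finset.mem_singleton]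
        rcases hor x hx with h | h
        · rcases hcomm_case x hx h with e | e | e | e <;> simp [e]
        · have hx' : x = A * (A⁻¹ * x) := by group
          rcases hcomm_case _ (mul_mem (inv_mem hA) hx) h with e | e | e | e <;>
            rw [hx', e] <;> simp
      calc Nat.card ↥(R : Subgroup G) ≤ Nat.card S :=
            Nat.card_le_card_of_injective (fun x : ↥(R : Subgroup G) => (⟨x.1, hsub x.1 x.2⟩ : S))
              fun a b h => Subtype.ext (congrArg (fun y : S => (y : G)) h)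
        _ ≤ 8 := by
            rw [Nat.card_eq_fintype_card, Fintype.card_coe]
            simp only [S]
            exact (Finset.card_insert_le _ _).trans (Nat.succ_le_succ ((Finset.card_insert_le _ _).trans
              (Nat.succ_le_succ ((Finset.card_insert_le _ _).trans (Nat.succ_le_succ
              ((Finset.card_insert_le _ _).trans (Nat.succ_le_succ ((Finset.card_insert_le _ _).trans
              (Nat.succ_le_succ ((Finset.card_insert_le _ _).trans (Nat.succ_le_succ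
              ((Finset.card_insert_le _ _).trans (Nat.succ_le_succ (Finset.card_singleton _).le)))))))))))))
    have hbij : Function.Bijective ψ := hinj.bijective_of_nat_card_le (by
      rw [DihedralGroup.nat_card]; exact hcard)
    exact ⟨(MulEquiv.ofBijective ψ hbij).symm⟩
  exfalso
  push Not at hbig
  obtain ⟨e, heR, hec, he1, hez⟩ := hbig
  set D1 := Subgroup.zpowers z ⊔ Subgroup.zpowers t with hD1
  set D := D1 ⊔ Subgroup.zpowers u with hD
  have hzD : z ∈ D := Subgroup.mem_sup_left (Subgroup.mem_sup_left (Subgroup.mem_zpowers z))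
  have htD : t ∈ D := Subgroup.mem_sup_left (Subgroup.mem_sup_right (Subgroup.mem_zpowers t))
  have huD : u ∈ D := Subgroup.mem_sup_right (Subgroup.mem_zpowers u)
  -- every conjugate of `z` in `R` lies in `D`
  have hclD : ∀ k : G, k * z * k⁻¹ ∈ R → k * z * k⁻¹ ∈ D := by
    intro k hk
    by_cases hkc : k * z * k⁻¹ ∈ Subgroup.centralizer ((R : Subgroup G) : Set G)
    · rw [o.central_fusion hzc k hkc]; exact hzD
    have hsame : ∀ g₁ : G, g₁ * z * g₁⁻¹ ∈ R → g₁ * z * g₁⁻¹ ≠ z → g₁ * z * g₁⁻¹ ∈ D →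
        (∃ u₁ ∈ R, u₁ * (g₁ * z * g₁⁻¹) * u₁⁻¹ = z * (g₁ * z * g₁⁻¹)) →
        k * z * k⁻¹ * (g₁ * z * g₁⁻¹) = g₁ * z * g₁⁻¹ * (k * z * k⁻¹) → k * z * k⁻¹ ∈ D := by
      rintro g₁ hm hne hD' ⟨u₁, hu₁, hut₁⟩ hc
      rcases o.central_or hm hne hu₁ hut₁ hk hc with h | h
      · exact absurd h hkc
      · rw [hc] at h
        rcases o.coset hm hne h with e | e <;> rw [e]
        exacts [hD', mul_mem hzD hD']
    rcases o.comm _ hk t ht with e' | e'
    · rw [mul_inv_eq_one, mul_inv_eq_iff_eq_mul] at e'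
      exact hsame g ht htz htD ⟨u, hu, hut⟩ e'
    have hnc : ¬ k * z * k⁻¹ * t = t * (k * z * k⁻¹) := by
      intro h
      rw [← mul_inv_eq_iff_eq_mul, ← mul_inv_eq_one] at h
      exact o.zne (e'.symm.trans h)
    rcases huw with ⟨k₁, hk₁⟩ | hall
    swap
    · exact absurd (hall k hk) hnc
    have hk₁R : k₁ * z * k₁⁻¹ ∈ R := hk₁ ▸ hu
    have hk₁z : k₁ * z * k₁⁻¹ ≠ z := fun h => hut1 (by rw [hk₁, h]; exact hzt.symm)
    rcases o.comm _ hk u hu with e'' | e''
    · rw [mul_inv_eq_one, mul_inv_eq_iff_eq_mul] at e''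
      refine hsame k₁ hk₁R hk₁z (hk₁ ▸ huD) (o.noncentral hk₁R hk₁z) ?_
      rwa [← hk₁]
    -- `k z k⁻¹` moves both `t` and `u`
    exfalso
    set c := k * z * k⁻¹ with hcdef
    have hct : (c * u) * t = t * (c * u) := by
      have h1 : c * t * c⁻¹ = z * t := mul_inv_eq_iff_eq_mul.mp e'
      calc (c * u) * t = c * (u * t * u⁻¹) * u := by group
        _ = (c * z) * t * u := by rw [hut]; group
        _ = z * (c * t * c⁻¹) * (c * u) := by rw [o.comm_z hk]; group
        _ = t * (c * u) := by rw [h1, ← mul_assoc z, o.zz, one_mul]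
    have hcc : c * c = 1 := by
      rw [hcdef, conj_mul, o.zz, mul_one, mul_inv_cancel]
    have huu : u * u = 1 := by rw [hk₁, conj_mul, o.zz, mul_one, mul_inv_cancel]
    have hcu : (c * u) * (c * u) = 1 := o.sq_eq_one htz (mul_mem hk hu) hct
    apply o.zne
    calc z = c * u * c⁻¹ * u⁻¹ := e''.symm
      _ = c * u * (c * u) := by
          rw [inv_eq_of_mul_eq_one_right hcc, inv_eq_of_mul_eq_one_right huu]; group
      _ = 1 := hcu
  -- `e ∉ D`
  have hDR : D ≤ (R : Subgroup G) := sup_le (sup_le (Subgroup.zpowers_le.mpr o.z_mem)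
    (Subgroup.zpowers_le.mpr ht)) (Subgroup.zpowers_le.mpr hu)
  have hRn : ∀ H : Subgroup G, H ≤ (R : Subgroup G) → z ∈ H →
      (R : Subgroup G) ≤ Subgroup.normalizer (H : Set G) := by
    intro H hH hzH x hx
    refine Subgroup.mem_normalizer_fintype fun y hy => ?_
    rcases o.comm x hx y (hH hy) with h | h
    · rw [mul_inv_eq_one] at h; rw [h]; exact hy
    · rw [mul_inv_eq_iff_eq_mul] at h; rw [h]; exact mul_mem hzH hy
  have hpow : ∀ (H : Subgroup G) (a : G), a ∈ R → z ∈ H → ∀ n : ℤ, a ^ n ∈ H ∨ a ^ (n - 1) ∈ H := by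
    intro H a ha hzH n
    have h2 : a * a ∈ H := by
      rcases o.sq a ha with h | h <;> rw [h]
      exacts [one_mem _, hzH]
    rcases Int.even_or_odd n with ⟨l, rfl⟩ | ⟨l, rfl⟩
    · left; rw [← two_mul, zpow_mul, zpow_two]; exact zpow_mem h2 l
    · right; rw [add_sub_cancel_right, zpow_mul, zpow_two]; exact zpow_mem h2 l
  have heD : e ∉ D := by
    intro h
    have hzD1 : z ∈ D1 := Subgroup.mem_sup_left (Subgroup.mem_zpowers z)
    have hD1R : D1 ≤ (R : Subgroup G) := le_trans le_sup_left hDR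
    rw [hD, ← SetLike.mem_coe, Subgroup.coe_mul_of_right_le_normalizer_left _ _
      ((Subgroup.zpowers_le.mpr hu).trans (hRn D1 hD1R hzD1))] at h
    obtain ⟨d, hd, y, ⟨n, rfl⟩, hdy⟩ := h
    have hzp : ∀ {w}, w ∈ Subgroup.zpowers z → w = 1 ∨ w = z := fun {w} hw => by
      obtain ⟨l, rfl⟩ := hw
      rcases Int.even_or_odd l with ⟨m, rfl⟩ | ⟨m, rfl⟩
      · left; show z ^ (m + m) = 1; rw [← two_mul, zpow_mul, zpow_two, o.zz, one_zpow]
      · right; show z ^ (2 * m + 1) = z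
        rw [zpow_add_one, zpow_mul, zpow_two, o.zz, one_zpow, one_mul]
    have hD1t : ∀ w ∈ D1, w * t = t * w := by
      intro w hw
      have hle : D1 ≤ Subgroup.centralizer ({t} : Set G) :=
        sup_le (Subgroup.zpowers_le.mpr (Subgroup.mem_centralizer_singleton_iff.mpr hzt.symm))
          (Subgroup.zpowers_le.mpr (Subgroup.mem_centralizer_singleton_iff.mpr rfl))
      exact Subgroup.mem_centralizer_singleton_iff.mp (hle hw)
    have heD1 : e ∈ D1 := by
      rw [← hdy]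
      rcases hpow D1 u hu hzD1 n with h' | h'
      · exact mul_mem hd h'
      · exfalso
        apply hut1
        have hdy' : e = d * u ^ n := hdy.symm
        have hu' : u = (u ^ (n - 1))⁻¹ * d⁻¹ * e := by
          rw [hdy']; group
        have het : e * t = t * e := (hec t ht).symm
        have hC : u ∈ Subgroup.centralizer ({t} : Set G) := by
          rw [hu']
          exact mul_mem (mul_mem (inv_mem (Subgroup.mem_centralizer_singleton_iff.mpr (hD1t _ h')))
            (inv_mem (Subgroup.mem_centralizer_singleton_iff.mpr (hD1t _ hd))))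
            (Subgroup.mem_centralizer_singleton_iff.mpr het)
        exact Subgroup.mem_centralizer_singleton_iff.mp hC
    rw [hD1, ← SetLike.mem_coe, Subgroup.coe_mul_of_right_le_normalizer_left _ _
      ((Subgroup.zpowers_le.mpr ht).trans (hRn _ (Subgroup.zpowers_le.mpr o.z_mem)
        (Subgroup.mem_zpowers z)))] at heD1
    obtain ⟨a, ha, y, ⟨m, rfl⟩, hay⟩ := heD1
    rcases hpow (Subgroup.zpowers z) t ht (Subgroup.mem_zpowers z) m with h' | h'
    · rcases hzp (mul_mem ha h') with e' | e'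
      · exact he1 (hay.symm.trans e')
      · exact hez (hay.symm.trans e')
    · apply hut1
      have hay' : e = a * t ^ m := hay.symm
      have ht' : t = (t ^ (m - 1))⁻¹ * a⁻¹ * e := by rw [hay']; group
      have hwu : ∀ w ∈ Subgroup.zpowers z, w ∈ Subgroup.centralizer ({u} : Set G) := fun w hw =>
        Subgroup.mem_centralizer_singleton_iff.mpr
          ((hzp hw).elim (fun e' => by simp [e']) (fun e' => by rw [e', huz]))
      have hC : t ∈ Subgroup.centralizer ({u} : Set G) := by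
        rw [ht']
        exact mul_mem (mul_mem (inv_mem (hwu _ h')) (inv_mem (hwu _ ha)))
          (Subgroup.mem_centralizer_singleton_iff.mpr (hec u hu).symm)
      exact (Subgroup.mem_centralizer_singleton_iff.mp hC).symm
  -- a maximal subgroup of `R` above `D` avoiding `e`
  obtain ⟨M, ⟨hDM, hMR, heM⟩, hmax⟩ := Set.Finite.exists_maximal
    (Set.toFinite {M : Subgroup G | D ≤ M ∧ M ≤ (R : Subgroup G) ∧ e ∉ M}) ⟨D, le_rfl, hDR, heD⟩
  have hzM : z ∈ M := hDM hzD
  have hMn := hRn M hMR hzM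
  have hcos : ∀ x ∈ R, x ∉ M → e⁻¹ * x ∈ M := by
    intro x hx hxM
    have he' : e ∈ M ⊔ Subgroup.zpowers x := by
      by_contra hcon
      exact hxM (hmax ⟨hDM.trans le_sup_left, sup_le hMR (Subgroup.zpowers_le.mpr hx), hcon⟩
        le_sup_left (Subgroup.mem_sup_right (Subgroup.mem_zpowers x)))
    rw [← SetLike.mem_coe, Subgroup.coe_mul_of_right_le_normalizer_left _ _
      ((Subgroup.zpowers_le.mpr hx).trans hMn)] at he'
    obtain ⟨m, hm, y, ⟨n, rfl⟩, hmy⟩ := he'
    rcases hpow M x hx hzM n with h' | h'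
    · exact absurd (hmy ▸ mul_mem hm h') heM
    · have hmy' : e = m * x ^ n := hmy.symm
      have : e⁻¹ * x = (x ^ (n - 1))⁻¹ * (x⁻¹ * m⁻¹ * x⁻¹⁻¹) := by
        rw [hmy']; group
      rw [this]
      exact mul_mem (inv_mem h')
        ((Subgroup.mem_normalizer_iff.mp (hMn (inv_mem hx)) _).mp (inv_mem hm))
  have hee : e * e = 1 := o.sq_eq_one htz heR (hec t ht).symm
  have hidx : M.relIndex (R : Subgroup G) = 2 := by
    rw [Subgroup.relIndex, Subgroup.index_eq_two_iff']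
    refine ⟨⟨e, heR⟩, fun b => ?_⟩
    simp only [Subgroup.mem_subgroupOf, Subgroup.coe_mul]
    by_cases hb : (b : G) ∈ M
    · refine Or.inr ⟨hb, fun h => heM ?_⟩
      have := mul_mem h (inv_mem hb)
      rwa [mul_inv_cancel_right] at this
    · refine Or.inl ⟨?_, hb⟩
      have := hcos _ b.2 hb
      rwa [inv_eq_of_mul_eq_one_right hee] at this
  rcases S0111.result R M hMR hidx e (hord hee he1) heR heM with ⟨H, hHn, hH2, -⟩ | ⟨g₀, hg₀⟩
  · rcases IsSimpleGroup.eq_bot_or_eq_top_of_normal H hHn with e' | e'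
    · rw [e', Subgroup.index_bot] at hH2
      haveI : IsCyclic G := isCyclic_of_prime_card (p := 2) hH2
      exact hG ⟨⟨fun a b => IsCyclic.commGroup.mul_comm a b⟩⟩
    · rw [e', Subgroup.index_top] at hH2
      omega
  set f := g₀ * e * g₀⁻¹ with hfdef
  have hfR : f ∈ R := hMR hg₀
  by_cases hfc : f ∈ Subgroup.centralizer ((R : Subgroup G) : Set G)
  · exact heM (o.central_fusion hec g₀ hfc ▸ hg₀)
  -- a Sylow subgroup of the centralizer of `f`
  set C := Subgroup.centralizer ({f} : Set G) with hCdef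
  have hcf : ∀ x, x ∈ R → g₀ * x * g₀⁻¹ ∈ C := fun x hx => by
    refine Subgroup.mem_centralizer_singleton_iff.mpr ?_
    calc g₀ * x * g₀⁻¹ * f = g₀ * (x * e) * g₀⁻¹ := by rw [hfdef]; group
      _ = g₀ * (e * x) * g₀⁻¹ := by rw [hec x hx]
      _ = f * (g₀ * x * g₀⁻¹) := by rw [hfdef]; group
  have hP1 : (g₀ • R : Sylow 2 G).toSubgroup ≤ C := by
    rintro - ⟨x, hx, rfl⟩
    exact hcf x hx
  set P₁ := (g₀ • R : Sylow 2 G).subtype hP1 with hP₁
  obtain ⟨P₂, hP₂⟩ := (R.isPGroup'.comap_of_injective C.subtype C.subtype_injective).exists_le_sylow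
  obtain ⟨c, hc⟩ := MulAction.exists_smul_eq ↥C P₁ P₂
  set g₁ := (c : G) * g₀ with hg₁
  have hge : g₁ * e * g₁⁻¹ = f := by
    have := Subgroup.mem_centralizer_singleton_iff.mp c.2
    calc g₁ * e * g₁⁻¹ = (c : G) * f * (c : G)⁻¹ := by rw [hg₁, hfdef]; group
      _ = f := by rw [this, mul_inv_cancel_right]
  have hCR : ∀ x ∈ R, x * f = f * x → g₁⁻¹ * x * g₁ ∈ R := by
    intro x hx hxf
    have hxC : x ∈ C := Subgroup.mem_centralizer_singleton_iff.mpr hxf
    have h2 : (⟨x, hxC⟩ : ↥C) ∈ (P₂ : Subgroup ↥C) := hP₂ hx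
    rw [← hc] at h2
    obtain ⟨y, ⟨r, hr, hre⟩, hy⟩ := h2
    have hyy : (c : G) * (y : G) * (c : G)⁻¹ = x := congrArg Subtype.val hy
    have hre' : g₀ * r * g₀⁻¹ = (y : G) := hre
    have : g₁⁻¹ * x * g₁ = r := by rw [← hyy, ← hre', hg₁]; group
    rw [this]; exact hr
  set z' := g₁ * z * g₁⁻¹ with hz'def
  have hz'z : z' * z = z * z' := by
    have h := o.comm_z (hCR z o.z_mem (o.comm_z hfR).symm)
    calc z' * z = g₁ * (z * (g₁⁻¹ * z * g₁)) * g₁⁻¹ := by rw [hz'def]; group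
      _ = g₁ * ((g₁⁻¹ * z * g₁) * z) * g₁⁻¹ := by rw [h]
      _ = z * z' := by rw [hz'def]; group
  have hz'R : z' ∈ R := (o.mem z').mpr hz'z
  have hfz' : f * z' = z' * f := by
    rw [← hge, hz'def]
    calc g₁ * e * g₁⁻¹ * (g₁ * z * g₁⁻¹) = g₁ * (e * z) * g₁⁻¹ := by group
      _ = g₁ * (z * e) * g₁⁻¹ := by rw [hec z o.z_mem]
      _ = g₁ * z * g₁⁻¹ * (g₁ * e * g₁⁻¹) := by group
  have hz'ne : z' ≠ z := by
    intro h
    have hgR : g₁ ∈ R := (o.mem g₁).mpr (mul_inv_eq_iff_eq_mul.mp h)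
    apply hfc
    rw [← hge, hec g₁ hgR, mul_inv_cancel_right]
    exact hec
  obtain ⟨u', hu', hut'⟩ := o.noncentral hz'R hz'ne
  obtain ⟨v, hvt, hvz, hv⟩ := o.exists_v hz'R hz'ne
  rcases o.central_or hz'R hz'ne hu' hut' hfR hfz' with h | h
  · exact hfc h
  set ζ := f * z' with hζ
  have hz'z' : z' * z' = 1 := o.sq_eq_one hz'ne hz'R rfl
  have hfζ : f = ζ * z' := by rw [hζ, mul_assoc, hz'z', mul_one]
  have hvf : v * f * v⁻¹ = f := by
    have h1 : g₁⁻¹ * v * g₁ ∈ R := o.mem_conj hvt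
    calc v * f * v⁻¹ = g₁ * ((g₁⁻¹ * v * g₁) * e) * (g₁⁻¹ * v * g₁)⁻¹ * g₁⁻¹ := by rw [← hge]; group
      _ = g₁ * (e * (g₁⁻¹ * v * g₁)) * (g₁⁻¹ * v * g₁)⁻¹ * g₁⁻¹ := by rw [hec _ h1]
      _ = f := by rw [← hge]; group
  have hvζ : v * ζ * v⁻¹ = ζ := by
    calc v * ζ * v⁻¹ = (v * f * v⁻¹) * (v * z' * v⁻¹) := by rw [hζ]; group
      _ = ζ := by rw [hvf, hζ, hvt, mul_inv_cancel_right]
  have hu'ζ : u' * ζ * u'⁻¹ = ζ := by rw [h u' hu', mul_inv_cancel_right]
  have hu'z : u' * z * u'⁻¹ = z := by rw [o.comm_z hu', mul_inv_cancel_right]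
  have hk : (u' * v) * (ζ * z) * (u' * v)⁻¹ = f := by
    calc (u' * v) * (ζ * z) * (u' * v)⁻¹ = u' * ((v * ζ * v⁻¹) * (v * z * v⁻¹)) * u'⁻¹ := by group
      _ = (u' * ζ * u'⁻¹) * (u' * z * u'⁻¹) * (u' * z' * u'⁻¹) := by
        rw [hvζ, hvz]; simp only [hz'def]; group
      _ = ζ * z * (z * z') := by rw [hu'ζ, hu'z, hut']
      _ = f := by rw [← mul_assoc, mul_assoc ζ, o.zz, mul_one, hfζ]
  have h2 : (g₁⁻¹ * (u' * v)) * (ζ * z) * (g₁⁻¹ * (u' * v))⁻¹ = e := by
    calc (g₁⁻¹ * (u' * v)) * (ζ * z) * (g₁⁻¹ * (u' * v))⁻¹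
        = g₁⁻¹ * ((u' * v) * (ζ * z) * (u' * v)⁻¹) * g₁ := by group
      _ = e := by rw [hk, ← hge]; group
  have h3 := o.central_fusion (mul_mem h hzc) (g₁⁻¹ * (u' * v)) (by rw [h2]; exact hec)
  rw [h2] at h3
  refine heM ?_
  rw [h3, hζ]
  exact mul_mem (mul_mem hg₀ (hDM (hclD g₁ hz'R))) hzM

end SmallPhi

end Cfsg.Agent.H18
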