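import Cfsg.Agent.H18.GLTwo
import Cfsg.Agent.S5422

/-! The centralizer of a transvection in the special linear group over two elements. -/

set_option autoImplicit false

namespace Cfsg.Agent.H18

open Matrix

namespace Trans

variable {n : ℕ}

/-- The ambient group. -/
abbrev SLp (n : ℕ) : Type := Matrix.SpecialLinearGroup (Fin (n + 2)) (ZMod 2)

/-- The block matrix with corner `c`, row `r`, column `s` and block `A`. -/
def bm (c : ZMod 2) (r s : Fin n → ZMod 2) (A : Matrix (Fin n) (Fin n) (ZMod 2)) :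
    Matrix (Fin (n + 2)) (Fin (n + 2)) (ZMod 2) :=
  Matrix.of (Fin.cons (Fin.cons 1 (Fin.cons c r))
    (Fin.cons (Fin.cons 0 (Fin.cons 1 0)) fun i => Fin.cons 0 (Fin.cons (s i) (A i))))

theorem bm_apply_00 (c : ZMod 2) (r s : Fin n → ZMod 2) (A : Matrix (Fin n) (Fin n) (ZMod 2)) :
    bm c r s A 0 0 = 1 := rfl

theorem bm_mul (c c' : ZMod 2) (r r' s s' : Fin n → ZMod 2)
    (A A' : Matrix (Fin n) (Fin n) (ZMod 2)) :
    bm c r s A * bm c' r' s' A' =
      bm (c' + c + r ⬝ᵥ s') (r' + r ᵥ* A') (s + A.mulVec s') (A * A') := by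
  ext i j
  refine Fin.cases ?_ (fun i => Fin.cases ?_ (fun i => ?_) i) i <;>
    refine Fin.cases ?_ (fun j => Fin.cases ?_ (fun j => ?_) j) j <;>
      simp [bm, Matrix.mul_apply, Fin.sum_univ_succ, dotProduct, Matrix.vecMul, Matrix.mulVec,
        add_assoc]

theorem bm_one : bm 0 0 0 (1 : Matrix (Fin n) (Fin n) (ZMod 2)) = 1 := by
  ext i j
  refine Fin.cases ?_ (fun i => Fin.cases ?_ (fun i => ?_) i) i <;>
    refine Fin.cases ?_ (fun j => Fin.cases ?_ (fun j => ?_) j) j <;>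
      simp [bm, Matrix.one_apply, eq_comm, Fin.ext_iff]

theorem bm_inj {c c' : ZMod 2} {r r' s s' : Fin n → ZMod 2}
    {A A' : Matrix (Fin n) (Fin n) (ZMod 2)} (h : bm c r s A = bm c' r' s' A') :
    c = c' ∧ r = r' ∧ s = s' ∧ A = A' := by
  refine ⟨?_, funext fun i => ?_, funext fun i => ?_, Matrix.ext fun i j => ?_⟩
  · simpa [bm] using congrFun (congrFun h 0) 1
  · simpa [bm] using congrFun (congrFun h 0) i.succ.succ
  · simpa [bm] using congrFun (congrFun h i.succ.succ) 1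
  · simpa [bm] using congrFun (congrFun h i.succ.succ) j.succ.succ

/-- The block element. -/
def elt (c : ZMod 2) (r s : Fin n → ZMod 2) (A : GL (Fin n) (ZMod 2)) : SLp n :=
  ⟨bm c r s A.1, by
    have h : bm c r s A.1 * bm (c + r ⬝ᵥ (A⁻¹ : GL (Fin n) (ZMod 2)).1.mulVec s)
        (r ᵥ* (A⁻¹ : GL (Fin n) (ZMod 2)).1) ((A⁻¹ : GL (Fin n) (ZMod 2)).1.mulVec s)
        (A⁻¹ : GL (Fin n) (ZMod 2)).1 = 1 := by
      rw [bm_mul, ← Units.val_mul, mul_inv_cancel, Units.val_one, ← bm_one]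
      congr 1
      · generalize r ⬝ᵥ (A⁻¹ : GL (Fin n) (ZMod 2)).1.mulVec s = X
        revert c X
        decide
      · funext i; exact CharTwo.add_self_eq_zero _
      · rw [Matrix.mulVec_mulVec, ← Units.val_mul, mul_inv_cancel, Units.val_one, Matrix.one_mulVec]
        funext i; exact CharTwo.add_self_eq_zero _
    have hd := congrArg Matrix.det h
    rw [Matrix.det_mul, Matrix.det_one] at hd
    have key : ∀ a b : ZMod 2, a * b = 1 → a = 1 := by decide
    exact key _ _ hd⟩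

theorem elt_mul (c c' : ZMod 2) (r r' s s' : Fin n → ZMod 2) (A A' : GL (Fin n) (ZMod 2)) :
    elt c r s A * elt c' r' s' A' =
      elt (c' + c + r ⬝ᵥ s') (r' + r ᵥ* A'.1) (s + A.1.mulVec s') (A * A') :=
  Subtype.ext (bm_mul c c' r r' s s' A.1 A'.1)

theorem elt_one : elt (0 : ZMod 2) (0 : Fin n → ZMod 2) 0 1 = 1 := Subtype.ext bm_one

theorem elt_inj {c c' : ZMod 2} {r r' s s' : Fin n → ZMod 2} {A A' : GL (Fin n) (ZMod 2)}
    (h : elt c r s A = elt c' r' s' A') : c = c' ∧ r = r' ∧ s = s' ∧ A = A' := by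
  obtain ⟨h1, h2, h3, h4⟩ := bm_inj (congrArg Subtype.val h)
  exact ⟨h1, h2, h3, Units.ext h4⟩

/-- The transvection. -/
def tz (n : ℕ) : SLp n := elt 1 0 0 1

theorem tz_val : (tz n : Matrix (Fin (n + 2)) (Fin (n + 2)) (ZMod 2)) = transvection 0 1 1 := by
  show bm 1 0 0 (1 : Matrix (Fin n) (Fin n) (ZMod 2)) = _
  ext i j
  refine Fin.cases ?_ (fun i => Fin.cases ?_ (fun i => ?_) i) i <;>
    refine Fin.cases ?_ (fun j => Fin.cases ?_ (fun j => ?_) j) j <;>
      simp [bm, transvection, Matrix.one_apply, Matrix.single_apply, eq_comm, Fin.ext_iff]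

theorem elt_comm_tz (c : ZMod 2) (r s : Fin n → ZMod 2) (A : GL (Fin n) (ZMod 2)) :
    elt c r s A * tz n = tz n * elt c r s A := by
  rw [tz, elt_mul, elt_mul]
  simp [add_comm]

theorem bm_eta {g : Matrix (Fin (n + 2)) (Fin (n + 2)) (ZMod 2)} (h00 : g 0 0 = 1)
    (h11 : g 1 1 = 1) (hc : ∀ i, i ≠ 0 → g i 0 = 0) (hr : ∀ j, j ≠ 1 → g 1 j = 0) :
    g = bm (g 0 1) (fun j => g 0 j.succ.succ) (fun i => g i.succ.succ 1)
      (Matrix.of fun i j => g i.succ.succ j.succ.succ) := by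
  ext i j
  refine Fin.cases ?_ (fun i => Fin.cases ?_ (fun i => ?_) i) i <;>
    refine Fin.cases ?_ (fun j => Fin.cases ?_ (fun j => ?_) j) j
  · simpa [bm] using h00
  · simp [bm]
  · simp [bm]
  · simpa [bm] using hc 1 (by simp)
  · simpa [bm] using h11
  · simpa [bm] using hr j.succ.succ (by simp [Fin.ext_iff])
  · simpa [bm] using hc i.succ.succ (Fin.succ_ne_zero _)
  · simp [bm]
  · simp [bm]

theorem exists_elt {g : SLp n} (h : g * tz n = tz n * g) :
    ∃ c r s A, elt c r s A = g := by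
  obtain ⟨g, hg⟩ := g
  have h' : g * transvection 0 1 1 = transvection 0 1 1 * g := by
    rw [← tz_val]; exact congrArg Subtype.val h
  rw [transvection, Matrix.mul_add, Matrix.add_mul, Matrix.mul_one, Matrix.one_mul,
    add_right_inj] at h'
  have e : ∀ i j, (if j = (1 : Fin (n + 2)) then g i 0 else 0) =
      (if i = (0 : Fin (n + 2)) then g 1 j else 0) := by
    intro i j
    have := congrFun (congrFun h' i) j
    by_cases hi : i = 0 <;> by_cases hj : j = (1 : Fin (n + 2)) <;>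
      simpa [hi, hj] using this
  have hcol : ∀ i, i ≠ 0 → g i 0 = 0 := fun i hi => by simpa [hi] using e i 1
  have hrow : ∀ j, j ≠ 1 → g 1 j = 0 := fun j hj => by simpa [hj] using (e 0 j).symm
  have h00 : g 0 0 = 1 := by
    by_contra hne
    have h0 : g 0 0 = 0 := by
      have key : ∀ a : ZMod 2, a ≠ 1 → a = 0 := by decide
      exact key _ hne
    rw [Matrix.det_eq_zero_of_column_eq_zero 0 fun i => by
      by_cases hi : i = 0
      · rw [hi]; exact h0
      · exact hcol i hi] at hg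
    exact zero_ne_one hg
  have h11 : g 1 1 = 1 := by simpa [h00] using (e 0 1).symm
  have hbm := bm_eta h00 h11 hcol hrow
  set A : Matrix (Fin n) (Fin n) (ZMod 2) := Matrix.of fun i j => g i.succ.succ j.succ.succ with hA
  set r : Fin n → ZMod 2 := fun j => g 0 j.succ.succ
  set s : Fin n → ZMod 2 := fun i => g i.succ.succ 1
  have hAu : IsUnit A.det := by
    by_contra hne
    obtain ⟨v, hv0, hv⟩ := Matrix.exists_mulVec_eq_zero_iff.mpr
      (not_not.mp fun h => hne (isUnit_iff_ne_zero.mpr h))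
    refine one_ne_zero (α := ZMod 2) (hg.symm.trans (Matrix.exists_mulVec_eq_zero_iff.mp
      ⟨Fin.cons (r ⬝ᵥ v) (Fin.cons 0 v), ?_, ?_⟩))
    · intro h0
      apply hv0
      funext i
      simpa using congrFun h0 i.succ.succ
    · rw [hbm]
      funext i
      refine Fin.cases ?_ (fun i => Fin.cases ?_ (fun i => ?_) i) i
      · simp only [bm, Matrix.mulVec, dotProduct, Fin.sum_univ_succ, Matrix.of_apply, Fin.cons_zero,
          Fin.cons_succ, one_mul, mul_zero, zero_add, Pi.zero_apply]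
        exact CharTwo.add_self_eq_zero _
      · simp [bm, Matrix.mulVec, dotProduct, Fin.sum_univ_succ]
      · simpa [bm, Matrix.mulVec, dotProduct, Fin.sum_univ_succ] using congrFun hv i
  exact ⟨g 0 1, r, s, Matrix.GeneralLinearGroup.mk'' A hAu, Subtype.ext hbm.symm⟩

/-- The centralizer. -/
abbrev C (n : ℕ) : Subgroup (SLp n) := Subgroup.centralizer ({tz n} : Set (SLp n))

theorem elt_mem_C (c : ZMod 2) (r s : Fin n → ZMod 2) (A : GL (Fin n) (ZMod 2)) :
    elt c r s A ∈ C n := Subgroup.mem_centralizer_singleton_iff.mpr (elt_comm_tz c r s A)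

theorem exists_elt' (g : ↥(C n)) : ∃ c r s A, elt c r s A = (g : SLp n) :=
  exists_elt (Subgroup.mem_centralizer_singleton_iff.mp g.2)

/-- The map to the linear group. -/
noncomputable def θ : ↥(C n) →* GL (Fin n) (ZMod 2) where
  toFun g := (exists_elt' g).choose_spec.choose_spec.choose_spec.choose
  map_one' := by
    have h := (exists_elt' (1 : ↥(C n))).choose_spec.choose_spec.choose_spec.choose_spec
    exact (elt_inj (h.trans elt_one.symm)).2.2.2
  map_mul' g g' := by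
    have h := (exists_elt' (g * g')).choose_spec.choose_spec.choose_spec.choose_spec
    have h1 := (exists_elt' g).choose_spec.choose_spec.choose_spec.choose_spec
    have h2 := (exists_elt' g').choose_spec.choose_spec.choose_spec.choose_spec
    have h3 := congrArg₂ (· * ·) h1 h2
    simp only [elt_mul] at h3
    exact (elt_inj (h.trans h3.symm)).2.2.2

theorem θ_elt (c : ZMod 2) (r s : Fin n → ZMod 2) (A : GL (Fin n) (ZMod 2)) :
    θ ⟨elt c r s A, elt_mem_C c r s A⟩ = A :=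
  (elt_inj (exists_elt' ⟨elt c r s A, elt_mem_C c r s A⟩).choose_spec.choose_spec.choose_spec.choose_spec).2.2.2

/-- The section. -/
noncomputable def σ : GL (Fin n) (ZMod 2) →* ↥(C n) where
  toFun A := ⟨elt 0 0 0 A, elt_mem_C _ _ _ _⟩
  map_one' := Subtype.ext elt_one
  map_mul' A B := Subtype.ext (by
    show elt 0 0 0 (A * B) = elt 0 0 0 A * elt 0 0 0 B
    rw [elt_mul]; simp)

/-- The kernel, in the ambient group. -/
noncomputable abbrev Q (n : ℕ) : Subgroup (SLp n) := (θ (n := n)).ker.map (C n).subtype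

theorem mem_Q_iff {g : SLp n} : g ∈ Q n ↔ ∃ c r s, elt c r s 1 = g := by
  constructor
  · rintro ⟨x, hx, rfl⟩
    obtain ⟨c, r, s, A, h⟩ := exists_elt' x
    have hθ : θ x = A := by
      rw [← θ_elt c r s A]
      exact congrArg θ (Subtype.ext h.symm)
    refine ⟨c, r, s, ?_⟩
    rw [← show A = 1 from hθ.symm.trans hx]
    exact h
  · rintro ⟨c, r, s, rfl⟩
    exact ⟨⟨_, elt_mem_C c r s 1⟩, θ_elt c r s 1, rfl⟩

theorem card_Q : Nat.card ↥(Q n) = 2 ^ (2 * n + 1) := by
  rw [← Nat.card_eq_of_bijective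
    (fun p : ZMod 2 × (Fin n → ZMod 2) × (Fin n → ZMod 2) =>
      (⟨elt p.1 p.2.1 p.2.2 1, mem_Q_iff.mpr ⟨_, _, _, rfl⟩⟩ : ↥(Q n)))
    ⟨fun a b h => by
      obtain ⟨h1, h2, h3, -⟩ := elt_inj (congrArg Subtype.val h)
      exact Prod.ext h1 (Prod.ext h2 h3),
     fun q => by
      obtain ⟨c, r, s, h⟩ := mem_Q_iff.mp q.2
      exact ⟨(c, r, s), Subtype.ext h⟩⟩]
  simp [← pow_succ', ← pow_add]
  ring

theorem pair_of_corner {g : SLp n} {a : ZMod 2} (h : g = elt a 0 0 1) : g = 1 ∨ g = tz n := by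
  fin_cases a
  · left; rw [h]; exact elt_one
  · right; exact h

theorem cent_Q {g : SLp n} (hgC : g * tz n = tz n * g) (h : ∀ q ∈ Q n, q * g = g * q) :
    g = 1 ∨ g = tz n := by
  obtain ⟨c, r, s, A, rfl⟩ := exists_elt hgC
  have hr : r = 0 := by
    funext i
    have h1 := h _ (mem_Q_iff.mpr ⟨0, 0, Pi.single i 1, rfl⟩)
    rw [elt_mul, elt_mul] at h1
    simpa [eq_comm] using (elt_inj h1).1
  have hs : s = 0 := by
    funext i
    have h1 := h _ (mem_Q_iff.mpr ⟨0, Pi.single i 1, 0, rfl⟩)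
    rw [elt_mul, elt_mul] at h1
    simpa [eq_comm] using (elt_inj h1).1
  have hA : A = 1 := by
    apply Units.ext
    refine Matrix.ext fun i j => ?_
    have h1 := h _ (mem_Q_iff.mpr ⟨0, 0, Pi.single j 1, rfl⟩)
    rw [elt_mul, elt_mul] at h1
    have h2 := congrFun (elt_inj h1).2.2.1 i
    simpa [hs, Matrix.mulVec_single, Pi.single_apply, Matrix.one_apply, eq_comm] using h2
  subst hr hs hA
  exact pair_of_corner rfl

theorem isExtraspecial (hn : 1 ≤ n) : Cfsg.IsExtraspecial 2 ↥(Q n) := by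
  refine isExtraspecial_of_pair (z := tz n) (IsPGroup.of_card card_Q) (mem_Q_iff.mpr ⟨_, _, _, rfl⟩)
    ?_ ?_ ?_ ?_ ?_ ?_
  · rw [← elt_one, tz]
    intro h
    exact one_ne_zero (elt_inj h).1
  · intro x hx y hy
    obtain ⟨c, r, s, rfl⟩ := mem_Q_iff.mp hx
    obtain ⟨c', r', s', rfl⟩ := mem_Q_iff.mp hy
    refine pair_of_corner (a := r ⬝ᵥ s' + r' ⬝ᵥ s) ?_
    rw [mul_inv_eq_iff_eq_mul, mul_inv_eq_iff_eq_mul, elt_mul, elt_mul, elt_mul]
    simp only [Units.val_one, Matrix.vecMul_one, Matrix.one_mulVec, mul_one, zero_add, add_zero,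
      zero_dotProduct, Matrix.zero_vecMul, Matrix.mulVec_zero]
    have key : ∀ a b R R' : ZMod 2, b + a + R = a + (b + (R + R')) + R' := by decide
    congr 1
    · exact key _ _ _ _
    · exact add_comm _ _
    · exact add_comm _ _
  · intro x hx
    obtain ⟨c, r, s, rfl⟩ := mem_Q_iff.mp hx
    refine pair_of_corner (a := r ⬝ᵥ s) ?_
    rw [elt_mul]
    simp only [Units.val_one, Matrix.vecMul_one, Matrix.one_mulVec, mul_one]
    congr 1
    · rw [CharTwo.add_self_eq_zero, zero_add]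
    · funext i; exact CharTwo.add_self_eq_zero _
    · funext i; exact CharTwo.add_self_eq_zero _
  · intro x hx h
    obtain ⟨c, r, s, rfl⟩ := mem_Q_iff.mp hx
    exact cent_Q (elt_comm_tz c r s 1) h
  · intro y hy
    obtain ⟨c, r, s, rfl⟩ := mem_Q_iff.mp hy
    exact elt_comm_tz c r s 1
  · refine ⟨_, mem_Q_iff.mpr ⟨0, Pi.single ⟨0, hn⟩ 1, 0, rfl⟩,
      _, mem_Q_iff.mpr ⟨0, 0, Pi.single ⟨0, hn⟩ 1, rfl⟩, fun h => ?_⟩
    rw [elt_mul, elt_mul] at h
    simpa using (elt_inj h).1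

theorem exists_large_data (hn : 1 ≤ n) :
    IsPGroup 2 (θ (n := n)).ker ∧ ∃ E : Subgroup (SLp n), E ≤ Q n ∧
      Cfsg.IsElementaryAbelian 2 E ∧ Nat.card ↥E = 2 ^ (n + 1) := by
  refine ⟨IsPGroup.of_card (n := 2 * n + 1) ?_, ?_⟩
  · rw [← card_Q]
    exact Nat.card_congr ((θ (n := n)).ker.equivMapOfInjective _ (C n).subtype_injective).toEquiv
  let f : Multiplicative (ZMod 2 × (Fin n → ZMod 2)) →* SLp n :=
    { toFun := fun p => elt (Multiplicative.toAdd p).1 (Multiplicative.toAdd p).2 0 1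
      map_one' := elt_one
      map_mul' := fun p q => by rw [elt_mul]; simp [add_comm] }
  have hf : Function.Injective f := fun p q h => by
    obtain ⟨h1, h2, -, -⟩ := elt_inj h
    exact Multiplicative.toAdd.injective (Prod.ext h1 h2)
  refine ⟨f.range, ?_, ⟨⟨⟨?_⟩⟩, ?_⟩, ?_⟩
  · rintro - ⟨p, rfl⟩
    exact mem_Q_iff.mpr ⟨_, _, _, rfl⟩
  · rintro ⟨-, p, rfl⟩ ⟨-, q, rfl⟩
    apply Subtype.ext
    show f p * f q = f q * f p
    rw [← map_mul, ← map_mul, mul_comm]
  · rintro - ⟨p, rfl⟩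
    rw [← map_pow, show p ^ 2 = 1 from ?_, map_one]
    rw [pow_two]
    refine Multiplicative.toAdd.injective (Prod.ext ?_ ?_)
    · exact CharTwo.add_self_eq_zero _
    · funext i; exact CharTwo.add_self_eq_zero _
  · rw [← Nat.card_congr (MonoidHom.ofInjective hf).toEquiv, Nat.card_congr Multiplicative.toAdd]
    simp [← pow_succ']

theorem centralizer_Q (hn : 1 ≤ n) :
    Subgroup.centralizer (Q n : Set (SLp n)) = (Subgroup.center ↥(Q n)).map (Q n).subtype := by
  refine le_antisymm (fun x hx => ?_) ?_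
  · have htz : tz n ∈ Q n := mem_Q_iff.mpr ⟨_, _, _, rfl⟩
    rcases cent_Q (hx _ htz).symm hx with rfl | rfl
    · exact one_mem _
    · exact ⟨⟨tz n, htz⟩, Subgroup.mem_center_iff.mpr fun y => Subtype.ext (hx y y.2), rfl⟩
  · rintro - ⟨x, hx, rfl⟩ y hy
    exact congrArg Subtype.val (Subgroup.mem_center_iff.mp hx ⟨y, hy⟩)

end Trans

open Trans in
/-- Transvection centralizers in `SL(n+2,2)`. -/
theorem transvection_large (n : ℕ) (hn : 2 ≤ n)
    (z : Matrix.SpecialLinearGroup (Fin (n + 2)) (ZMod 2))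
    (hz : (z : Matrix (Fin (n + 2)) (Fin (n + 2)) (ZMod 2)) = Matrix.transvection 0 1 1)
    (Q₀ : Subgroup (Matrix.SpecialLinearGroup (Fin (n + 2)) (ZMod 2)))
    (hQ : Q₀ = (Cfsg.pCore 2 ↥(Subgroup.centralizer ({z} : Set (SLp n)))).map
      (Subgroup.centralizer ({z} : Set (SLp n))).subtype) :
    Cfsg.IsExtraspecial 2 ↥Q₀ ∧ Nat.card ↥Q₀ = 2 ^ (2 * n + 1) ∧
    (∃ E : Subgroup (SLp n), E ≤ Q₀ ∧ Cfsg.IsElementaryAbelian 2 E ∧ Nat.card ↥E = 2 ^ (n + 1)) ∧
    Cfsg.IsLargeExtraspecial Q₀ ∧ ∃ K : Subgroup (SLp n),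
      K ≤ Subgroup.centralizer ({z} : Set (SLp n)) ∧ Q₀ ⊓ K = ⊥ ∧
      Q₀ ⊔ K = Subgroup.centralizer ({z} : Set (SLp n)) ∧
      Nonempty (↥K ≃* Matrix.SpecialLinearGroup (Fin n) (ZMod 2)) := by
  have hz' : z = tz n := Subtype.ext (hz.trans tz_val.symm)
  subst hz'
  obtain ⟨hp, hE⟩ := exists_large_data (n := n) (by omega)
  obtain ⟨hcore, K, hK1, hK2, hK3, ⟨eK⟩⟩ :=
    split_over_gl (C n) θ σ (fun A => θ_elt 0 0 0 A) hp
  rw [hcore] at hQ
  subst hQ
  refine ⟨isExtraspecial (by omega), card_Q, hE, ?_, K, hK1, hK2, hK3, ⟨eK.trans ?_⟩⟩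
  · have hext := isExtraspecial (n := n) (by omega)
    obtain ⟨z', hz1', -, hZ', hmem⟩ := centerMap_eq_pair (Q n) hext
    have htzC : tz n ∈ (Subgroup.center ↥(Q n)).map (Q n).subtype :=
      ⟨⟨tz n, mem_Q_iff.mpr ⟨_, _, _, rfl⟩⟩, Subgroup.mem_center_iff.mpr fun y => Subtype.ext (by
        obtain ⟨c, r, s, h⟩ := mem_Q_iff.mp y.2
        show (y : SLp n) * tz n = tz n * (y : SLp n)
        rw [← h]; exact elt_comm_tz c r s 1), rfl⟩
    have htz1 : tz n ≠ 1 := by
      rw [← elt_one, tz]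
      intro h
      exact one_ne_zero (elt_inj h).1
    have hzz : tz n = z' := ((hmem _).mp htzC).resolve_left htz1
    -- a transvection moving the centre
    have h21 : (2 : Fin (n + 2)) ≠ 1 := fun h => by
      have := congrArg Fin.val h
      simp [Nat.mod_eq_of_lt (show 2 < n + 2 by omega)] at this
    have h20 : (2 : Fin (n + 2)) ≠ 0 := fun h => by
      have := congrArg Fin.val h
      simp [Nat.mod_eq_of_lt (show 2 < n + 2 by omega)] at this
    have h2 : (2 : Fin (n + 2)) = (⟨0, by omega⟩ : Fin n).succ.succ := by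
      apply Fin.ext
      simp [Nat.mod_eq_of_lt (show 2 < n + 2 by omega)]
    let g : SLp n := ⟨Matrix.transvection 1 2 1, Matrix.det_transvection_of_ne _ _ (Ne.symm h21) 1⟩
    have hbv : bm 1 (Pi.single ⟨0, by omega⟩ 1) 0 (1 : Matrix (Fin n) (Fin n) (ZMod 2)) =
        1 + Matrix.single 0 1 1 + Matrix.single 0 2 1 := by
      rw [h2]
      ext i j
      refine Fin.cases ?_ (fun i => Fin.cases ?_ (fun i => ?_) i) i <;>
        refine Fin.cases ?_ (fun j => Fin.cases ?_ (fun j => ?_) j) j <;>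
          simp [bm, Matrix.one_apply, Matrix.single_apply, Pi.single_apply, eq_comm, Fin.ext_iff]
    have hb : g * tz n * g⁻¹ = elt 1 (Pi.single ⟨0, by omega⟩ 1) 0 1 := by
      rw [mul_inv_eq_iff_eq_mul]
      apply Subtype.ext
      show Matrix.transvection 1 2 1 * (tz n).1 =
        bm 1 (Pi.single ⟨0, by omega⟩ 1) 0 1 * Matrix.transvection 1 2 1
      rw [tz_val, hbv]
      have key : ∀ X : Matrix (Fin (n + 2)) (Fin (n + 2)) (ZMod 2), X + X = 0 := fun X => by
        ext i j; exact CharTwo.add_self_eq_zero _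
      simp only [transvection, Matrix.mul_add, Matrix.add_mul, Matrix.one_mul, Matrix.mul_one,
        Matrix.single_mul_single_same, one_mul]
      rw [Matrix.single_mul_single_of_ne 1 1 2 _ h20, Matrix.single_mul_single_of_ne 1 0 2 _ h21]
      linear_combination (norm := abel) -key (Matrix.single 0 2 (1 : ZMod 2))
    have hbQ : g * tz n * g⁻¹ ∈ Q n := hb ▸ mem_Q_iff.mpr ⟨_, _, _, rfl⟩
    refine (S5422.result (Q n) hext (centralizer_Q (by omega)) ?_ n hn card_Q g ?_ ?_).2.2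
    · intro a ha
      have haC : a ∈ C n := Subgroup.mem_centralizer_singleton_iff.mpr (ha (tz n) htzC).symm
      refine Subgroup.mem_normalizer_fintype fun q hq => ?_
      obtain ⟨x, hx, rfl⟩ := Subgroup.mem_map.mp hq
      refine Subgroup.mem_map.mpr ⟨⟨a, haC⟩ * x * (⟨a, haC⟩ : ↥(C n))⁻¹, ?_, ?_⟩
      · rw [MonoidHom.mem_ker] at hx ⊢
        rw [map_mul, map_mul, hx, map_inv, mul_one, mul_inv_cancel]
      · simp only [Subgroup.subtype_apply, Subgroup.coe_mul, Subgroup.coe_inv]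
    · intro hg
      rcases (hmem _).mp ((Subgroup.mem_normalizer_iff.mp hg _).mp htzC) with e | e
      · exact htz1 (conj_eq_one_iff.mp e)
      · rw [hb, ← hzz, tz] at e
        simpa using congrFun (elt_inj e).2.1 ⟨0, by omega⟩
    · rintro - ⟨w, hw, rfl⟩
      rcases (hmem w).mp hw with e | e
      · rw [e, map_one]; exact one_mem _
      · rw [e, ← hzz]; exact hbQ
  · refine (MulEquiv.ofBijective (Matrix.SpecialLinearGroup.toGL :
      Matrix.SpecialLinearGroup (Fin n) (ZMod 2) →* GL (Fin n) (ZMod 2)) ⟨?_, ?_⟩).symm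
    · exact fun a b h => Subtype.ext (congrArg Units.val h)
    · intro A
      have key : ∀ a : ZMod 2, a ≠ 0 → a = 1 := by decide
      let B : Matrix.SpecialLinearGroup (Fin n) (ZMod 2) :=
        ⟨A.1, key _ ((Matrix.isUnit_iff_isUnit_det _).mp A.isUnit).ne_zero⟩
      exact ⟨B, Units.ext rfl⟩

end Cfsg.Agent.H18
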